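import Mathlib
import Cfsg.Agent.Lib.Helper14.OrthIndex
import Cfsg.Agent.Lib.Helper45.OrthCard
import Cfsg.Agent.Lib.Helper44.OMat2
import Cfsg.Agent.Lib.Helper44.NegPairs

set_option autoImplicit false

namespace Cfsg.Agent.Lib.Helper5.OmegaPlus

open Cfsg.Agent.Lib.Helper44.QSpace Cfsg.Agent.Lib.Helper44.NegPairs

section

variable {F : Type*} [Field F] [Fintype F]

theorem odd_card_of_two_ne_zero (h2 : (2 : F) ≠ 0) : Fintype.card F % 2 = 1 := by
  apply FiniteField.odd_card_of_char_ne_two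
  intro h
  apply h2
  have := CharP.cast_eq_zero F (ringChar F)
  rw [h] at this
  exact_mod_cast this

theorem even_card_of_two_eq_zero (h2 : (2 : F) = 0) : Fintype.card F % 2 = 0 := by
  have : CharP F 2 := CharTwo.of_one_ne_zero_of_two_eq_zero one_ne_zero h2
  exact FiniteField.even_card_of_char_two (ringChar.eq F 2)

theorem gcd_two_of_ne (h2 : (2 : F) ≠ 0) : Nat.gcd 2 (Fintype.card F - 1) = 2 := by
  have h := odd_card_of_two_ne_zero h2
  obtain ⟨k, hk⟩ : ∃ k, Fintype.card F - 1 = 2 * k := ⟨Fintype.card F / 2, by omega⟩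
  rw [hk]
  exact Nat.gcd_mul_right_right k 2

theorem gcd_two_of_eq (h2 : (2 : F) = 0) : Nat.gcd 2 (Fintype.card F - 1) = 1 := by
  have h := even_card_of_two_eq_zero h2
  have hpos : 0 < Fintype.card F := Fintype.card_pos
  have hodd : (Fintype.card F - 1) % 2 = 1 := by omega
  exact Nat.coprime_two_left.mpr (Nat.odd_iff.mpr hodd)

/-- index of `Ω⁺_{2m}(q)` in `O⁺_{2m}(q)`, all `q`, excluding `O⁺_4(2)`. -/
theorem index_plus (m : ℕ) (hm : 1 ≤ m) (h : Fintype.card F ≠ 2 ∨ m ≠ 2) :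
    (Cfsg.Omega F (Cfsg.quadFormPlus m F)).index = 2 * Nat.gcd 2 (Fintype.card F - 1) := by
  classical
  by_cases h2 : (2 : F) = 0
  · rw [gcd_two_of_eq h2]
    have : CharP F 2 := CharTwo.of_one_ne_zero_of_two_eq_zero one_ne_zero h2
    have hS : Sep (plusQ m F) := sep_plusQ m
    have hG := Cfsg.Agent.Lib.Helper44.OMat2.good_of_card' hS (by
      rcases h with h | h
      · left; exact h
      · right
        rw [Fintype.card_sum, Fintype.card_fin]
        omega)
    have h1 := Cfsg.Agent.Lib.Helper44.OMat2.index_omega_eq (plusQ m F)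
    have : Nonempty (Fin m ⊕ Fin m) := ⟨Sum.inl ⟨0, by omega⟩⟩
    have h3 := Cfsg.Agent.Lib.Helper44.Omega2.index_commutator_two hS hG
    rw [h3] at h1
    exact h1
  · rw [gcd_two_of_ne h2]
    exact Cfsg.Agent.Lib.Helper14.OrthIndex.index_omega h2 (plusQ m F) (sep_plusQ m) (by
      rw [Fintype.card_sum, Fintype.card_fin]
      omega)

/-- `|Ω⁺_{2(k+1)}(q)| · gcd(2, q-1)` -/
theorem card_omega_plus {q : ℕ} (hF : Fintype.card F = q) (k : ℕ) (h : q ≠ 2 ∨ k ≠ 1) :
    Nat.card (Cfsg.Omega F (Cfsg.quadFormPlus (k + 1) F)) * Nat.gcd 2 (q - 1) =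
      q ^ ((k + 1) * k) * (q ^ (k + 1) - 1) * ∏ i ∈ Finset.range k, (q ^ (2 * (i + 1)) - 1) := by
  have hidx := index_plus (F := F) (k + 1) (by omega) (by
    rcases h with h | h
    · left; rw [hF]; exact h
    · right; omega)
  have hcard := Cfsg.Agent.Lib.Helper45.OrthCard.card_plus hF k
  have h1 := Subgroup.card_mul_index (Cfsg.Omega F (Cfsg.quadFormPlus (k + 1) F))
  rw [hidx, hcard, hF] at h1
  have h2 : 2 * (Nat.card (Cfsg.Omega F (Cfsg.quadFormPlus (k + 1) F)) * Nat.gcd 2 (q - 1)) =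
      2 * (q ^ ((k + 1) * k) * (q ^ (k + 1) - 1) *
        ∏ i ∈ Finset.range k, (q ^ (2 * (i + 1)) - 1)) := by
    have h3 : 2 * (Nat.card (Cfsg.Omega F (Cfsg.quadFormPlus (k + 1) F)) * Nat.gcd 2 (q - 1)) =
        Nat.card (Cfsg.Omega F (Cfsg.quadFormPlus (k + 1) F)) * (2 * Nat.gcd 2 (q - 1)) := by ring
    rw [h3, h1]
    ring
  exact Nat.eq_of_mul_eq_mul_left (by norm_num) h2

end

/-- the centre of a product, on quotients -/
theorem prod_quot_center (G H : Type*) [Group G] [Group H] :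
    Nonempty ((G × H) ⧸ Subgroup.center (G × H) ≃*
      (G ⧸ Subgroup.center G) × (H ⧸ Subgroup.center H)) := by
  let π : G × H →* (G ⧸ Subgroup.center G) × (H ⧸ Subgroup.center H) :=
    (QuotientGroup.mk' (Subgroup.center G)).prodMap (QuotientGroup.mk' (Subgroup.center H))
  have hπ : Function.Surjective π := by
    rintro ⟨x, y⟩
    obtain ⟨g, rfl⟩ := QuotientGroup.mk'_surjective _ x
    obtain ⟨h, rfl⟩ := QuotientGroup.mk'_surjective _ y
    exact ⟨(g, h), rfl⟩
  have hker : π.ker = Subgroup.center (G × H) := by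
    ext ⟨g, h⟩
    rw [MonoidHom.mem_ker, Subgroup.mem_center_iff]
    show ((QuotientGroup.mk g : G ⧸ Subgroup.center G), (QuotientGroup.mk h : H ⧸ Subgroup.center H))
      = 1 ↔ _
    rw [Prod.ext_iff]
    show (QuotientGroup.mk g : G ⧸ Subgroup.center G) = 1 ∧
      (QuotientGroup.mk h : H ⧸ Subgroup.center H) = 1 ↔ _
    rw [QuotientGroup.eq_one_iff, QuotientGroup.eq_one_iff, Subgroup.mem_center_iff,
      Subgroup.mem_center_iff]
    constructor
    · rintro ⟨h1, h2⟩ ⟨x, y⟩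
      exact Prod.ext (h1 x) (h2 y)
    · intro hc
      exact ⟨fun x => congrArg Prod.fst (hc (x, 1)), fun y => congrArg Prod.snd (hc (1, y))⟩
  exact ⟨(QuotientGroup.quotientMulEquivOfEq hker.symm).trans
    (QuotientGroup.quotientKerEquivOfSurjective π hπ)⟩

end Cfsg.Agent.Lib.Helper5.OmegaPlus
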