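import Mathlib

set_option autoImplicit false

namespace Cfsg.Agent.Lib.Helper5.QuadExt

/-- pairs `re + im θ` with `θ² = a θ - b`: an explicit model of the quadratic extension -/
@[ext] structure Ext (F : Type*) [Field F] (a b : F) where
  /-- constant coefficient -/
  re : F
  /-- coefficient of `θ` -/
  im : F

variable {F : Type*} [Field F] {a b : F}

namespace Ext

instance : Zero (Ext F a b) := ⟨⟨0, 0⟩⟩
instance : One (Ext F a b) := ⟨⟨1, 0⟩⟩
instance : Add (Ext F a b) := ⟨fun x y => ⟨x.re + y.re, x.im + y.im⟩⟩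
instance : Neg (Ext F a b) := ⟨fun x => ⟨-x.re, -x.im⟩⟩
instance : Sub (Ext F a b) := ⟨fun x y => ⟨x.re - y.re, x.im - y.im⟩⟩
instance : Mul (Ext F a b) :=
  ⟨fun x y => ⟨x.re * y.re - b * x.im * y.im, x.re * y.im + x.im * y.re + a * x.im * y.im⟩⟩

@[simp] theorem zero_re : (0 : Ext F a b).re = 0 := rfl
@[simp] theorem zero_im : (0 : Ext F a b).im = 0 := rfl
@[simp] theorem one_re : (1 : Ext F a b).re = 1 := rfl
@[simp] theorem one_im : (1 : Ext F a b).im = 0 := rfl
@[simp] theorem add_re (x y : Ext F a b) : (x + y).re = x.re + y.re := rfl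
@[simp] theorem add_im (x y : Ext F a b) : (x + y).im = x.im + y.im := rfl
@[simp] theorem neg_re (x : Ext F a b) : (-x).re = -x.re := rfl
@[simp] theorem neg_im (x : Ext F a b) : (-x).im = -x.im := rfl
@[simp] theorem sub_re (x y : Ext F a b) : (x - y).re = x.re - y.re := rfl
@[simp] theorem sub_im (x y : Ext F a b) : (x - y).im = x.im - y.im := rfl
@[simp] theorem mul_re (x y : Ext F a b) : (x * y).re = x.re * y.re - b * x.im * y.im := rfl
@[simp] theorem mul_im (x y : Ext F a b) :
    (x * y).im = x.re * y.im + x.im * y.re + a * x.im * y.im := rfl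

instance : CommRing (Ext F a b) where
  add_assoc x y z := by ext <;> simp <;> ring
  zero_add x := by ext <;> simp
  add_zero x := by ext <;> simp
  nsmul := nsmulRec
  zsmul := zsmulRec
  neg_add_cancel x := by ext <;> simp
  add_comm x y := by ext <;> simp <;> ring
  sub_eq_add_neg x y := by ext <;> simp <;> ring
  left_distrib x y z := by ext <;> simp <;> ring
  right_distrib x y z := by ext <;> simp <;> ring
  zero_mul x := by ext <;> simp
  mul_zero x := by ext <;> simp
  mul_assoc x y z := by ext <;> simp <;> ring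
  one_mul x := by ext <;> simp
  mul_one x := by ext <;> simp
  mul_comm x y := by ext <;> simp <;> ring

/-- the conjugate -/
def conj (x : Ext F a b) : Ext F a b := ⟨x.re + a * x.im, -x.im⟩

/-- the norm -/
def nrm (x : Ext F a b) : F := x.re ^ 2 + a * x.re * x.im + b * x.im ^ 2

/-- the trace -/
def tr (x : Ext F a b) : F := 2 * x.re + a * x.im

/-- the generator -/
def θ : Ext F a b := ⟨0, 1⟩

@[simp] theorem conj_re (x : Ext F a b) : (conj x).re = x.re + a * x.im := rfl
@[simp] theorem conj_im (x : Ext F a b) : (conj x).im = -x.im := rfl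
@[simp] theorem θ_re : (θ : Ext F a b).re = 0 := rfl
@[simp] theorem θ_im : (θ : Ext F a b).im = 1 := rfl

theorem conj_mul (x y : Ext F a b) : conj (x * y) = conj x * conj y := by
  ext <;> simp <;> ring

theorem conj_one : conj (1 : Ext F a b) = 1 := by
  ext <;> simp

theorem conj_conj (x : Ext F a b) : conj (conj x) = x := by
  ext <;> simp

theorem mul_conj (x : Ext F a b) : x * conj x = ⟨nrm x, 0⟩ := by
  ext <;> simp [nrm] <;> ring

theorem eq_zero_of_nrm
    (hab : ∀ z₁ z₂ : F, z₁ ^ 2 + a * z₁ * z₂ + b * z₂ ^ 2 = 0 → z₁ = 0 ∧ z₂ = 0)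
    (x : Ext F a b) (hx : nrm x = 0) : x = 0 := by
  obtain ⟨h1, h2⟩ := hab x.re x.im hx
  ext <;> simp [h1, h2]

theorem isField
    (hab : ∀ z₁ z₂ : F, z₁ ^ 2 + a * z₁ * z₂ + b * z₂ ^ 2 = 0 → z₁ = 0 ∧ z₂ = 0) :
    IsField (Ext F a b) where
  exists_pair_ne := ⟨0, 1, fun h => by
    have := congrArg Ext.re h
    simp at this⟩
  mul_comm := mul_comm
  mul_inv_cancel := by
    intro x hx
    have hN : nrm x ≠ 0 := fun h => hx (eq_zero_of_nrm hab x h)
    refine ⟨⟨(x.re + a * x.im) / nrm x, -x.im / nrm x⟩, ?_⟩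
    ext
    · simp only [mul_re, one_re]
      field_simp
      simp only [nrm]
      ring
    · simp only [mul_im, one_im]
      field_simp
      ring

/-- the pairs -/
def equivProd : Ext F a b ≃ F × F where
  toFun x := (x.re, x.im)
  invFun p := ⟨p.1, p.2⟩
  left_inv _ := rfl
  right_inv _ := rfl

noncomputable instance [Fintype F] : Fintype (Ext F a b) := Fintype.ofEquiv _ equivProd.symm

theorem card [Fintype F] : Fintype.card (Ext F a b) = Fintype.card F ^ 2 := by
  rw [Fintype.card_congr (equivProd (F := F) (a := a) (b := b)), Fintype.card_prod, sq]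

end Ext

/-- a field of order `q²` is the explicit quadratic extension -/
theorem exists_equiv [Fintype F] {K : Type*} [Field K] [Fintype K]
    (hK : Fintype.card K = Fintype.card F ^ 2)
    (hab : ∀ z₁ z₂ : F, z₁ ^ 2 + a * z₁ * z₂ + b * z₂ ^ 2 = 0 → z₁ = 0 ∧ z₂ = 0) :
    Nonempty (K ≃+* Ext F a b) := by
  letI : Field (Ext F a b) := (Ext.isField hab).toField
  exact ⟨FiniteField.ringEquivOfCardEq (hK.trans Ext.card.symm)⟩

end Cfsg.Agent.Lib.Helper5.QuadExt
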