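import Cfsg.Agent.Lib.Helper5.B2Model
import Cfsg.Prelude.Def_Classical

/-!
helper5: the isometry group of `x₀² + x₁y₁ + x₂y₂` over an arbitrary field: root elements,
elimination (`O = E · Diag`), the commutator subgroup, and the isomorphism of `PΩ₅` with the
Chevalley group of type `B₂`.
-/

set_option autoImplicit false
set_option linter.unusedSectionVars false
set_option linter.unusedSimpArgs false
set_option linter.unusedVariables false

namespace Cfsg.Agent.Lib.Helper5.B2Iso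

open Cfsg.Agent.Lib.Helper5.ChevRep Cfsg.Agent.Lib.Helper5.B2Model Matrix
open scoped commutatorElement

variable {F : Type*} [Field F]

/-- the vector with the given coordinates (order `e0 e1 e2 f1 f2`). -/
def vec5 (a b c d e : F) : I5 → F := fun i =>
  match i with
  | Sum.inl _ => a
  | Sum.inr (Sum.inl j) => if j = 0 then b else c
  | Sum.inr (Sum.inr j) => if j = 0 then d else e

@[simp] lemma vec5_e0 (a b c d e : F) : vec5 a b c d e e0 = a := rfl
@[simp] lemma vec5_e1 (a b c d e : F) : vec5 a b c d e e1 = b := rfl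
@[simp] lemma vec5_e2 (a b c d e : F) : vec5 a b c d e e2 = c := rfl
@[simp] lemma vec5_f1 (a b c d e : F) : vec5 a b c d e f1 = d := rfl
@[simp] lemma vec5_f2 (a b c d e : F) : vec5 a b c d e f2 = e := rfl

lemma I5_forall {P : I5 → Prop} : (∀ i, P i) ↔ P e0 ∧ P e1 ∧ P e2 ∧ P f1 ∧ P f2 := by
  constructor
  · intro h
    exact ⟨h _, h _, h _, h _, h _⟩
  · rintro ⟨h0, h1, h2, h3, h4⟩ i
    rcases i with ⟨⟩ | j | j
    · exact h0
    · fin_cases j
      · exact h1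
      · exact h2
    · fin_cases j
      · exact h3
      · exact h4

lemma vec5_eta (v : I5 → F) : v = vec5 (v e0) (v e1) (v e2) (v f1) (v f2) := by
  funext i
  revert i
  rw [I5_forall]
  exact ⟨rfl, rfl, rfl, rfl, rfl⟩

lemma vec5_congr {a b c d e a' b' c' d' e' : F} (h1 : a = a') (h2 : b = b') (h3 : c = c')
    (h4 : d = d') (h5 : e = e') : vec5 a b c d e = vec5 a' b' c' d' e' := by
  subst h1 h2 h3 h4 h5; rfl

lemma I5_sum (f : I5 → F) : ∑ i, f i = f e0 + f e1 + f e2 + f f1 + f f2 := by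
  rw [Fintype.sum_sum_type, Fintype.sum_sum_type, Fin.sum_univ_two, Fin.sum_univ_two]
  simp
  ring

lemma Q_eq (v : I5 → F) : quadFormOdd 2 F v = v e0 ^ 2 + v e1 * v f1 + v e2 * v f2 := by
  simp [quadFormOdd, Fin.sum_univ_two]
  ring

lemma X_mulVec (n : ℕ) (t : F) (v : I5 → F) (i : I5) :
    (X F n t *ᵥ v) i = v i + t * (spMat F (Nl n) *ᵥ v) i + t ^ 2 * (spMat F (Ml n) *ᵥ v) i := by
  simp [X, Matrix.add_mulVec, Matrix.smul_mulVec]

lemma X0 (t : F) (v : I5 → F) :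
    X F 0 t *ᵥ v = vec5 (v e0) (v e1) (v e2) (v f1 + t * v e2) (v f2 - t * v e1) := by
  funext i
  rw [X_mulVec, spMat_mulVec, spMat_mulVec]
  revert i
  rw [I5_forall]
  simp [Nl, NlT, Ml, MlT]
  ring

lemma X1 (t : F) (v : I5 → F) :
    X F 1 t *ᵥ v = vec5 (v e0 - t * v e1) (v e1) (v e2) (v f1 + 2 * t * v e0 - t ^ 2 * v e1) (v f2) := by
  funext i
  rw [X_mulVec, spMat_mulVec, spMat_mulVec]
  revert i
  rw [I5_forall]
  simp [Nl, NlT, Ml, MlT]
  constructor <;> ring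

lemma X2 (t : F) (v : I5 → F) :
    X F 2 t *ᵥ v = vec5 (v e0 + t * v e2) (v e1) (v e2) (v f1) (v f2 - 2 * t * v e0 - t ^ 2 * v e2) := by
  funext i
  rw [X_mulVec, spMat_mulVec, spMat_mulVec]
  revert i
  rw [I5_forall]
  simp [Nl, NlT, Ml, MlT]
  ring

lemma X3 (t : F) (v : I5 → F) :
    X F 3 t *ᵥ v = vec5 (v e0) (v e1) (v e2 - t * v e1) (v f1 + t * v f2) (v f2) := by
  funext i
  rw [X_mulVec, spMat_mulVec, spMat_mulVec]
  revert i
  rw [I5_forall]
  simp [Nl, NlT, Ml, MlT]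
  ring

lemma X4 (t : F) (v : I5 → F) :
    X F 4 t *ᵥ v = vec5 (v e0) (v e1 - t * v e2) (v e2) (v f1) (v f2 + t * v f1) := by
  funext i
  rw [X_mulVec, spMat_mulVec, spMat_mulVec]
  revert i
  rw [I5_forall]
  simp [Nl, NlT, Ml, MlT]
  ring

lemma X5 (t : F) (v : I5 → F) :
    X F 5 t *ᵥ v = vec5 (v e0 - t * v f2) (v e1) (v e2 + 2 * t * v e0 - t ^ 2 * v f2) (v f1) (v f2) := by
  funext i
  rw [X_mulVec, spMat_mulVec, spMat_mulVec]
  revert i
  rw [I5_forall]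
  simp [Nl, NlT, Ml, MlT]
  constructor <;> ring

lemma X6 (t : F) (v : I5 → F) :
    X F 6 t *ᵥ v = vec5 (v e0 + t * v f1) (v e1 - 2 * t * v e0 - t ^ 2 * v f1) (v e2) (v f1) (v f2) := by
  funext i
  rw [X_mulVec, spMat_mulVec, spMat_mulVec]
  revert i
  rw [I5_forall]
  simp [Nl, NlT, Ml, MlT]
  ring

lemma X7 (t : F) (v : I5 → F) :
    X F 7 t *ᵥ v = vec5 (v e0) (v e1 - t * v f2) (v e2 + t * v f1) (v f1) (v f2) := by
  funext i
  rw [X_mulVec, spMat_mulVec, spMat_mulVec]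
  revert i
  rw [I5_forall]
  simp [Nl, NlT, Ml, MlT]
  ring


/-- matrices preserving the quadratic form. -/
def IsQ (g : Matrix I5 I5 F) : Prop := ∀ v, quadFormOdd 2 F (g *ᵥ v) = quadFormOdd 2 F v

lemma IsQ.mul {g h : Matrix I5 I5 F} (hg : IsQ g) (hh : IsQ h) : IsQ (g * h) := by
  intro v
  rw [← Matrix.mulVec_mulVec, hg, hh]

lemma isQ_one : IsQ (1 : Matrix I5 I5 F) := by
  intro v
  rw [Matrix.one_mulVec]

lemma isQ_X (n : ℕ) (hn : n < 8) (t : F) : IsQ (X F n t) := by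
  intro v
  interval_cases n
  · rw [X0, Q_eq, Q_eq]; simp; ring
  · rw [X1, Q_eq, Q_eq]; simp; ring
  · rw [X2, Q_eq, Q_eq]; simp; ring
  · rw [X3, Q_eq, Q_eq]; simp; ring
  · rw [X4, Q_eq, Q_eq]; simp; ring
  · rw [X5, Q_eq, Q_eq]; simp; ring
  · rw [X6, Q_eq, Q_eq]; simp; ring
  · rw [X7, Q_eq, Q_eq]; simp; ring

lemma mat_ext_mulVec {A B : Matrix I5 I5 F} (h : ∀ v, A *ᵥ v = B *ᵥ v) : A = B := by
  ext i j
  have := congrFun (h (Pi.single j 1)) i
  simpa [Matrix.mulVec, dotProduct, Pi.single_apply] using this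

lemma X_add (n : ℕ) (hn : n < 8) (a b : F) : X F n a * X F n b = X F n (a + b) := by
  apply mat_ext_mulVec
  intro v
  rw [← Matrix.mulVec_mulVec]
  interval_cases n
  · rw [X0, X0, X0]; simp; apply vec5_congr <;> ring
  · rw [X1, X1, X1]; simp; apply vec5_congr <;> ring
  · rw [X2, X2, X2]; simp; apply vec5_congr <;> ring
  · rw [X3, X3, X3]; simp; apply vec5_congr <;> ring
  · rw [X4, X4, X4]; simp; apply vec5_congr <;> ring
  · rw [X5, X5, X5]; simp; apply vec5_congr <;> ring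
  · rw [X6, X6, X6]; simp; apply vec5_congr <;> ring
  · rw [X7, X7, X7]; simp; apply vec5_congr <;> ring

lemma X_zero (n : ℕ) : X F n 0 = 1 := by
  simp [X]

lemma X_mul_neg (n : ℕ) (hn : n < 8) (t : F) : X F n t * X F n (-t) = 1 := by
  rw [X_add n hn, add_neg_cancel, X_zero]

lemma X_neg_mul (n : ℕ) (hn : n < 8) (t : F) : X F n (-t) * X F n t = 1 := by
  rw [X_add n hn, neg_add_cancel, X_zero]

/-- the monoid generated by the root elements. -/
def E (F : Type*) [Field F] : Submonoid (Matrix I5 I5 F) :=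
  Submonoid.closure {x | ∃ n, n < 8 ∧ ∃ t : F, x = X F n t}

lemma X_mem (n : ℕ) (hn : n < 8) (t : F) : X F n t ∈ E F :=
  Submonoid.subset_closure ⟨n, hn, t, rfl⟩

lemma isQ_of_mem {x : Matrix I5 I5 F} (hx : x ∈ E F) : IsQ x := by
  induction hx using Submonoid.closure_induction with
  | mem x hx =>
    obtain ⟨n, hn, t, rfl⟩ := hx
    exact isQ_X n hn t
  | one => exact isQ_one
  | mul x y _ _ hx hy => exact hx.mul hy

/-! ### elimination on vectors -/

lemma V1a (v : I5 → F) (hQ : quadFormOdd 2 F v = 0) (h1 : v e1 ≠ 0) :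
    ∃ x ∈ E F, x *ᵥ v = vec5 0 (v e1) 0 0 0 := by
  refine ⟨X F 0 (v f2 / v e1) * X F 3 (v e2 / v e1) * X F 1 (v e0 / v e1),
    (E F).mul_mem ((E F).mul_mem (X_mem 0 (by norm_num) _) (X_mem 3 (by norm_num) _))
      (X_mem 1 (by norm_num) _), ?_⟩
  rw [Q_eq] at hQ
  rw [← Matrix.mulVec_mulVec, ← Matrix.mulVec_mulVec, X1, X3, X0]
  simp only [vec5_e0, vec5_e1, vec5_e2, vec5_f1, vec5_f2]
  apply vec5_congr
  · field_simp; ring
  · rfl
  · field_simp; ring
  · field_simp; linear_combination hQ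
  · field_simp; ring

lemma V1b (v : I5 → F) (hQ : quadFormOdd 2 F v = 0) (hv : v ≠ 0) :
    ∃ x ∈ E F, (x *ᵥ v) e1 ≠ 0 := by
  by_cases h1 : v e1 = 0
  swap
  · exact ⟨1, (E F).one_mem, by rwa [Matrix.one_mulVec]⟩
  by_cases h2 : v e2 = 0
  swap
  · refine ⟨X F 4 1, X_mem 4 (by norm_num) _, ?_⟩
    rw [X4]
    simp [h1, h2]
  by_cases h3 : v f2 = 0
  swap
  · refine ⟨X F 7 1, X_mem 7 (by norm_num) _, ?_⟩
    rw [X7]
    simp [h1, h3]
  rw [Q_eq, h1, h2] at hQ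
  have h0 : v e0 = 0 := by
    have : v e0 ^ 2 = 0 := by linear_combination hQ
    exact pow_eq_zero_iff (two_ne_zero) |>.mp this
  have h4 : v f1 ≠ 0 := by
    intro h4
    apply hv
    rw [vec5_eta v, h0, h1, h2, h3, h4]
    funext i
    revert i
    rw [I5_forall]
    exact ⟨rfl, rfl, rfl, rfl, rfl⟩
  refine ⟨X F 6 1, X_mem 6 (by norm_num) _, ?_⟩
  rw [X6]
  simp [h0, h1, h4]

lemma V1 (v : I5 → F) (hQ : quadFormOdd 2 F v = 0) (hv : v ≠ 0) :
    ∃ x ∈ E F, ∃ c : F, c ≠ 0 ∧ x *ᵥ v = vec5 0 c 0 0 0 := by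
  obtain ⟨x, hx, hx1⟩ := V1b v hQ hv
  obtain ⟨y, hy, hy1⟩ := V1a (x *ᵥ v) (by rw [isQ_of_mem hx, hQ]) hx1
  exact ⟨y * x, (E F).mul_mem hy hx, _, hx1, by rw [← Matrix.mulVec_mulVec, hy1]⟩

lemma V2 (w : I5 → F) (hQ : quadFormOdd 2 F w = 0) (h1 : w f1 ≠ 0) :
    ∃ x ∈ E F, (∀ c : F, x *ᵥ vec5 0 c 0 0 0 = vec5 0 c 0 0 0) ∧
      x *ᵥ w = vec5 0 0 0 (w f1) 0 := by
  refine ⟨X F 7 (-(w e2 / w f1)) * X F 4 (-(w f2 / w f1)) * X F 6 (-(w e0 / w f1)),
    (E F).mul_mem ((E F).mul_mem (X_mem 7 (by norm_num) _) (X_mem 4 (by norm_num) _))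
      (X_mem 6 (by norm_num) _), ?_, ?_⟩
  · intro c
    rw [← Matrix.mulVec_mulVec, ← Matrix.mulVec_mulVec, X6, X4, X7]
    simp
  · rw [Q_eq] at hQ
    rw [← Matrix.mulVec_mulVec, ← Matrix.mulVec_mulVec, X6, X4, X7]
    simp only [vec5_e0, vec5_e1, vec5_e2, vec5_f1, vec5_f2]
    apply vec5_congr
    · field_simp; ring
    · field_simp; linear_combination hQ
    · field_simp; ring
    · rfl
    · field_simp; ring

lemma V3 (u : I5 → F) (hQ : quadFormOdd 2 F u = 0) (hu : u ≠ 0) (h1 : u e1 = 0) (h2 : u f1 = 0) :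
    ∃ x ∈ E F, (∀ c : F, x *ᵥ vec5 0 c 0 0 0 = vec5 0 c 0 0 0) ∧
      (∀ c : F, x *ᵥ vec5 0 0 0 c 0 = vec5 0 0 0 c 0) ∧
      ∃ c : F, c ≠ 0 ∧ x *ᵥ u = vec5 0 0 c 0 0 := by
  rw [Q_eq, h1, h2] at hQ
  by_cases h3 : u e2 = 0
  · have h0 : u e0 = 0 := by
      have : u e0 ^ 2 = 0 := by rw [h3] at hQ; linear_combination hQ
      exact pow_eq_zero_iff (two_ne_zero) |>.mp this
    have h4 : u f2 ≠ 0 := by
      intro h4
      apply hu
      rw [vec5_eta u, h0, h1, h2, h3, h4]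
      funext i
      revert i
      rw [I5_forall]
      exact ⟨rfl, rfl, rfl, rfl, rfl⟩
    refine ⟨X F 2 (-1) * X F 5 1, (E F).mul_mem (X_mem 2 (by norm_num) _) (X_mem 5 (by norm_num) _),
      ?_, ?_, -(u f2), neg_ne_zero.mpr h4, ?_⟩
    · intro c
      rw [← Matrix.mulVec_mulVec, X5, X2]
      simp
    · intro c
      rw [← Matrix.mulVec_mulVec, X5, X2]
      simp
    · rw [← Matrix.mulVec_mulVec, X5, X2]
      simp only [vec5_e0, vec5_e1, vec5_e2, vec5_f1, vec5_f2, h0, h1, h2, h3]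
      apply vec5_congr <;> ring
  · refine ⟨X F 2 (-(u e0 / u e2)), X_mem 2 (by norm_num) _, ?_, ?_, u e2, h3, ?_⟩
    · intro c
      rw [X2]
      simp
    · intro c
      rw [X2]
      simp
    · rw [X2, h1, h2]
      apply vec5_congr
      · field_simp; ring
      · rfl
      · rfl
      · rfl
      · field_simp; linear_combination hQ

lemma V4 (w : I5 → F) (hQ : quadFormOdd 2 F w = 0) (h1 : w e1 = 0) (h2 : w f1 = 0)
    (h3 : w f2 ≠ 0) :
    ∃ x ∈ E F, (∀ c : F, x *ᵥ vec5 0 c 0 0 0 = vec5 0 c 0 0 0) ∧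
      (∀ c : F, x *ᵥ vec5 0 0 0 c 0 = vec5 0 0 0 c 0) ∧
      (∀ c : F, x *ᵥ vec5 0 0 c 0 0 = vec5 0 0 c 0 0) ∧
      x *ᵥ w = vec5 0 0 0 0 (w f2) := by
  rw [Q_eq, h1, h2] at hQ
  refine ⟨X F 5 (w e0 / w f2), X_mem 5 (by norm_num) _, ?_, ?_, ?_, ?_⟩
  · intro c
    rw [X5]
    simp
  · intro c
    rw [X5]
    simp
  · intro c
    rw [X5]
    simp
  · rw [X5, h1, h2]
    apply vec5_congr
    · field_simp; ring
    · rfl
    · field_simp; linear_combination hQ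
    · rfl
    · rfl

/-! ### elimination on matrices -/

/-- the polar form. -/
def Bf (u w : I5 → F) : F :=
  2 * u e0 * w e0 + u e1 * w f1 + u f1 * w e1 + u e2 * w f2 + u f2 * w e2

lemma IsQ.polar {g : Matrix I5 I5 F} (hg : IsQ g) (a b : I5 → F) :
    Bf (g *ᵥ a) (g *ᵥ b) = Bf a b := by
  have h1 := hg (a + b)
  have h2 := hg a
  have h3 := hg b
  rw [Matrix.mulVec_add, Q_eq, Q_eq] at h1
  rw [Q_eq, Q_eq] at h2 h3
  simp only [Pi.add_apply] at h1
  unfold Bf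
  linear_combination h1 - h2 - h3

lemma col_eq (A : Matrix I5 I5 F) (i j : I5) : A i j = (A *ᵥ Pi.single j 1) i := by
  simp [Matrix.mulVec, dotProduct, Pi.single_apply]

lemma single_e0 : (Pi.single e0 1 : I5 → F) = vec5 1 0 0 0 0 := by
  funext i; revert i; rw [I5_forall]; simp [Pi.single_apply]

lemma single_e1 : (Pi.single e1 1 : I5 → F) = vec5 0 1 0 0 0 := by
  funext i; revert i; rw [I5_forall]; simp [Pi.single_apply]

lemma single_e2 : (Pi.single e2 1 : I5 → F) = vec5 0 0 1 0 0 := by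
  funext i; revert i; rw [I5_forall]; simp [Pi.single_apply]

lemma single_f1 : (Pi.single f1 1 : I5 → F) = vec5 0 0 0 1 0 := by
  funext i; revert i; rw [I5_forall]; simp [Pi.single_apply]

lemma single_f2 : (Pi.single f2 1 : I5 → F) = vec5 0 0 0 0 1 := by
  funext i; revert i; rw [I5_forall]; simp [Pi.single_apply]

theorem elim (g : Matrix I5 I5 F) (hg : IsQ g) :
    ∃ x ∈ E F, ∃ δ : I5 → F, x * g = Matrix.diagonal δ ∧ δ e0 * δ e0 = 1 ∧ δ e1 * δ f1 = 1 ∧
      δ e2 * δ f2 = 1 := by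
  -- step 1
  have hv1Q : quadFormOdd 2 F (g *ᵥ vec5 0 1 0 0 0) = 0 := by rw [hg, Q_eq]; simp
  have hv1 : g *ᵥ vec5 0 1 0 0 0 ≠ 0 := by
    intro h0
    have h := hg.polar (vec5 0 1 0 0 0) (vec5 0 0 0 1 0)
    rw [h0] at h
    simp [Bf] at h
  obtain ⟨x1, hx1, c1, hc1, e1'⟩ := V1 _ hv1Q hv1
  have hg1 : IsQ (x1 * g) := (isQ_of_mem hx1).mul hg
  have a1 : (x1 * g) *ᵥ vec5 0 1 0 0 0 = vec5 0 c1 0 0 0 := by rw [← Matrix.mulVec_mulVec, e1']
  -- step 2
  have hw1Q : quadFormOdd 2 F ((x1 * g) *ᵥ vec5 0 0 0 1 0) = 0 := by rw [hg1, Q_eq]; simp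
  have hw1f : c1 * ((x1 * g) *ᵥ vec5 0 0 0 1 0) f1 = 1 := by
    have h := hg1.polar (vec5 0 1 0 0 0) (vec5 0 0 0 1 0)
    rw [a1] at h
    simp only [Bf, vec5_e0, vec5_e1, vec5_e2, vec5_f1, vec5_f2] at h
    linear_combination h
  have hd1 : ((x1 * g) *ᵥ vec5 0 0 0 1 0) f1 ≠ 0 := by
    intro h0
    rw [h0, mul_zero] at hw1f
    exact zero_ne_one hw1f
  obtain ⟨x2, hx2, fx2, e2'⟩ := V2 _ hw1Q hd1
  set d1 := ((x1 * g) *ᵥ vec5 0 0 0 1 0) f1 with hd1def
  have hg2 : IsQ (x2 * (x1 * g)) := (isQ_of_mem hx2).mul hg1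
  have a2 : (x2 * (x1 * g)) *ᵥ vec5 0 1 0 0 0 = vec5 0 c1 0 0 0 := by
    rw [← Matrix.mulVec_mulVec, a1, fx2]
  have b2 : (x2 * (x1 * g)) *ᵥ vec5 0 0 0 1 0 = vec5 0 0 0 d1 0 := by
    rw [← Matrix.mulVec_mulVec, e2']
  -- step 3
  have huQ : quadFormOdd 2 F ((x2 * (x1 * g)) *ᵥ vec5 0 0 1 0 0) = 0 := by rw [hg2, Q_eq]; simp
  have hu0 : (x2 * (x1 * g)) *ᵥ vec5 0 0 1 0 0 ≠ 0 := by
    intro h0
    have h := hg2.polar (vec5 0 0 1 0 0) (vec5 0 0 0 0 1)
    rw [h0] at h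
    simp [Bf] at h
  have hu1 : ((x2 * (x1 * g)) *ᵥ vec5 0 0 1 0 0) f1 = 0 := by
    have h := hg2.polar (vec5 0 1 0 0 0) (vec5 0 0 1 0 0)
    rw [a2] at h
    simp only [Bf, vec5_e0, vec5_e1, vec5_e2, vec5_f1, vec5_f2] at h
    have h' : c1 * ((x2 * (x1 * g)) *ᵥ vec5 0 0 1 0 0) f1 = 0 := by linear_combination h
    exact (mul_eq_zero.mp h').resolve_left hc1
  have hu2 : ((x2 * (x1 * g)) *ᵥ vec5 0 0 1 0 0) e1 = 0 := by
    have h := hg2.polar (vec5 0 0 0 1 0) (vec5 0 0 1 0 0)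
    rw [b2] at h
    simp only [Bf, vec5_e0, vec5_e1, vec5_e2, vec5_f1, vec5_f2] at h
    have h' : d1 * ((x2 * (x1 * g)) *ᵥ vec5 0 0 1 0 0) e1 = 0 := by linear_combination h
    exact (mul_eq_zero.mp h').resolve_left hd1
  obtain ⟨x3, hx3, fx3a, fx3b, c2, hc2, e3'⟩ := V3 _ huQ hu0 hu2 hu1
  have hg3 : IsQ (x3 * (x2 * (x1 * g))) := (isQ_of_mem hx3).mul hg2
  have a3 : (x3 * (x2 * (x1 * g))) *ᵥ vec5 0 1 0 0 0 = vec5 0 c1 0 0 0 := by
    rw [← Matrix.mulVec_mulVec, a2, fx3a]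
  have b3 : (x3 * (x2 * (x1 * g))) *ᵥ vec5 0 0 0 1 0 = vec5 0 0 0 d1 0 := by
    rw [← Matrix.mulVec_mulVec, b2, fx3b]
  have c3 : (x3 * (x2 * (x1 * g))) *ᵥ vec5 0 0 1 0 0 = vec5 0 0 c2 0 0 := by
    rw [← Matrix.mulVec_mulVec, e3']
  -- step 4
  have hwQ : quadFormOdd 2 F ((x3 * (x2 * (x1 * g))) *ᵥ vec5 0 0 0 0 1) = 0 := by
    rw [hg3, Q_eq]; simp
  have hw1 : ((x3 * (x2 * (x1 * g))) *ᵥ vec5 0 0 0 0 1) f1 = 0 := by
    have h := hg3.polar (vec5 0 1 0 0 0) (vec5 0 0 0 0 1)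
    rw [a3] at h
    simp only [Bf, vec5_e0, vec5_e1, vec5_e2, vec5_f1, vec5_f2] at h
    have h' : c1 * ((x3 * (x2 * (x1 * g))) *ᵥ vec5 0 0 0 0 1) f1 = 0 := by linear_combination h
    exact (mul_eq_zero.mp h').resolve_left hc1
  have hw2 : ((x3 * (x2 * (x1 * g))) *ᵥ vec5 0 0 0 0 1) e1 = 0 := by
    have h := hg3.polar (vec5 0 0 0 1 0) (vec5 0 0 0 0 1)
    rw [b3] at h
    simp only [Bf, vec5_e0, vec5_e1, vec5_e2, vec5_f1, vec5_f2] at h
    have h' : d1 * ((x3 * (x2 * (x1 * g))) *ᵥ vec5 0 0 0 0 1) e1 = 0 := by linear_combination h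
    exact (mul_eq_zero.mp h').resolve_left hd1
  have hw3 : c2 * ((x3 * (x2 * (x1 * g))) *ᵥ vec5 0 0 0 0 1) f2 = 1 := by
    have h := hg3.polar (vec5 0 0 1 0 0) (vec5 0 0 0 0 1)
    rw [c3] at h
    simp only [Bf, vec5_e0, vec5_e1, vec5_e2, vec5_f1, vec5_f2] at h
    linear_combination h
  have hd2 : ((x3 * (x2 * (x1 * g))) *ᵥ vec5 0 0 0 0 1) f2 ≠ 0 := by
    intro h0
    rw [h0, mul_zero] at hw3
    exact zero_ne_one hw3
  obtain ⟨x4, hx4, fx4a, fx4b, fx4c, e4'⟩ := V4 _ hwQ hw2 hw1 hd2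
  set d2 := ((x3 * (x2 * (x1 * g))) *ᵥ vec5 0 0 0 0 1) f2 with hd2def
  have hg4 : IsQ (x4 * (x3 * (x2 * (x1 * g)))) := (isQ_of_mem hx4).mul hg3
  have a4 : (x4 * (x3 * (x2 * (x1 * g)))) *ᵥ vec5 0 1 0 0 0 = vec5 0 c1 0 0 0 := by
    rw [← Matrix.mulVec_mulVec, a3, fx4a]
  have b4 : (x4 * (x3 * (x2 * (x1 * g)))) *ᵥ vec5 0 0 0 1 0 = vec5 0 0 0 d1 0 := by
    rw [← Matrix.mulVec_mulVec, b3, fx4b]
  have c4 : (x4 * (x3 * (x2 * (x1 * g)))) *ᵥ vec5 0 0 1 0 0 = vec5 0 0 c2 0 0 := by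
    rw [← Matrix.mulVec_mulVec, c3, fx4c]
  have d4 : (x4 * (x3 * (x2 * (x1 * g)))) *ᵥ vec5 0 0 0 0 1 = vec5 0 0 0 0 d2 := by
    rw [← Matrix.mulVec_mulVec, e4']
  -- step 5
  have hzQ : quadFormOdd 2 F ((x4 * (x3 * (x2 * (x1 * g)))) *ᵥ vec5 1 0 0 0 0) = 1 := by
    rw [hg4, Q_eq]; simp
  have hz1 : ((x4 * (x3 * (x2 * (x1 * g)))) *ᵥ vec5 1 0 0 0 0) f1 = 0 := by
    have h := hg4.polar (vec5 0 1 0 0 0) (vec5 1 0 0 0 0)
    rw [a4] at h
    simp only [Bf, vec5_e0, vec5_e1, vec5_e2, vec5_f1, vec5_f2] at h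
    have h' : c1 * ((x4 * (x3 * (x2 * (x1 * g)))) *ᵥ vec5 1 0 0 0 0) f1 = 0 := by
      linear_combination h
    exact (mul_eq_zero.mp h').resolve_left hc1
  have hz2 : ((x4 * (x3 * (x2 * (x1 * g)))) *ᵥ vec5 1 0 0 0 0) e1 = 0 := by
    have h := hg4.polar (vec5 0 0 0 1 0) (vec5 1 0 0 0 0)
    rw [b4] at h
    simp only [Bf, vec5_e0, vec5_e1, vec5_e2, vec5_f1, vec5_f2] at h
    have h' : d1 * ((x4 * (x3 * (x2 * (x1 * g)))) *ᵥ vec5 1 0 0 0 0) e1 = 0 := by
      linear_combination h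
    exact (mul_eq_zero.mp h').resolve_left hd1
  have hz3 : ((x4 * (x3 * (x2 * (x1 * g)))) *ᵥ vec5 1 0 0 0 0) f2 = 0 := by
    have h := hg4.polar (vec5 0 0 1 0 0) (vec5 1 0 0 0 0)
    rw [c4] at h
    simp only [Bf, vec5_e0, vec5_e1, vec5_e2, vec5_f1, vec5_f2] at h
    have h' : c2 * ((x4 * (x3 * (x2 * (x1 * g)))) *ᵥ vec5 1 0 0 0 0) f2 = 0 := by
      linear_combination h
    exact (mul_eq_zero.mp h').resolve_left hc2
  have hz4 : ((x4 * (x3 * (x2 * (x1 * g)))) *ᵥ vec5 1 0 0 0 0) e2 = 0 := by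
    have h := hg4.polar (vec5 0 0 0 0 1) (vec5 1 0 0 0 0)
    rw [d4] at h
    simp only [Bf, vec5_e0, vec5_e1, vec5_e2, vec5_f1, vec5_f2] at h
    have h' : d2 * ((x4 * (x3 * (x2 * (x1 * g)))) *ᵥ vec5 1 0 0 0 0) e2 = 0 := by
      linear_combination h
    exact (mul_eq_zero.mp h').resolve_left hd2
  set z0 := ((x4 * (x3 * (x2 * (x1 * g)))) *ᵥ vec5 1 0 0 0 0) e0 with hz0def
  have e4 : (x4 * (x3 * (x2 * (x1 * g)))) *ᵥ vec5 1 0 0 0 0 = vec5 z0 0 0 0 0 := by
    rw [vec5_eta ((x4 * (x3 * (x2 * (x1 * g)))) *ᵥ vec5 1 0 0 0 0), hz1, hz2, hz3, hz4]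
  have hz0 : z0 * z0 = 1 := by
    rw [Q_eq, hz1, hz2, hz3, hz4] at hzQ
    linear_combination hzQ
  refine ⟨x4 * (x3 * (x2 * x1)),
    (E F).mul_mem hx4 ((E F).mul_mem hx3 ((E F).mul_mem hx2 hx1)), vec5 z0 c1 c2 d1 d2, ?_,
    by simpa using hz0, by simpa using hw1f, by simpa using hw3⟩
  have eg : x4 * (x3 * (x2 * x1)) * g = x4 * (x3 * (x2 * (x1 * g))) := by
    simp only [mul_assoc]
  rw [eg]
  ext i j
  rw [col_eq (x4 * (x3 * (x2 * (x1 * g)))) i j]
  revert i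
  revert j
  rw [I5_forall]
  refine ⟨?_, ?_, ?_, ?_, ?_⟩
  · rw [single_e0, e4, I5_forall]; simp [Matrix.diagonal_apply]
  · rw [single_e1, a4, I5_forall]; simp [Matrix.diagonal_apply]
  · rw [single_e2, c4, I5_forall]; simp [Matrix.diagonal_apply]
  · rw [single_f1, b4, I5_forall]; simp [Matrix.diagonal_apply]
  · rw [single_f2, d4, I5_forall]; simp [Matrix.diagonal_apply]

/-! ### the isometry group -/

/-- the isometry group of the form. -/
abbrev O5 (F : Type*) [Field F] : Subgroup (GL I5 F) := isometryGroup F (quadFormOdd 2 F)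

lemma mem_O5 (g : GL I5 F) : g ∈ O5 F ↔ IsQ (g : Matrix I5 I5 F) := by
  constructor
  · intro h v
    exact h v v
  · intro h u _
    exact h u

/-- root elements in `GL`. -/
def XU (n : ℕ) (hn : n < 8) (t : F) : GL I5 F :=
  ⟨X F n t, X F n (-t), X_mul_neg n hn t, X_neg_mul n hn t⟩

/-- root elements in the isometry group. -/
def XO (n : ℕ) (hn : n < 8) (t : F) : O5 F := ⟨XU n hn t, (mem_O5 _).mpr (isQ_X n hn t)⟩

lemma XO_coe (n : ℕ) (hn : n < 8) (t : F) :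
    (((XO n hn t : O5 F) : GL I5 F) : Matrix I5 I5 F) = X F n t := rfl

/-- the set of root elements. -/
def S (F : Type*) [Field F] : Set (O5 F) := {x | ∃ n, ∃ hn : n < 8, ∃ t : F, x = XO n hn t}

/-- the subgroup generated by the root elements. -/
def E0 (F : Type*) [Field F] : Subgroup (O5 F) := Subgroup.closure (S F)

lemma O5_ext {x y : O5 F}
    (h : ((x : GL I5 F) : Matrix I5 I5 F) = ((y : GL I5 F) : Matrix I5 I5 F)) : x = y :=
  Subtype.ext (Units.ext h)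

lemma XO_add (n : ℕ) (hn : n < 8) (a b : F) : XO n hn a * XO n hn b = XO n hn (a + b) :=
  O5_ext (X_add n hn a b)

lemma bridge {x : Matrix I5 I5 F} (hx : x ∈ E F) :
    ∃ y ∈ E0 F, ((y : GL I5 F) : Matrix I5 I5 F) = x := by
  induction hx using Submonoid.closure_induction with
  | mem x hx =>
    obtain ⟨n, hn, t, rfl⟩ := hx
    exact ⟨XO n hn t, Subgroup.subset_closure ⟨n, hn, t, rfl⟩, rfl⟩
  | one => exact ⟨1, (E0 F).one_mem, rfl⟩
  | mul x y _ _ hx hy =>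
    obtain ⟨a, ha, rfl⟩ := hx
    obtain ⟨b, hb, rfl⟩ := hy
    exact ⟨a * b, (E0 F).mul_mem ha hb, rfl⟩

/-- diagonal isometries. -/
structure IsD (δ : I5 → F) : Prop where
  h0 : δ e0 * δ e0 = 1
  h1 : δ e1 * δ f1 = 1
  h2 : δ e2 * δ f2 = 1

/-- the inverse diagonal. -/
def dinv (δ : I5 → F) : I5 → F := vec5 (δ e0) (δ f1) (δ f2) (δ e1) (δ e2)

lemma diag_mul_dinv (δ : I5 → F) (h : IsD δ) :
    Matrix.diagonal δ * Matrix.diagonal (dinv δ) = 1 := by
  rw [Matrix.diagonal_mul_diagonal, ← Matrix.diagonal_one]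
  congr 1
  funext i
  revert i
  rw [I5_forall]
  simp only [dinv, vec5_e0, vec5_e1, vec5_e2, vec5_f1, vec5_f2, Pi.one_apply]
  exact ⟨h.h0, h.h1, h.h2, by rw [mul_comm]; exact h.h1, by rw [mul_comm]; exact h.h2⟩

lemma dinv_mul_diag (δ : I5 → F) (h : IsD δ) :
    Matrix.diagonal (dinv δ) * Matrix.diagonal δ = 1 := by
  rw [Matrix.diagonal_mul_diagonal, ← Matrix.diagonal_one]
  congr 1
  funext i
  revert i
  rw [I5_forall]
  simp only [dinv, vec5_e0, vec5_e1, vec5_e2, vec5_f1, vec5_f2, Pi.one_apply]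
  exact ⟨h.h0, by rw [mul_comm]; exact h.h1, by rw [mul_comm]; exact h.h2, h.h1, h.h2⟩

lemma diag_mulVec (δ v : I5 → F) :
    Matrix.diagonal δ *ᵥ v = vec5 (δ e0 * v e0) (δ e1 * v e1) (δ e2 * v e2) (δ f1 * v f1)
      (δ f2 * v f2) := by
  funext i
  revert i
  rw [I5_forall]
  simp [Matrix.mulVec_diagonal]

lemma isQ_diag (δ : I5 → F) (h : IsD δ) : IsQ (Matrix.diagonal δ) := by
  intro v
  rw [diag_mulVec, Q_eq, Q_eq]
  simp only [vec5_e0, vec5_e1, vec5_e2, vec5_f1, vec5_f2]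
  linear_combination (v e0) ^ 2 * h.h0 + v e1 * v f1 * h.h1 + v e2 * v f2 * h.h2

/-- diagonal elements in `GL`. -/
def DU (δ : I5 → F) (h : IsD δ) : GL I5 F :=
  ⟨Matrix.diagonal δ, Matrix.diagonal (dinv δ), diag_mul_dinv δ h, dinv_mul_diag δ h⟩

/-- diagonal elements in the isometry group. -/
def DO (δ : I5 → F) (h : IsD δ) : O5 F := ⟨DU δ h, (mem_O5 _).mpr (isQ_diag δ h)⟩

/-- the character of a diagonal element on the root number `n`. -/
def chi (δ : I5 → F) (n : ℕ) : F :=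
  match n with
  | 0 => δ f1 * δ f2
  | 1 => δ e0 * δ f1
  | 2 => δ e0 * δ f2
  | 3 => δ e2 * δ f1
  | 4 => δ e1 * δ f2
  | 5 => δ e0 * δ e2
  | 6 => δ e0 * δ e1
  | 7 => δ e1 * δ e2
  | _ => 1

lemma diag_X (δ : I5 → F) (h : IsD δ) (n : ℕ) (hn : n < 8) (t : F) :
    Matrix.diagonal δ * X F n t = X F n (chi δ n * t) * Matrix.diagonal δ := by
  obtain ⟨h0, h1, h2⟩ := h
  apply mat_ext_mulVec
  intro v
  rw [← Matrix.mulVec_mulVec, ← Matrix.mulVec_mulVec, diag_mulVec δ v]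
  interval_cases n
  · rw [X0, X0, diag_mulVec]
    simp only [vec5_e0, vec5_e1, vec5_e2, vec5_f1, vec5_f2, chi]
    apply vec5_congr <;> grind
  · rw [X1, X1, diag_mulVec]
    simp only [vec5_e0, vec5_e1, vec5_e2, vec5_f1, vec5_f2, chi]
    apply vec5_congr <;> grind
  · rw [X2, X2, diag_mulVec]
    simp only [vec5_e0, vec5_e1, vec5_e2, vec5_f1, vec5_f2, chi]
    apply vec5_congr <;> grind
  · rw [X3, X3, diag_mulVec]
    simp only [vec5_e0, vec5_e1, vec5_e2, vec5_f1, vec5_f2, chi]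
    apply vec5_congr <;> grind
  · rw [X4, X4, diag_mulVec]
    simp only [vec5_e0, vec5_e1, vec5_e2, vec5_f1, vec5_f2, chi]
    apply vec5_congr <;> grind
  · rw [X5, X5, diag_mulVec]
    simp only [vec5_e0, vec5_e1, vec5_e2, vec5_f1, vec5_f2, chi]
    apply vec5_congr <;> grind
  · rw [X6, X6, diag_mulVec]
    simp only [vec5_e0, vec5_e1, vec5_e2, vec5_f1, vec5_f2, chi]
    apply vec5_congr <;> grind
  · rw [X7, X7, diag_mulVec]
    simp only [vec5_e0, vec5_e1, vec5_e2, vec5_f1, vec5_f2, chi]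
    apply vec5_congr <;> grind

lemma DO_XO (δ : I5 → F) (h : IsD δ) (n : ℕ) (hn : n < 8) (t : F) :
    DO δ h * XO n hn t = XO n hn (chi δ n * t) * DO δ h :=
  O5_ext (diag_X δ h n hn t)

lemma decomp (g : O5 F) : ∃ y ∈ E0 F, ∃ δ : I5 → F, ∃ h : IsD δ, y * g = DO δ h := by
  obtain ⟨x, hx, δ, hxg, h0, h1, h2⟩ := elim ((g : GL I5 F) : Matrix I5 I5 F) ((mem_O5 _).mp g.2)
  obtain ⟨y, hy, rfl⟩ := bridge hx
  exact ⟨y, hy, δ, ⟨h0, h1, h2⟩, O5_ext hxg⟩

lemma conj_diag_mem (δ : I5 → F) (h : IsD δ) {x : O5 F} (hx : x ∈ E0 F) :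
    DO δ h * x * (DO δ h)⁻¹ ∈ E0 F := by
  have key : (E0 F).map (MulAut.conj (DO δ h)).toMonoidHom ≤ E0 F := by
    rw [E0, MonoidHom.map_closure, Subgroup.closure_le]
    rintro _ ⟨s, ⟨n, hn, t, rfl⟩, rfl⟩
    show DO δ h * XO n hn t * (DO δ h)⁻¹ ∈ _
    rw [DO_XO, mul_inv_cancel_right]
    exact Subgroup.subset_closure ⟨n, hn, _, rfl⟩
  exact key (Subgroup.mem_map_of_mem _ hx)

lemma conj_mem (g : O5 F) {x : O5 F} (hx : x ∈ E0 F) : g * x * g⁻¹ ∈ E0 F := by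
  obtain ⟨y, hy, δ, h, hyg⟩ := decomp g
  have hg : g = y⁻¹ * DO δ h := by rw [← hyg]; group
  have h1 := (E0 F).mul_mem ((E0 F).mul_mem ((E0 F).inv_mem hy) (conj_diag_mem δ h hx)) hy
  have e : g * x * g⁻¹ = y⁻¹ * (DO δ h * x * (DO δ h)⁻¹) * y := by rw [hg]; group
  rw [e]
  exact h1

instance E0_normal : (E0 F).Normal := ⟨fun x hx g => conj_mem g hx⟩

lemma DO_comm (δ δ' : I5 → F) (h : IsD δ) (h' : IsD δ') :
    DO δ h * DO δ' h' = DO δ' h' * DO δ h := by
  apply O5_ext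
  show Matrix.diagonal δ * Matrix.diagonal δ' = Matrix.diagonal δ' * Matrix.diagonal δ
  rw [Matrix.diagonal_mul_diagonal, Matrix.diagonal_mul_diagonal]
  congr 1
  funext i
  exact mul_comm _ _

lemma comm_le : commutator (O5 F) ≤ E0 F := by
  rw [commutator_def, Subgroup.commutator_le]
  intro g _ k _
  obtain ⟨y, hy, δ, h, hyg⟩ := decomp g
  obtain ⟨y', hy', δ', h', hyk⟩ := decomp k
  rw [← QuotientGroup.eq_one_iff (N := E0 F)]
  have e1 : (QuotientGroup.mk g : O5 F ⧸ E0 F) = QuotientGroup.mk (DO δ h) := by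
    rw [← hyg, QuotientGroup.mk_mul, (QuotientGroup.eq_one_iff y).mpr hy, one_mul]
  have e2 : (QuotientGroup.mk k : O5 F ⧸ E0 F) = QuotientGroup.mk (DO δ' h') := by
    rw [← hyk, QuotientGroup.mk_mul, (QuotientGroup.eq_one_iff y').mpr hy', one_mul]
  have hc : ⁅DO δ h, DO δ' h'⁆ = 1 :=
    commutatorElement_eq_one_iff_mul_comm.mpr (DO_comm δ δ' h h')
  calc (QuotientGroup.mk ⁅g, k⁆ : O5 F ⧸ E0 F)
      = ⁅(QuotientGroup.mk g : O5 F ⧸ E0 F), QuotientGroup.mk k⁆ := by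
        simp [commutatorElement_def]
    _ = ⁅(QuotientGroup.mk (DO δ h) : O5 F ⧸ E0 F), QuotientGroup.mk (DO δ' h')⁆ := by
        rw [e1, e2]
    _ = QuotientGroup.mk ⁅DO δ h, DO δ' h'⁆ := by simp [commutatorElement_def]
    _ = 1 := by rw [hc]; rfl

lemma XO_mem_comm (hF : ∃ a : F, a ≠ 0 ∧ a ≠ 1) (n : ℕ) (hn : n < 8) (t : F) :
    XO n hn t ∈ commutator (O5 F) := by
  obtain ⟨a, ha0, ha1⟩ := hF
  have key : ∀ (δ : I5 → F) (h : IsD δ), chi δ n ≠ 1 → XO n hn t ∈ commutator (O5 F) := by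
    intro δ h hc
    have hc' : chi δ n - 1 ≠ 0 := sub_ne_zero.mpr hc
    have e : XO n hn t = ⁅DO δ h, XO n hn (t / (chi δ n - 1))⁆ := by
      rw [commutatorElement_def, DO_XO, mul_inv_cancel_right, eq_mul_inv_iff_mul_eq, XO_add]
      congr 1
      field_simp
      ring
    rw [e, commutator_def]
    exact Subgroup.commutator_mem_commutator (Subgroup.mem_top _) (Subgroup.mem_top _)
  have hd1 : IsD (vec5 1 a 1 a⁻¹ 1) := ⟨by simp, by simp [ha0], by simp⟩
  have hd2 : IsD (vec5 1 1 a 1 a⁻¹) := ⟨by simp, by simp, by simp [ha0]⟩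
  have hai : a⁻¹ ≠ 1 := fun h => ha1 (inv_eq_one.mp h)
  interval_cases n
  · exact key _ hd1 (by simpa [chi] using hai)
  · exact key _ hd1 (by simpa [chi] using hai)
  · exact key _ hd2 (by simpa [chi] using hai)
  · exact key _ hd1 (by simpa [chi] using hai)
  · exact key _ hd1 (by simpa [chi] using ha1)
  · exact key _ hd2 (by simpa [chi] using ha1)
  · exact key _ hd1 (by simpa [chi] using ha1)
  · exact key _ hd1 (by simpa [chi] using ha1)

theorem Omega_eq (hF : ∃ a : F, a ≠ 0 ∧ a ≠ 1) : commutator (O5 F) = E0 F := by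
  apply le_antisymm comm_le
  rw [E0, Subgroup.closure_le]
  rintro _ ⟨n, hn, t, rfl⟩
  exact XO_mem_comm hF n hn t

/-! ### the representation -/

/-- `u ⬝ (A u)`. -/
def qf (A : Matrix I5 I5 F) (u : I5 → F) : F := u ⬝ᵥ (A *ᵥ u)

lemma model_gl : model.gl = gl := rfl

lemma qf_Gam (u : I5 → F) : qf (model.Gam F) u = quadFormOdd 2 F u := by
  rw [Q_eq, qf, dotProduct, I5_sum]
  simp only [Model.Gam, spMat_mulVec, model_gl]
  simp [gl]
  ring

lemma qf_conj (A g : Matrix I5 I5 F) (u : I5 → F) : qf (gᵀ * A * g) u = qf A (g *ᵥ u) := by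
  unfold qf
  rw [← Matrix.mulVec_mulVec, ← Matrix.mulVec_mulVec, Matrix.dotProduct_mulVec,
    Matrix.vecMul_transpose]

lemma qf_sub (A B : Matrix I5 I5 F) (u : I5 → F) : qf (A - B) u = qf A u - qf B u := by
  simp [qf, Matrix.sub_mulVec, dotProduct_sub]

lemma qf_single (A : Matrix I5 I5 F) (a : I5) : qf A (Pi.single a 1) = A a a := by
  simp [qf, Matrix.mulVec_single_one]

lemma qf_single_add (A : Matrix I5 I5 F) (a b : I5) :
    qf A (Pi.single a 1 + Pi.single b 1) = A a a + A a b + A b a + A b b := by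
  simp [qf, Matrix.mulVec_add, Matrix.mulVec_single_one]
  ring

lemma isIso_of_isQ {g : Matrix I5 I5 F} (hg : IsQ g) : model.IsIso g := by
  have key : ∀ u, qf (gᵀ * model.Gam F * g - model.Gam F) u = 0 := by
    intro u
    rw [qf_sub, qf_conj, qf_Gam, qf_Gam, hg, sub_self]
  constructor
  · intro a
    have h2 := key (Pi.single a 1)
    rw [qf_single] at h2
    exact h2
  · intro a b
    have h1 := key (Pi.single a 1 + Pi.single b 1)
    rw [qf_single_add] at h1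
    have h2 := key (Pi.single a 1)
    rw [qf_single] at h2
    have h3 := key (Pi.single b 1)
    rw [qf_single] at h3
    linear_combination h1 - h2 - h3

lemma isIso_O (g : O5 F) : model.IsIso ((g : GL I5 F) : Matrix I5 I5 F) :=
  isIso_of_isQ ((mem_O5 _).mp g.2)

/-- the representation on the Chevalley module. -/
def rhoHom (F : Type*) [Field F] : O5 F →* GL Lie.chevB2.Idx F where
  toFun g := ⟨model.rho ((g : GL I5 F) : Matrix I5 I5 F),
    model.rho (((g⁻¹ : O5 F) : GL I5 F) : Matrix I5 I5 F),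
    by
      rw [← B2Model.rho_mul (isIso_O g) (isIso_O g⁻¹)]
      have : ((g : GL I5 F) : Matrix I5 I5 F) * (((g⁻¹ : O5 F) : GL I5 F) : Matrix I5 I5 F) = 1 := by
        simp
      rw [this, B2Model.rho_one],
    by
      rw [← B2Model.rho_mul (isIso_O g⁻¹) (isIso_O g)]
      have : (((g⁻¹ : O5 F) : GL I5 F) : Matrix I5 I5 F) * ((g : GL I5 F) : Matrix I5 I5 F) = 1 := by
        simp
      rw [this, B2Model.rho_one]⟩
  map_one' := Units.ext B2Model.rho_one
  map_mul' g h := Units.ext (B2Model.rho_mul (isIso_O g) (isIso_O h))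

lemma rhoHom_coe (g : O5 F) :
    ((rhoHom F g : GL Lie.chevB2.Idx F) : Matrix Lie.chevB2.Idx Lie.chevB2.Idx F)
      = model.rho ((g : GL I5 F) : Matrix I5 I5 F) := rfl

lemma rhoHom_XO (n : ℕ) (hn : n < 8) (t : F) :
    ((rhoHom F (XO n hn t) : GL Lie.chevB2.Idx F) : Matrix Lie.chevB2.Idx Lie.chevB2.Idx F)
      = Lie.chevB2.xMat F ⟨n, hn⟩ t :=
  rho_X F ⟨n, hn⟩ t

theorem map_E0 : (E0 F).map (rhoHom F) = Lie.chevB2.group F := by
  rw [E0, MonoidHom.map_closure]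
  unfold Lie.ChevalleyDatum.group
  congr 1
  ext g
  constructor
  · rintro ⟨_, ⟨n, hn, t, rfl⟩, rfl⟩
    exact ⟨⟨n, hn⟩, t, rhoHom_XO n hn t⟩
  · rintro ⟨r, t, h⟩
    refine ⟨XO r.val r.isLt t, ⟨r.val, r.isLt, t, rfl⟩, Units.ext ?_⟩
    rw [h]
    exact rhoHom_XO r.val r.isLt t

/-! ### the kernel -/

lemma wedge_of_sym (g : Matrix I5 I5 F) (a b : I5) (c : ℤ) (hc : c * c = 1)
    (hs : (g * spMat F [(a, b, c)] * gᵀ - spMat F [(a, b, c)])ᵀ
      = g * spMat F [(a, b, c)] * gᵀ - spMat F [(a, b, c)]) :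
    ∀ i j, g i a * g j b - g j a * g i b
      = (if a = i ∧ b = j then 1 else 0) - (if a = j ∧ b = i then 1 else 0) := by
  have e : spMat F [(a, b, c)] = Matrix.single a b (c : F) := by simp [spMat]
  rw [e] at hs
  have hc' : (c : F) * (c : F) = 1 := by exact_mod_cast congrArg (Int.cast : ℤ → F) hc
  intro i j
  have := congrFun (congrFun hs i) j
  simp only [Matrix.transpose_apply, Matrix.sub_apply, conj_single, Matrix.single_apply] at this
  split_ifs at this ⊢ <;> grind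

lemma wedge_zero {u w : I5 → F} {a b : I5} (hab : a ≠ b)
    (h : ∀ i j, u i * w j - u j * w i
      = (if a = i ∧ b = j then 1 else 0) - (if a = j ∧ b = i then 1 else 0)) :
    ∀ i, i ≠ a → i ≠ b → u i = 0 ∧ w i = 0 := by
  intro i hia hib
  have h1 := h a b
  rw [if_pos ⟨rfl, rfl⟩, if_neg (fun hh => hab hh.1)] at h1
  have h2 := h i a
  rw [if_neg (fun hh => hia hh.1.symm), if_neg (fun hh => hib hh.2.symm)] at h2
  have h3 := h i b
  rw [if_neg (fun hh => hia hh.1.symm), if_neg (fun hh => hab hh.1)] at h3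
  constructor
  · linear_combination (-(u i)) * h1 + (u a) * h3 - (u b) * h2
  · linear_combination (-(w i)) * h1 - (w b) * h2 + (w a) * h3

theorem scalar_of_rho_one {g : Matrix I5 I5 F} (hg : model.IsIso g) (h : model.rho g = 1) :
    g = g e0 e0 • (1 : Matrix I5 I5 F) := by
  have sym : ∀ k, (g * model.T F k * gᵀ - model.T F k)ᵀ = g * model.T F k * gᵀ - model.T F k := by
    intro k
    have hb : model.bHat (g * model.T F k * gᵀ) = 0 := by
      rw [model.bHat_conj hg, model.H1_of_table h1_ok]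
    have h3 := (model.H3_of_table nu 0 h3a_ok h3b_ok _ hb).1
    have e : ∑ i, model.lam i (g * model.T F k * gᵀ) • model.T F i = model.T F k := by
      have e' : ∀ i, model.lam i (g * model.T F k * gᵀ) = if i = k then 1 else 0 := by
        intro i
        have := congrFun (congrFun h i) k
        simpa [Model.rho, Matrix.one_apply] using this
      simp only [e', ite_smul, one_smul, zero_smul, Finset.sum_ite_eq', Finset.mem_univ, if_true]
    rwa [e] at h3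
  have w0 := wedge_of_sym g f1 f2 1 (by norm_num) (sym (Sum.inr (0 : Fin 8)))
  have w1 := wedge_of_sym g e0 f1 (-1) (by norm_num) (sym (Sum.inr (1 : Fin 8)))
  have w2 := wedge_of_sym g e0 f2 1 (by norm_num) (sym (Sum.inr (2 : Fin 8)))
  have w3 := wedge_of_sym g f1 e2 1 (by norm_num) (sym (Sum.inr (3 : Fin 8)))
  have w4 := wedge_of_sym g e1 f2 (-1) (by norm_num) (sym (Sum.inr (4 : Fin 8)))
  have w5 := wedge_of_sym g e0 e2 (-1) (by norm_num) (sym (Sum.inr (5 : Fin 8)))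
  have w6 := wedge_of_sym g e0 e1 1 (by norm_num) (sym (Sum.inr (6 : Fin 8)))
  have w7 := wedge_of_sym g e1 e2 (-1) (by norm_num) (sym (Sum.inr (7 : Fin 8)))
  have z0 := wedge_zero (u := fun i => g i f1) (w := fun i => g i f2) (by decide) w0
  have z1 := wedge_zero (u := fun i => g i e0) (w := fun i => g i f1) (by decide) w1
  have z2 := wedge_zero (u := fun i => g i e0) (w := fun i => g i f2) (by decide) w2
  have z4 := wedge_zero (u := fun i => g i e1) (w := fun i => g i f2) (by decide) w4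
  have z5 := wedge_zero (u := fun i => g i e0) (w := fun i => g i e2) (by decide) w5
  have z6 := wedge_zero (u := fun i => g i e0) (w := fun i => g i e1) (by decide) w6
  have z7 := wedge_zero (u := fun i => g i e1) (w := fun i => g i e2) (by decide) w7
  -- column e0
  have a1 : g e1 e0 = 0 := (z1 e1 (by decide) (by decide)).1
  have a2 : g e2 e0 = 0 := (z1 e2 (by decide) (by decide)).1
  have a3 : g f1 e0 = 0 := (z2 f1 (by decide) (by decide)).1
  have a4 : g f2 e0 = 0 := (z1 f2 (by decide) (by decide)).1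
  -- column e1
  have b0 : g e0 e1 = 0 := (z4 e0 (by decide) (by decide)).1
  have b2 : g e2 e1 = 0 := (z6 e2 (by decide) (by decide)).2
  have b3 : g f1 e1 = 0 := (z6 f1 (by decide) (by decide)).2
  have b4 : g f2 e1 = 0 := (z6 f2 (by decide) (by decide)).2
  -- column e2
  have c0 : g e0 e2 = 0 := (z7 e0 (by decide) (by decide)).2
  have c1 : g e1 e2 = 0 := (z5 e1 (by decide) (by decide)).2
  have c3 : g f1 e2 = 0 := (z5 f1 (by decide) (by decide)).2
  have c4 : g f2 e2 = 0 := (z5 f2 (by decide) (by decide)).2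
  -- column f1
  have d0 : g e0 f1 = 0 := (z0 e0 (by decide) (by decide)).1
  have d1 : g e1 f1 = 0 := (z1 e1 (by decide) (by decide)).2
  have d2 : g e2 f1 = 0 := (z1 e2 (by decide) (by decide)).2
  have d4 : g f2 f1 = 0 := (z1 f2 (by decide) (by decide)).2
  -- column f2
  have e0' : g e0 f2 = 0 := (z0 e0 (by decide) (by decide)).2
  have e1' : g e1 f2 = 0 := (z2 e1 (by decide) (by decide)).2
  have e2' : g e2 f2 = 0 := (z2 e2 (by decide) (by decide)).2
  have e3' : g f1 f2 = 0 := (z2 f1 (by decide) (by decide)).2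
  -- diagonal
  have p6 : g e0 e0 * g e1 e1 = 1 := by
    have := w6 e0 e1
    simpa [a1, b0] using this
  have p5 : g e0 e0 * g e2 e2 = 1 := by
    have := w5 e0 e2
    simpa [a2, c0] using this
  have p1 : g e0 e0 * g f1 f1 = 1 := by
    have := w1 e0 f1
    simpa [a3, d0] using this
  have p2 : g e0 e0 * g f2 f2 = 1 := by
    have := w2 e0 f2
    simpa [a4, e0'] using this
  have p7 : g e1 e1 * g e2 e2 = 1 := by
    have := w7 e1 e2
    simpa [b2, c1] using this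
  have hcc : g e0 e0 * g e0 e0 = 1 := by
    linear_combination (-(g e0 e0 * g e0 e0)) * p7 + (g e0 e0 * g e2 e2) * p6 + p5
  have q1 : g e1 e1 = g e0 e0 := by linear_combination (-(g e1 e1)) * hcc + g e0 e0 * p6
  have q2 : g e2 e2 = g e0 e0 := by linear_combination (-(g e2 e2)) * hcc + g e0 e0 * p5
  have q3 : g f1 f1 = g e0 e0 := by linear_combination (-(g f1 f1)) * hcc + g e0 e0 * p1
  have q4 : g f2 f2 = g e0 e0 := by linear_combination (-(g f2 f2)) * hcc + g e0 e0 * p2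
  ext i j
  revert i j
  simp only [I5_forall]
  simp [Matrix.one_apply, a1, a2, a3, a4, b0, b2, b3, b4, c0, c1, c3, c4, d0, d1, d2, d4, e0', e1',
    e2', e3', q1, q2, q3, q4]

lemma mul_single_ite (M : Matrix I5 I5 F) (a b : I5) (c : F) (i j : I5) :
    (M * Matrix.single a b c) i j = if j = b then M i a * c else 0 := by
  by_cases h : j = b
  · subst h
    rw [if_pos rfl, Matrix.mul_single_apply_same]
  · rw [if_neg h, Matrix.mul_single_apply_of_ne (hbj := h)]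

lemma single_mul_ite (M : Matrix I5 I5 F) (a b : I5) (c : F) (i j : I5) :
    (Matrix.single a b c * M) i j = if i = a then c * M b j else 0 := by
  by_cases h : i = a
  · subst h
    rw [if_pos rfl, Matrix.single_mul_apply_same]
  · rw [if_neg h, Matrix.single_mul_apply_of_ne (h := h)]

lemma mul_spMat (g : Matrix I5 I5 F) (l : Sp I5) (i j : I5) :
    (g * spMat F l) i j
      = (l.map fun x => if j = x.2.1 then g i x.1 * ((x.2.2 : ℤ) : F) else 0).sum := by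
  induction l with
  | nil => simp [spMat]
  | cons x l ih =>
    rw [spMat_cons, Matrix.mul_add, Matrix.add_apply, ih, mul_single_ite]
    simp

lemma spMat_mul (g : Matrix I5 I5 F) (l : Sp I5) (i j : I5) :
    (spMat F l * g) i j
      = (l.map fun x => if i = x.1 then ((x.2.2 : ℤ) : F) * g x.2.1 j else 0).sum := by
  induction l with
  | nil => simp [spMat]
  | cons x l ih =>
    rw [spMat_cons, Matrix.add_mul, Matrix.add_apply, ih, single_mul_ite]
    simp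

lemma comm_entry (g : Matrix I5 I5 F) (n : ℕ) (h : g * X F n 1 = X F n 1 * g) (i j : I5) :
    (g * spMat F (Nl n)) i j + (g * spMat F (Ml n)) i j
      = (spMat F (Nl n) * g) i j + (spMat F (Ml n) * g) i j := by
  have e : X F n 1 = 1 + (spMat F (Nl n) + spMat F (Ml n)) := by
    simp [X, add_assoc]
  rw [e, mul_add, add_mul, mul_one, one_mul] at h
  have h' := add_left_cancel h
  have := congrFun (congrFun h' i) j
  simpa [Matrix.mul_add, Matrix.add_mul] using this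

theorem scalar_of_comm {g : Matrix I5 I5 F} (h : ∀ n < 8, g * X F n 1 = X F n 1 * g) :
    g = g e0 e0 • (1 : Matrix I5 I5 F) := by
  have h0 := fun i j => comm_entry g 0 (h 0 (by norm_num)) i j
  have h7 := fun i j => comm_entry g 7 (h 7 (by norm_num)) i j
  have h3 := fun i j => comm_entry g 3 (h 3 (by norm_num)) i j
  have h4 := fun i j => comm_entry g 4 (h 4 (by norm_num)) i j
  have h1 := fun i j => comm_entry g 1 (h 1 (by norm_num)) i j
  simp only [I5_forall] at h0 h7 h3 h4 h1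
  simp [mul_spMat, spMat_mul, Nl, NlT, Ml, MlT] at h0 h7 h3 h4 h1
  ext i j
  revert i j
  simp only [I5_forall]
  simp [Matrix.one_apply]
  grind

lemma rho_scalar (c : F) (hc : c * c = 1) : model.rho (c • (1 : Matrix I5 I5 F)) = 1 := by
  rw [← B2Model.rho_one (F := F)]
  ext j k
  simp only [Model.rho, Matrix.of_apply]
  have e : (c • (1 : Matrix I5 I5 F)) * model.T F k * (c • (1 : Matrix I5 I5 F))ᵀ
      = (c * c) • (1 * model.T F k * (1 : Matrix I5 I5 F)ᵀ) := by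
    simp [smul_smul]
  rw [e, hc, one_smul]

/-! ### the isomorphism -/

theorem main (hF : ∃ a : F, a ≠ 0 ∧ a ≠ 1) :
    Nonempty (↥(Lie.chevB2.group F) ≃* POmega F (quadFormOdd 2 F)) := by
  have hΩ := Omega_eq hF
  let Ω : Subgroup (O5 F) := commutator (O5 F)
  let φ : ↥Ω →* GL Lie.chevB2.Idx F := (rhoHom F).comp Ω.subtype
  have hrange : φ.range = Lie.chevB2.group F := by
    rw [MonoidHom.range_comp, Subgroup.range_subtype, ← map_E0, ← hΩ]
  have hker : φ.ker = Subgroup.center ↥Ω := by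
    ext z
    rw [MonoidHom.mem_ker, Subgroup.mem_center_iff]
    constructor
    · intro hz w
      have h1 : model.rho (((z : O5 F) : GL I5 F) : Matrix I5 I5 F) = 1 :=
        congrArg (fun u : GL Lie.chevB2.Idx F => (u : Matrix Lie.chevB2.Idx Lie.chevB2.Idx F)) hz
      obtain ⟨c, hc⟩ : ∃ c : F, (((z : O5 F) : GL I5 F) : Matrix I5 I5 F) = c • 1 :=
        ⟨_, scalar_of_rho_one (isIso_O (z : O5 F)) h1⟩
      apply Subtype.ext
      apply O5_ext
      show (((w : O5 F) : GL I5 F) : Matrix I5 I5 F) * (((z : O5 F) : GL I5 F) : Matrix I5 I5 F)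
        = (((z : O5 F) : GL I5 F) : Matrix I5 I5 F) * (((w : O5 F) : GL I5 F) : Matrix I5 I5 F)
      rw [hc]
      simp
    · intro hz
      have hcomm : ∀ n < 8, (((z : O5 F) : GL I5 F) : Matrix I5 I5 F) * X F n 1
          = X F n 1 * (((z : O5 F) : GL I5 F) : Matrix I5 I5 F) := by
        intro n hn
        have hmem : XO n hn (1 : F) ∈ Ω := by
          show XO n hn (1 : F) ∈ commutator (O5 F)
          rw [hΩ]
          exact Subgroup.subset_closure ⟨n, hn, 1, rfl⟩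
        have h' := congrArg (fun u : ↥Ω => (((u : O5 F) : GL I5 F) : Matrix I5 I5 F))
          (hz ⟨XO n hn 1, hmem⟩)
        exact h'.symm
      obtain ⟨c, hc⟩ : ∃ c : F, (((z : O5 F) : GL I5 F) : Matrix I5 I5 F) = c • 1 :=
        ⟨_, scalar_of_comm hcomm⟩
      have hQ := (mem_O5 _).mp (z : O5 F).2 (vec5 1 0 0 0 0)
      rw [hc, Matrix.smul_mulVec, Matrix.one_mulVec, Q_eq, Q_eq] at hQ
      simp only [Pi.smul_apply, vec5_e0, vec5_e1, vec5_e2, vec5_f1, vec5_f2, smul_eq_mul] at hQ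
      have hcc : c * c = 1 := by linear_combination hQ
      apply Units.ext
      show model.rho (((z : O5 F) : GL I5 F) : Matrix I5 I5 F) = 1
      rw [hc]
      exact rho_scalar c hcc
  exact ⟨((QuotientGroup.quotientMulEquivOfEq hker.symm).trans
    ((QuotientGroup.quotientKerEquivRange φ).trans (MulEquiv.subgroupCongr hrange))).symm⟩

end Cfsg.Agent.Lib.Helper5.B2Iso
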