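import Cfsg.Agent.Lib.Helper5.ChevRep
import Cfsg.Prelude.Def_ChevB2

/-!
helper5: the model of the adjoint Chevalley module of type `B₂` inside the congruence action of
the isometry group of `x₀² + x₁y₁ + x₂y₂` (see `ChevRep`), and its agreement with the tables of
`Cfsg.Lie.chevB2`.
-/

set_option autoImplicit false

namespace Cfsg.Agent.Lib.Helper5.B2Model

open Cfsg.Agent.Lib.Helper5.ChevRep

/-- index type of the natural module. -/
abbrev I5 : Type := Unit ⊕ (Fin 2 ⊕ Fin 2)

abbrev e0 : I5 := Sum.inl ()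
abbrev e1 : I5 := Sum.inr (Sum.inl 0)
abbrev e2 : I5 := Sum.inr (Sum.inl 1)
abbrev f1 : I5 := Sum.inr (Sum.inr 0)
abbrev f2 : I5 := Sum.inr (Sum.inr 1)

/-- `Γ`: `Q(u) = u₀² + u(e₁)u(f₁) + u(e₂)u(f₂)`. -/
def gl : Sp I5 := [(e0, e0, 1), (e1, f1, 1), (e2, f2, 1)]

def tlH : List (Sp I5) := [[(e2, f2, 1), (f2, e2, -1)], [(f1, e1, -1), (f2, e2, 1)]]

def laH : List (Sp I5) := [[], [(e1, f1, 1)]]

def muH : List ℤ := [1, 0]

def tlR : List (Sp I5) :=
  [[(f1, f2, 1)], [(e0, f1, -1)], [(e0, f2, 1)], [(f1, e2, 1)], [(e1, f2, -1)], [(e0, e2, -1)],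
    [(e0, e1, 1)], [(e1, e2, -1)]]

/-- the model of type `B₂`. -/
def model : Model I5 Lie.chevB2.Idx where
  gl := gl
  tl := fun k => match k with
    | Sum.inl i => tlH.getD i.val []
    | Sum.inr r => tlR.getD r.val []
  la := fun k => match k with
    | Sum.inl i => laH.getD i.val []
    | Sum.inr r => tlR.getD r.val []
  mu := fun k => match k with
    | Sum.inl i => muH.getD i.val 0
    | Sum.inr _ => 0

def NlT : List (Sp I5) :=
  [[(f1, e2, 1), (f2, e1, -1)],
   [(e0, e1, -1), (f1, e0, 2)],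
   [(e0, e2, 1), (f2, e0, -2)],
   [(e2, e1, -1), (f1, f2, 1)],
   [(e1, e2, -1), (f2, f1, 1)],
   [(e0, f2, -1), (e2, e0, 2)],
   [(e0, f1, 1), (e1, e0, -2)],
   [(e1, f2, -1), (e2, f1, 1)]]

def MlT : List (Sp I5) :=
  [[], [(f1, e1, -1)], [(f2, e2, -1)], [], [], [(e2, f2, -1)], [(e1, f1, -1)], []]

/-- linear part of the root element number `n`. -/
def Nl (n : ℕ) : Sp I5 := NlT.getD n []

/-- quadratic part of the root element number `n`. -/
def Ml (n : ℕ) : Sp I5 := MlT.getD n []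

/-- polynomial entries of the root element number `n`. -/
def eX (n : ℕ) (i a : I5) : ℤ × ℤ × ℤ := (if i = a then 1 else 0, spGet (Nl n) i a, spGet (Ml n) i a)

/-- the root element `X_n(t)`. -/
def X (F : Type*) [Field F] (n : ℕ) (t : F) : Matrix I5 I5 F :=
  1 + t • spMat F (Nl n) + t ^ 2 • spMat F (Ml n)

lemma X_apply {F : Type*} [Field F] (n : ℕ) (t : F) (i a : I5) :
    X F n t i a = (((eX n i a).1 : ℤ) : F) + (((eX n i a).2.1 : ℤ) : F) * t
      + (((eX n i a).2.2 : ℤ) : F) * t ^ 2 := by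
  simp only [X, eX, Matrix.add_apply, Matrix.smul_apply, spMat_apply, Matrix.one_apply, smul_eq_mul]
  split_ifs <;> push_cast <;> ring

theorem table_ok : ∀ r : Fin Lie.chevB2.nroots, ∀ j k : Lie.chevB2.Idx, ∀ d : Fin 5,
    model.rco (eX r.val) j k d = coefL (xList Lie.chevB2 r j k) d := by
  decide +kernel

theorem deg_ok : ∀ r : Fin Lie.chevB2.nroots, ∀ j k : Lie.chevB2.Idx,
    ∀ x ∈ xList Lie.chevB2 r j k, x.1 < 5 := by
  decide +kernel

/-- the model matrix of a root element is the Prelude's `x_r(t)`. -/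
theorem rho_X (F : Type*) [Field F] (r : Fin Lie.chevB2.nroots) (t : F) :
    model.rho (X F r.val t) = Lie.chevB2.xMat F r t :=
  rho_eq_xMat Lie.chevB2 model F r (eX r.val) t _ (X_apply r.val t) (deg_ok r) (table_ok r)

theorem h1_ok : ∀ k : Lie.chevB2.Idx, ∑ c, ∑ d, model.bhat c d * spGet (model.tl k) c d = 0 := by
  decide +kernel

theorem h4_ok : ∀ j k : Lie.chevB2.Idx,
    ∑ c, ∑ d, model.lhat j c d * spGet (model.tl k) c d = if j = k then 1 else 0 := by
  decide +kernel

/-- the correction table for `H3`. -/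
def nu (a b : I5) : ℤ := if a = e2 ∧ b = f2 then -1 else if a = f2 ∧ b = e2 then 1 else 0

theorem h3a_ok : ∀ a b c d : I5, (if a = c ∧ b = d then (1 : ℤ) else 0) - (if b = c ∧ a = d then 1 else 0)
    - ∑ k, (spGet (model.tl k) a b - spGet (model.tl k) b a) * model.lhat k c d
      = nu a b * model.bhat c d := by
  decide +kernel

theorem h3b_ok : ∀ c d : I5, spGet model.gl c d - ∑ k, model.gT k * model.lhat k c d
    = 0 * model.bhat c d := by
  decide +kernel

variable {F : Type*} [Field F]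

theorem rho_mul {g h : Matrix I5 I5 F} (hg : model.IsIso g) (hh : model.IsIso h) :
    model.rho (g * h) = model.rho g * model.rho h :=
  model.rho_mul (model.H1_of_table h1_ok) (model.H3_of_table nu 0 h3a_ok h3b_ok) hg hh

theorem rho_one : model.rho (1 : Matrix I5 I5 F) = 1 :=
  model.rho_one (model.H4_of_table h4_ok)

end Cfsg.Agent.Lib.Helper5.B2Model
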