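import Mathlib
import Cfsg.Agent.Lib.Helper19.BTStmt

set_option autoImplicit false
set_option linter.unusedSimpArgs false
set_option linter.unusedSectionVars false
set_option linter.unusedVariables false

/-!
# S2369 / CARDCA (helper5)

The double coset `B¹ n B¹` of a stable reduced word in the twisted group of type F4 has
`|FixSet| * |B¹|` elements (`card_cell`); for the block `A = [0, 3]` this is `q |B¹|`.
-/

namespace Cfsg.Agent.Lib.Helper5.BTCARDCA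

open Cfsg Cfsg.Lie Cfsg.Agent.Lib.Helper18 Cfsg.Agent.Lib.Helper18.BNPairC
  Cfsg.Agent.Lib.Helper18.Sub Cfsg.Agent.Lib.Helper18.WGroup Cfsg.Agent.Lib.Helper18.Long
  Cfsg.Agent.Lib.Helper18.Cells Cfsg.Agent.Lib.Helper18.Cells2 Cfsg.Agent.Lib.Helper18.Tw1
  Cfsg.Agent.Lib.Helper18.Tw2 Cfsg.Agent.Lib.Helper18.Tw3 Cfsg.Agent.Lib.Helper18.RootSys
  Cfsg.Agent.Lib.Helper18.UOrd Cfsg.Agent.Lib.Helper18.Fast Cfsg.Agent.Lib.Helper18.AllRoots
  Cfsg.Agent.Lib.Helper18.Weyl Cfsg.Agent.Lib.Helper18.Core Cfsg.Agent.Lib.Helper18.Mono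
  Cfsg.Agent.Lib.Helper18.Norm
  Cfsg.Agent.Lib.Helper19 Cfsg.Agent.Lib.Helper19.TwCore
  Cfsg.Agent.Lib.Helper19.TwPerf Cfsg.Agent.Lib.Helper19.TwAb Cfsg.Agent.Lib.Helper19.TwSig
  Cfsg.Agent.Lib.Helper19.TwRel Cfsg.Agent.Lib.Helper19.TwRel2 Cfsg.Agent.Lib.Helper19.TwF4U
  Cfsg.Agent.Lib.Helper19.TwF4V Cfsg.Agent.Lib.Helper19.TwF4O Cfsg.Agent.Lib.Helper19.TwF4B
  Cfsg.Agent.Lib.Helper19.BTGen Cfsg.Agent.Lib.Helper19.BTStmt

universe u

/-- the number of elements of the double coset of the `i`-th representative, when its word is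
reduced and stable -/
theorem card_cell {K : Type u} [Field K] [Fintype K] {m : ℕ}
    (hK : Fintype.card K = 2 ^ (2 * m + 1)) {φ : K →+* K}
    {σ : ↥(chevF4.group K) →* ↥(chevF4.group K)} (hφ : ∀ x : K, φ x = x ^ 2 ^ m)
    (hσ : IsSig chevF4 GraphAutF4.gd.bar GraphAutF4.gd.lam φ σ)
    (i : Fin 16) (wd : List ℕ) (hN : N16 K i = nw hF4 K (plain wd))
    (hred : RedT FTabF4.fd WTabF4.X wd) (hstab : Stab hF4 σ wd) :
    Nat.card {g : Gam K m // ∃ b ∈ BG K m, ∃ b' ∈ BG K m, g = b * nG K m i * b'} =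
      Nat.card (FixSet hF4 σ wd) * Nat.card (BG K m) := by
  have hG1 := TwSigF4.f4_fix hK hφ hσ
  have hGeq := (tw_eq_fix hK hφ hσ).1
  have h2n : ((2 : ℕ) : K) = 0 := natCast_eq_zero_of_card Nat.prime_two hK
  have h2 : (2 : K) = 0 := by exact_mod_cast h2n
  have hneg := hneg4 (K := K) h2
  have hcc := card_inter_cell' CAll.cfF4 hadd4 hinj4 hσ TwSigF4.hbar hneg hpos4 wd hred hstab
  have e1 : Nat.card {g : Gam K m // ∃ b ∈ BG K m, ∃ b' ∈ BG K m, g = b * nG K m i * b'} =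
      Nat.card {g : GL chevF4.Idx K | Sg σ g g ∧ g ∈ cell CAll.cfF4 K wd} := by
    apply Nat.card_congr
    refine Equiv.ofBijective (fun g => ⟨(g.1 : GL chevF4.Idx K), ?_⟩) ⟨?_, ?_⟩
    · obtain ⟨b, hb, b', hb', e⟩ := g.2
      refine ⟨sg_fix_iff.mp (hG1 g.1.2), ?_⟩
      unfold cell
      rw [DoubleCoset.mem_doubleCoset]
      refine ⟨(b : GL chevF4.Idx K), (mem_BG_iff b).mp hb, (b' : GL chevF4.Idx K),
        (mem_BG_iff b').mp hb', ?_⟩
      rw [e, Subgroup.coe_mul, Subgroup.coe_mul, nG_coe hK, hN]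
    · intro g g' h
      simp only [Subtype.mk.injEq] at h
      exact Subtype.ext (Subtype.ext h)
    · rintro ⟨g, hsg, hc⟩
      have hg : g ∈ twistedF4 K (2 ^ m) := by
        rw [hGeq]
        exact sg_fix_iff.mpr hsg
      have hc' : g ∈ DoubleCoset.doubleCoset (N16 K i)
          (chevF4.borelSubgroup K : Set (GL chevF4.Idx K)) (chevF4.borelSubgroup K) := by
        rw [hN]
        exact hc
      obtain ⟨b1, hb1, b2, hb2, e⟩ := stepC' hK hφ hσ (N16_mem hK i) hg hc'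
      refine ⟨⟨⟨g, hg⟩, ⟨b1, hb1.2⟩, ?_, ⟨b2, hb2.2⟩, ?_, ?_⟩, rfl⟩
      · exact (mem_BG_iff _).mpr hb1.1
      · exact (mem_BG_iff _).mpr hb2.1
      · apply Subtype.ext
        rw [Subgroup.coe_mul, Subgroup.coe_mul, nG_coe hK]
        exact e
  have e2 : Nat.card {g : GL chevF4.Idx K | Sg σ g g ∧ g ∈ chevF4.borelSubgroup K} =
      Nat.card (BG K m) := by
    symm
    apply Nat.card_congr
    refine Equiv.ofBijective
      (fun x : BG K m => ⟨((x.1 : Gam K m) : GL chevF4.Idx K), ?_⟩) ⟨?_, ?_⟩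
    · exact ⟨sg_fix_iff.mp (hG1 x.1.2), (mem_BG_iff x.1).mp x.2⟩
    · intro x x' h
      simp only [Subtype.mk.injEq] at h
      exact Subtype.ext (Subtype.ext h)
    · rintro ⟨g, hsg, hb⟩
      have hg : g ∈ twistedF4 K (2 ^ m) := by
        rw [hGeq]
        exact sg_fix_iff.mpr hsg
      exact ⟨⟨⟨g, hg⟩, (mem_BG_iff _).mpr hb⟩, rfl⟩
  rw [e1, hcc, e2]

theorem main : CardCA.{u} := by
  intro K _ _ m hK
  obtain ⟨φ, σ, hφ, hσ⟩ := TwSigF4.exists_sig hK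
  have hG1 := TwSigF4.f4_fix hK hφ hσ
  have h2n : ((2 : ℕ) : K) = 0 := natCast_eq_zero_of_card Nat.prime_two hK
  have h2 : (2 : K) = 0 := by exact_mod_cast h2n
  obtain ⟨hnA, hnB⟩ := nw_blocks_mem (m := m) hK
  have hstab : Stab hF4 σ [0, 3] := stab_wOf hσ h2 (hG1 hnB) true
  rw [card_cell hK hφ hσ 1 [0, 3] rfl redA hstab, cardA hσ h2 (2 ^ m) hφ hG1 hnA,
    Nat.card_eq_fintype_card, hK]

end Cfsg.Agent.Lib.Helper5.BTCARDCA
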