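import Mathlib
import Cfsg.Agent.Lib.Helper19.BTStmt
import Cfsg.Agent.Lib.Helper5.BTCARDCA

set_option autoImplicit false
set_option linter.unusedSimpArgs false
set_option linter.unusedSectionVars false
set_option linter.unusedVariables false

/-!
# S2369 / CARDCB (helper5)

The double coset of the block `B = [1, 2, 1, 2]` in the twisted group of type F4 has `q² |B¹|`
elements.
-/

namespace Cfsg.Agent.Lib.Helper5.BTCARDCB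

open Cfsg Cfsg.Lie Cfsg.Agent.Lib.Helper18 Cfsg.Agent.Lib.Helper18.BNPairC
  Cfsg.Agent.Lib.Helper18.Sub Cfsg.Agent.Lib.Helper18.WGroup Cfsg.Agent.Lib.Helper18.Long
  Cfsg.Agent.Lib.Helper18.Cells Cfsg.Agent.Lib.Helper18.Cells2 Cfsg.Agent.Lib.Helper18.Tw1
  Cfsg.Agent.Lib.Helper18.Tw2 Cfsg.Agent.Lib.Helper18.Tw3 Cfsg.Agent.Lib.Helper18.RootSys
  Cfsg.Agent.Lib.Helper18.UOrd Cfsg.Agent.Lib.Helper18.Fast Cfsg.Agent.Lib.Helper18.AllRoots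
  Cfsg.Agent.Lib.Helper18.Weyl Cfsg.Agent.Lib.Helper18.Core Cfsg.Agent.Lib.Helper18.Mono
  Cfsg.Agent.Lib.Helper18.Norm
  Cfsg.Agent.Lib.Helper19 Cfsg.Agent.Lib.Helper19.TwCore
  Cfsg.Agent.Lib.Helper19.TwPerf Cfsg.Agent.Lib.Helper19.TwAb Cfsg.Agent.Lib.Helper19.TwSig
  Cfsg.Agent.Lib.Helper19.TwRel Cfsg.Agent.Lib.Helper19.TwRel2 Cfsg.Agent.Lib.Helper19.TwF4U
  Cfsg.Agent.Lib.Helper19.TwF4V Cfsg.Agent.Lib.Helper19.TwF4O Cfsg.Agent.Lib.Helper19.TwF4B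
  Cfsg.Agent.Lib.Helper19.BTGen Cfsg.Agent.Lib.Helper19.BTStmt

universe u

theorem main : CardCB.{u} := by
  intro K _ _ m hK
  obtain ⟨φ, σ, hφ, hσ⟩ := TwSigF4.exists_sig hK
  have hG1 := TwSigF4.f4_fix hK hφ hσ
  have h2n : ((2 : ℕ) : K) = 0 := natCast_eq_zero_of_card Nat.prime_two hK
  have h2 : (2 : K) = 0 := by exact_mod_cast h2n
  have hfrob2 : ∀ x y : K, (x + y) ^ 2 = x ^ 2 + y ^ 2 :=
    frob_add (n := 2 * m + 1) (by omega) hK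
  have hfrob' : ∀ x y : K, (x + y) ^ (2 * 2 ^ m) = x ^ (2 * 2 ^ m) + y ^ (2 * 2 ^ m) := by
    have e1 : 2 * 2 ^ m = 2 ^ (m + 1) := by ring
    rw [e1]
    exact frob_pow_add hfrob2 (m + 1)
  obtain ⟨hnA, hnB⟩ := nw_blocks_mem (m := m) hK
  have hstab : Stab hF4 σ [1, 2, 1, 2] := stab_wOf hσ h2 (hG1 hnB) false
  rw [Cfsg.Agent.Lib.Helper5.BTCARDCA.card_cell hK hφ hσ 2 [1, 2, 1, 2] rfl redB4 hstab,
    cardB hσ h2 (2 ^ m) hφ hG1 hnB hfrob', Nat.card_eq_fintype_card, hK]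

end Cfsg.Agent.Lib.Helper5.BTCARDCB
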