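import Mathlib
import Cfsg.Agent.Lib.Helper19.BTStmt

set_option autoImplicit false
set_option linter.unusedSimpArgs false
set_option linter.unusedSectionVars false
set_option linter.unusedVariables false

/-!
# S2369 / DISJ (helper5)

The sixteen double cosets `B¹ n_w B¹` of the twisted group of type F4 are pairwise distinct: two
words whose cells meet have the same permutation of the roots, and the sixteen words have
pairwise different permutations.
-/

namespace Cfsg.Agent.Lib.Helper5.BTDISJ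

open Cfsg Cfsg.Lie Cfsg.Agent.Lib.Helper18 Cfsg.Agent.Lib.Helper18.BNPairC
  Cfsg.Agent.Lib.Helper18.Sub Cfsg.Agent.Lib.Helper18.WGroup Cfsg.Agent.Lib.Helper18.Long
  Cfsg.Agent.Lib.Helper18.Cells Cfsg.Agent.Lib.Helper18.Cells2 Cfsg.Agent.Lib.Helper18.Tw1
  Cfsg.Agent.Lib.Helper18.Tw2 Cfsg.Agent.Lib.Helper18.Tw3 Cfsg.Agent.Lib.Helper18.RootSys
  Cfsg.Agent.Lib.Helper18.UOrd Cfsg.Agent.Lib.Helper18.Fast Cfsg.Agent.Lib.Helper18.AllRoots
  Cfsg.Agent.Lib.Helper18.Weyl Cfsg.Agent.Lib.Helper18.Core Cfsg.Agent.Lib.Helper18.Mono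
  Cfsg.Agent.Lib.Helper18.Norm
  Cfsg.Agent.Lib.Helper19.TwCore
  Cfsg.Agent.Lib.Helper19.TwPerf Cfsg.Agent.Lib.Helper19.TwAb Cfsg.Agent.Lib.Helper19.TwSig
  Cfsg.Agent.Lib.Helper19.TwRel Cfsg.Agent.Lib.Helper19.TwRel2 Cfsg.Agent.Lib.Helper19.TwF4U
  Cfsg.Agent.Lib.Helper19.TwF4V Cfsg.Agent.Lib.Helper19.TwF4O
  Cfsg.Agent.Lib.Helper19.BTGen Cfsg.Agent.Lib.Helper19.BTStmt

universe u

/-- the letters of the sixteen words are simple reflections -/
theorem hlt16 : ∀ i : Fin 16, ∀ j ∈ flat (bls.getD i.val []), j < FTabF4.fd.rank := by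
  decide

/-- the sixteen words have pairwise different permutations of the roots -/
theorem idx_eq : ∀ i j : Fin 16,
    (∀ r < FTabF4.fd.n, wperm WTabF4.X (flat (bls.getD i.val [])) r =
      wperm WTabF4.X (flat (bls.getD j.val [])) r) → i = j := by
  decide +kernel

theorem main : DisjG.{u} := by
  intro K _ _ m hK w w' b hb b' hb' h
  have h0 := congrArg (fun g : Gam K m => (g : GL chevF4.Idx K)) h
  simp only [Subgroup.coe_mul, nG_coe hK] at h0
  have hbB : (b : GL chevF4.Idx K) ∈ chevF4.borelSubgroup K := (mem_BG_iff b).mp hb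
  have hb'B : (b' : GL chevF4.Idx K) ∈ chevF4.borelSubgroup K := (mem_BG_iff b').mp hb'
  have h1 : N16 K w' ∈ cell CAll.cfF4 K (flat (bls.getD w'.val [])) := by
    unfold cell
    rw [DoubleCoset.mem_doubleCoset]
    exact ⟨1, Subgroup.one_mem _, 1, Subgroup.one_mem _, by unfold N16; group⟩
  have h2 : N16 K w' ∈ cell CAll.cfF4 K (flat (bls.getD w.val [])) := by
    unfold cell
    rw [DoubleCoset.mem_doubleCoset]
    exact ⟨_, hbB, _, hb'B, h0⟩
  have hw := wprod_eq_of_meet CAll.cfF4 ChainAll.rF4 UAll.uF4 (by decide) hadd4 hinj4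
    (hlt16 w) (hlt16 w') h2 h1
  apply idx_eq w w'
  intro r hr
  have h3 := congrArg (fun τ : Equiv.Perm (Fin FTabF4.fd.n) => (τ ⟨r, hr⟩).val) hw
  beta_reduce at h3
  rw [wprod_val CAll.cfF4 ChainAll.rF4 UAll.uF4 (by decide) (hlt16 w),
    wprod_val CAll.cfF4 ChainAll.rF4 UAll.uF4 (by decide) (hlt16 w')] at h3
  exact h3

end Cfsg.Agent.Lib.Helper5.BTDISJ
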