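import Cfsg.Agent.Lib.Helper5.D4Model
import Cfsg.Prelude.Def_Classical

/-!
helper5: the isometry group of `x₁y₁ + x₂y₂ + x₃y₃ + x₄y₄` over an arbitrary field: root elements,
elimination (`O = E · Diag · ⟨swap⟩`), the commutator subgroup, and the isomorphism of `PΩ₈⁺` with
the Chevalley group of type `D₄`.  (Most of this file is generated from the root tables.)
-/

set_option autoImplicit false
set_option linter.unusedSectionVars false
set_option linter.unusedSimpArgs false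
set_option linter.unusedVariables false
set_option linter.unusedTactic false
set_option linter.unreachableTactic false
set_option linter.unnecessarySeqFocus false

namespace Cfsg.Agent.Lib.Helper5.D4Iso

open Cfsg.Agent.Lib.Helper5.ChevRep Cfsg.Agent.Lib.Helper5.D4Model Matrix
open scoped commutatorElement

variable {F : Type*} [Field F]

/-- the vector with the given coordinates (order `e1 .. e4 f1 .. f4`). -/
def vec8 (a1 a2 a3 a4 b1 b2 b3 b4 : F) : I8 → F := Sum.elim ![a1, a2, a3, a4] ![b1, b2, b3, b4]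

@[simp] lemma vec8_e1 (a1 a2 a3 a4 b1 b2 b3 b4 : F) : vec8 a1 a2 a3 a4 b1 b2 b3 b4 e1 = a1 := rfl
@[simp] lemma vec8_e2 (a1 a2 a3 a4 b1 b2 b3 b4 : F) : vec8 a1 a2 a3 a4 b1 b2 b3 b4 e2 = a2 := rfl
@[simp] lemma vec8_e3 (a1 a2 a3 a4 b1 b2 b3 b4 : F) : vec8 a1 a2 a3 a4 b1 b2 b3 b4 e3 = a3 := rfl
@[simp] lemma vec8_e4 (a1 a2 a3 a4 b1 b2 b3 b4 : F) : vec8 a1 a2 a3 a4 b1 b2 b3 b4 e4 = a4 := rfl
@[simp] lemma vec8_f1 (a1 a2 a3 a4 b1 b2 b3 b4 : F) : vec8 a1 a2 a3 a4 b1 b2 b3 b4 f1 = b1 := rfl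
@[simp] lemma vec8_f2 (a1 a2 a3 a4 b1 b2 b3 b4 : F) : vec8 a1 a2 a3 a4 b1 b2 b3 b4 f2 = b2 := rfl
@[simp] lemma vec8_f3 (a1 a2 a3 a4 b1 b2 b3 b4 : F) : vec8 a1 a2 a3 a4 b1 b2 b3 b4 f3 = b3 := rfl
@[simp] lemma vec8_f4 (a1 a2 a3 a4 b1 b2 b3 b4 : F) : vec8 a1 a2 a3 a4 b1 b2 b3 b4 f4 = b4 := rfl

lemma I8_forall {P : I8 → Prop} :
    (∀ i, P i) ↔ P e1 ∧ P e2 ∧ P e3 ∧ P e4 ∧ P f1 ∧ P f2 ∧ P f3 ∧ P f4 := by
  constructor
  · intro h
    exact ⟨h _, h _, h _, h _, h _, h _, h _, h _⟩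
  · rintro ⟨h1, h2, h3, h4, h5, h6, h7, h8⟩ i
    rcases i with j | j
    · fin_cases j
      · exact h1
      · exact h2
      · exact h3
      · exact h4
    · fin_cases j
      · exact h5
      · exact h6
      · exact h7
      · exact h8

lemma vec8_eta (v : I8 → F) :
    v = vec8 (v e1) (v e2) (v e3) (v e4) (v f1) (v f2) (v f3) (v f4) := by
  funext i
  revert i
  rw [I8_forall]
  exact ⟨rfl, rfl, rfl, rfl, rfl, rfl, rfl, rfl⟩

lemma vec8_congr {a1 a2 a3 a4 b1 b2 b3 b4 a1' a2' a3' a4' b1' b2' b3' b4' : F} (h1 : a1 = a1')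
    (h2 : a2 = a2') (h3 : a3 = a3') (h4 : a4 = a4') (h5 : b1 = b1') (h6 : b2 = b2') (h7 : b3 = b3')
    (h8 : b4 = b4') : vec8 a1 a2 a3 a4 b1 b2 b3 b4 = vec8 a1' a2' a3' a4' b1' b2' b3' b4' := by
  subst h1 h2 h3 h4 h5 h6 h7 h8; rfl

lemma vec8_zero : vec8 (0 : F) 0 0 0 0 0 0 0 = 0 := by
  funext i
  revert i
  rw [I8_forall]
  exact ⟨rfl, rfl, rfl, rfl, rfl, rfl, rfl, rfl⟩

lemma I8_sum (f : I8 → F) : ∑ i, f i = f e1 + f e2 + f e3 + f e4 + f f1 + f f2 + f f3 + f f4 := by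
  rw [Fintype.sum_sum_type, Fin.sum_univ_four, Fin.sum_univ_four]
  ring

lemma Q_eq (v : I8 → F) :
    quadFormPlus 4 F v = v e1 * v f1 + v e2 * v f2 + v e3 * v f3 + v e4 * v f4 := by
  simp [quadFormPlus, Fin.sum_univ_four]

lemma X_mulVec (n : ℕ) (t : F) (v : I8 → F) (i : I8) :
    (X F n t *ᵥ v) i = v i + t * (spMat F (Nl n) *ᵥ v) i := by
  simp [X, Matrix.add_mulVec, Matrix.smul_mulVec]

lemma Nl0 : Nl 0 = [(f1, e2, 1), (f2, e1, -1)] := rfl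

lemma Nl1 : Nl 1 = [(f1, e3, 1), (f3, e1, -1)] := rfl

lemma Nl2 : Nl 2 = [(e4, e1, -1), (f1, f4, 1)] := rfl

lemma Nl3 : Nl 3 = [(f1, e4, 1), (f4, e1, -1)] := rfl

lemma Nl4 : Nl 4 = [(e3, e1, 1), (f1, f3, -1)] := rfl

lemma Nl5 : Nl 5 = [(e2, e1, -1), (f1, f2, 1)] := rfl

lemma Nl6 : Nl 6 = [(f2, e3, 1), (f3, e2, -1)] := rfl

lemma Nl7 : Nl 7 = [(e4, e2, -1), (f2, f4, 1)] := rfl

lemma Nl8 : Nl 8 = [(f2, e4, 1), (f4, e2, -1)] := rfl

lemma Nl9 : Nl 9 = [(e3, e2, 1), (f2, f3, -1)] := rfl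

lemma Nl10 : Nl 10 = [(e4, e3, 1), (f3, f4, -1)] := rfl

lemma Nl11 : Nl 11 = [(f3, e4, -1), (f4, e3, 1)] := rfl

lemma Nl12 : Nl 12 = [(e3, f4, 1), (e4, f3, -1)] := rfl

lemma Nl13 : Nl 13 = [(e3, e4, 1), (f4, f3, -1)] := rfl

lemma Nl14 : Nl 14 = [(e2, e3, 1), (f3, f2, -1)] := rfl

lemma Nl15 : Nl 15 = [(e2, f4, -1), (e4, f2, 1)] := rfl

lemma Nl16 : Nl 16 = [(e2, e4, -1), (f4, f2, 1)] := rfl

lemma Nl17 : Nl 17 = [(e2, f3, -1), (e3, f2, 1)] := rfl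

lemma Nl18 : Nl 18 = [(e1, e2, -1), (f2, f1, 1)] := rfl

lemma Nl19 : Nl 19 = [(e1, e3, 1), (f3, f1, -1)] := rfl

lemma Nl20 : Nl 20 = [(e1, f4, -1), (e4, f1, 1)] := rfl

lemma Nl21 : Nl 21 = [(e1, e4, -1), (f4, f1, 1)] := rfl

lemma Nl22 : Nl 22 = [(e1, f3, -1), (e3, f1, 1)] := rfl

lemma Nl23 : Nl 23 = [(e1, f2, -1), (e2, f1, 1)] := rfl

lemma X0 (t : F) (v : I8 → F) :
    X F 0 t *ᵥ v = vec8 (v e1) (v e2) (v e3) (v e4) (v f1 + t * v e2) (v f2 - t * v e1) (v f3) (v f4) := by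
  funext i
  rw [X_mulVec, Nl0, spMat_mulVec]
  revert i
  rw [I8_forall]
  refine ⟨?_, ?_, ?_, ?_, ?_, ?_, ?_, ?_⟩ <;> simp <;> ring

lemma X1 (t : F) (v : I8 → F) :
    X F 1 t *ᵥ v = vec8 (v e1) (v e2) (v e3) (v e4) (v f1 + t * v e3) (v f2) (v f3 - t * v e1) (v f4) := by
  funext i
  rw [X_mulVec, Nl1, spMat_mulVec]
  revert i
  rw [I8_forall]
  refine ⟨?_, ?_, ?_, ?_, ?_, ?_, ?_, ?_⟩ <;> simp <;> ring

lemma X2 (t : F) (v : I8 → F) :
    X F 2 t *ᵥ v = vec8 (v e1) (v e2) (v e3) (v e4 - t * v e1) (v f1 + t * v f4) (v f2) (v f3) (v f4) := by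
  funext i
  rw [X_mulVec, Nl2, spMat_mulVec]
  revert i
  rw [I8_forall]
  refine ⟨?_, ?_, ?_, ?_, ?_, ?_, ?_, ?_⟩ <;> simp <;> ring

lemma X3 (t : F) (v : I8 → F) :
    X F 3 t *ᵥ v = vec8 (v e1) (v e2) (v e3) (v e4) (v f1 + t * v e4) (v f2) (v f3) (v f4 - t * v e1) := by
  funext i
  rw [X_mulVec, Nl3, spMat_mulVec]
  revert i
  rw [I8_forall]
  refine ⟨?_, ?_, ?_, ?_, ?_, ?_, ?_, ?_⟩ <;> simp <;> ring

lemma X4 (t : F) (v : I8 → F) :
    X F 4 t *ᵥ v = vec8 (v e1) (v e2) (v e3 + t * v e1) (v e4) (v f1 - t * v f3) (v f2) (v f3) (v f4) := by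
  funext i
  rw [X_mulVec, Nl4, spMat_mulVec]
  revert i
  rw [I8_forall]
  refine ⟨?_, ?_, ?_, ?_, ?_, ?_, ?_, ?_⟩ <;> simp <;> ring

lemma X5 (t : F) (v : I8 → F) :
    X F 5 t *ᵥ v = vec8 (v e1) (v e2 - t * v e1) (v e3) (v e4) (v f1 + t * v f2) (v f2) (v f3) (v f4) := by
  funext i
  rw [X_mulVec, Nl5, spMat_mulVec]
  revert i
  rw [I8_forall]
  refine ⟨?_, ?_, ?_, ?_, ?_, ?_, ?_, ?_⟩ <;> simp <;> ring

lemma X6 (t : F) (v : I8 → F) :
    X F 6 t *ᵥ v = vec8 (v e1) (v e2) (v e3) (v e4) (v f1) (v f2 + t * v e3) (v f3 - t * v e2) (v f4) := by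
  funext i
  rw [X_mulVec, Nl6, spMat_mulVec]
  revert i
  rw [I8_forall]
  refine ⟨?_, ?_, ?_, ?_, ?_, ?_, ?_, ?_⟩ <;> simp <;> ring

lemma X7 (t : F) (v : I8 → F) :
    X F 7 t *ᵥ v = vec8 (v e1) (v e2) (v e3) (v e4 - t * v e2) (v f1) (v f2 + t * v f4) (v f3) (v f4) := by
  funext i
  rw [X_mulVec, Nl7, spMat_mulVec]
  revert i
  rw [I8_forall]
  refine ⟨?_, ?_, ?_, ?_, ?_, ?_, ?_, ?_⟩ <;> simp <;> ring

lemma X8 (t : F) (v : I8 → F) :
    X F 8 t *ᵥ v = vec8 (v e1) (v e2) (v e3) (v e4) (v f1) (v f2 + t * v e4) (v f3) (v f4 - t * v e2) := by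
  funext i
  rw [X_mulVec, Nl8, spMat_mulVec]
  revert i
  rw [I8_forall]
  refine ⟨?_, ?_, ?_, ?_, ?_, ?_, ?_, ?_⟩ <;> simp <;> ring

lemma X9 (t : F) (v : I8 → F) :
    X F 9 t *ᵥ v = vec8 (v e1) (v e2) (v e3 + t * v e2) (v e4) (v f1) (v f2 - t * v f3) (v f3) (v f4) := by
  funext i
  rw [X_mulVec, Nl9, spMat_mulVec]
  revert i
  rw [I8_forall]
  refine ⟨?_, ?_, ?_, ?_, ?_, ?_, ?_, ?_⟩ <;> simp <;> ring

lemma X10 (t : F) (v : I8 → F) :
    X F 10 t *ᵥ v = vec8 (v e1) (v e2) (v e3) (v e4 + t * v e3) (v f1) (v f2) (v f3 - t * v f4) (v f4) := by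
  funext i
  rw [X_mulVec, Nl10, spMat_mulVec]
  revert i
  rw [I8_forall]
  refine ⟨?_, ?_, ?_, ?_, ?_, ?_, ?_, ?_⟩ <;> simp <;> ring

lemma X11 (t : F) (v : I8 → F) :
    X F 11 t *ᵥ v = vec8 (v e1) (v e2) (v e3) (v e4) (v f1) (v f2) (v f3 - t * v e4) (v f4 + t * v e3) := by
  funext i
  rw [X_mulVec, Nl11, spMat_mulVec]
  revert i
  rw [I8_forall]
  refine ⟨?_, ?_, ?_, ?_, ?_, ?_, ?_, ?_⟩ <;> simp <;> ring

lemma X12 (t : F) (v : I8 → F) :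
    X F 12 t *ᵥ v = vec8 (v e1) (v e2) (v e3 + t * v f4) (v e4 - t * v f3) (v f1) (v f2) (v f3) (v f4) := by
  funext i
  rw [X_mulVec, Nl12, spMat_mulVec]
  revert i
  rw [I8_forall]
  refine ⟨?_, ?_, ?_, ?_, ?_, ?_, ?_, ?_⟩ <;> simp <;> ring

lemma X13 (t : F) (v : I8 → F) :
    X F 13 t *ᵥ v = vec8 (v e1) (v e2) (v e3 + t * v e4) (v e4) (v f1) (v f2) (v f3) (v f4 - t * v f3) := by
  funext i
  rw [X_mulVec, Nl13, spMat_mulVec]
  revert i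
  rw [I8_forall]
  refine ⟨?_, ?_, ?_, ?_, ?_, ?_, ?_, ?_⟩ <;> simp <;> ring

lemma X14 (t : F) (v : I8 → F) :
    X F 14 t *ᵥ v = vec8 (v e1) (v e2 + t * v e3) (v e3) (v e4) (v f1) (v f2) (v f3 - t * v f2) (v f4) := by
  funext i
  rw [X_mulVec, Nl14, spMat_mulVec]
  revert i
  rw [I8_forall]
  refine ⟨?_, ?_, ?_, ?_, ?_, ?_, ?_, ?_⟩ <;> simp <;> ring

lemma X15 (t : F) (v : I8 → F) :
    X F 15 t *ᵥ v = vec8 (v e1) (v e2 - t * v f4) (v e3) (v e4 + t * v f2) (v f1) (v f2) (v f3) (v f4) := by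
  funext i
  rw [X_mulVec, Nl15, spMat_mulVec]
  revert i
  rw [I8_forall]
  refine ⟨?_, ?_, ?_, ?_, ?_, ?_, ?_, ?_⟩ <;> simp <;> ring

lemma X16 (t : F) (v : I8 → F) :
    X F 16 t *ᵥ v = vec8 (v e1) (v e2 - t * v e4) (v e3) (v e4) (v f1) (v f2) (v f3) (v f4 + t * v f2) := by
  funext i
  rw [X_mulVec, Nl16, spMat_mulVec]
  revert i
  rw [I8_forall]
  refine ⟨?_, ?_, ?_, ?_, ?_, ?_, ?_, ?_⟩ <;> simp <;> ring

lemma X17 (t : F) (v : I8 → F) :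
    X F 17 t *ᵥ v = vec8 (v e1) (v e2 - t * v f3) (v e3 + t * v f2) (v e4) (v f1) (v f2) (v f3) (v f4) := by
  funext i
  rw [X_mulVec, Nl17, spMat_mulVec]
  revert i
  rw [I8_forall]
  refine ⟨?_, ?_, ?_, ?_, ?_, ?_, ?_, ?_⟩ <;> simp <;> ring

lemma X18 (t : F) (v : I8 → F) :
    X F 18 t *ᵥ v = vec8 (v e1 - t * v e2) (v e2) (v e3) (v e4) (v f1) (v f2 + t * v f1) (v f3) (v f4) := by
  funext i
  rw [X_mulVec, Nl18, spMat_mulVec]
  revert i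
  rw [I8_forall]
  refine ⟨?_, ?_, ?_, ?_, ?_, ?_, ?_, ?_⟩ <;> simp <;> ring

lemma X19 (t : F) (v : I8 → F) :
    X F 19 t *ᵥ v = vec8 (v e1 + t * v e3) (v e2) (v e3) (v e4) (v f1) (v f2) (v f3 - t * v f1) (v f4) := by
  funext i
  rw [X_mulVec, Nl19, spMat_mulVec]
  revert i
  rw [I8_forall]
  refine ⟨?_, ?_, ?_, ?_, ?_, ?_, ?_, ?_⟩ <;> simp <;> ring

lemma X20 (t : F) (v : I8 → F) :
    X F 20 t *ᵥ v = vec8 (v e1 - t * v f4) (v e2) (v e3) (v e4 + t * v f1) (v f1) (v f2) (v f3) (v f4) := by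
  funext i
  rw [X_mulVec, Nl20, spMat_mulVec]
  revert i
  rw [I8_forall]
  refine ⟨?_, ?_, ?_, ?_, ?_, ?_, ?_, ?_⟩ <;> simp <;> ring

lemma X21 (t : F) (v : I8 → F) :
    X F 21 t *ᵥ v = vec8 (v e1 - t * v e4) (v e2) (v e3) (v e4) (v f1) (v f2) (v f3) (v f4 + t * v f1) := by
  funext i
  rw [X_mulVec, Nl21, spMat_mulVec]
  revert i
  rw [I8_forall]
  refine ⟨?_, ?_, ?_, ?_, ?_, ?_, ?_, ?_⟩ <;> simp <;> ring

lemma X22 (t : F) (v : I8 → F) :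
    X F 22 t *ᵥ v = vec8 (v e1 - t * v f3) (v e2) (v e3 + t * v f1) (v e4) (v f1) (v f2) (v f3) (v f4) := by
  funext i
  rw [X_mulVec, Nl22, spMat_mulVec]
  revert i
  rw [I8_forall]
  refine ⟨?_, ?_, ?_, ?_, ?_, ?_, ?_, ?_⟩ <;> simp <;> ring

lemma X23 (t : F) (v : I8 → F) :
    X F 23 t *ᵥ v = vec8 (v e1 - t * v f2) (v e2 + t * v f1) (v e3) (v e4) (v f1) (v f2) (v f3) (v f4) := by
  funext i
  rw [X_mulVec, Nl23, spMat_mulVec]
  revert i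
  rw [I8_forall]
  refine ⟨?_, ?_, ?_, ?_, ?_, ?_, ?_, ?_⟩ <;> simp <;> ring

/-- matrices preserving the quadratic form. -/
def IsQ (g : Matrix I8 I8 F) : Prop := ∀ v, quadFormPlus 4 F (g *ᵥ v) = quadFormPlus 4 F v

lemma IsQ.mul {g h : Matrix I8 I8 F} (hg : IsQ g) (hh : IsQ h) : IsQ (g * h) := by
  intro v
  rw [← Matrix.mulVec_mulVec, hg, hh]

lemma isQ_one : IsQ (1 : Matrix I8 I8 F) := by
  intro v
  rw [Matrix.one_mulVec]

lemma isQ_X (n : ℕ) (hn : n < 24) (t : F) : IsQ (X F n t) := by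
  intro v
  interval_cases n
  · rw [X0, Q_eq, Q_eq]; simp only [vec8_e1, vec8_e2, vec8_e3, vec8_e4, vec8_f1, vec8_f2, vec8_f3, vec8_f4]; ring
  · rw [X1, Q_eq, Q_eq]; simp only [vec8_e1, vec8_e2, vec8_e3, vec8_e4, vec8_f1, vec8_f2, vec8_f3, vec8_f4]; ring
  · rw [X2, Q_eq, Q_eq]; simp only [vec8_e1, vec8_e2, vec8_e3, vec8_e4, vec8_f1, vec8_f2, vec8_f3, vec8_f4]; ring
  · rw [X3, Q_eq, Q_eq]; simp only [vec8_e1, vec8_e2, vec8_e3, vec8_e4, vec8_f1, vec8_f2, vec8_f3, vec8_f4]; ring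
  · rw [X4, Q_eq, Q_eq]; simp only [vec8_e1, vec8_e2, vec8_e3, vec8_e4, vec8_f1, vec8_f2, vec8_f3, vec8_f4]; ring
  · rw [X5, Q_eq, Q_eq]; simp only [vec8_e1, vec8_e2, vec8_e3, vec8_e4, vec8_f1, vec8_f2, vec8_f3, vec8_f4]; ring
  · rw [X6, Q_eq, Q_eq]; simp only [vec8_e1, vec8_e2, vec8_e3, vec8_e4, vec8_f1, vec8_f2, vec8_f3, vec8_f4]; ring
  · rw [X7, Q_eq, Q_eq]; simp only [vec8_e1, vec8_e2, vec8_e3, vec8_e4, vec8_f1, vec8_f2, vec8_f3, vec8_f4]; ring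
  · rw [X8, Q_eq, Q_eq]; simp only [vec8_e1, vec8_e2, vec8_e3, vec8_e4, vec8_f1, vec8_f2, vec8_f3, vec8_f4]; ring
  · rw [X9, Q_eq, Q_eq]; simp only [vec8_e1, vec8_e2, vec8_e3, vec8_e4, vec8_f1, vec8_f2, vec8_f3, vec8_f4]; ring
  · rw [X10, Q_eq, Q_eq]; simp only [vec8_e1, vec8_e2, vec8_e3, vec8_e4, vec8_f1, vec8_f2, vec8_f3, vec8_f4]; ring
  · rw [X11, Q_eq, Q_eq]; simp only [vec8_e1, vec8_e2, vec8_e3, vec8_e4, vec8_f1, vec8_f2, vec8_f3, vec8_f4]; ring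
  · rw [X12, Q_eq, Q_eq]; simp only [vec8_e1, vec8_e2, vec8_e3, vec8_e4, vec8_f1, vec8_f2, vec8_f3, vec8_f4]; ring
  · rw [X13, Q_eq, Q_eq]; simp only [vec8_e1, vec8_e2, vec8_e3, vec8_e4, vec8_f1, vec8_f2, vec8_f3, vec8_f4]; ring
  · rw [X14, Q_eq, Q_eq]; simp only [vec8_e1, vec8_e2, vec8_e3, vec8_e4, vec8_f1, vec8_f2, vec8_f3, vec8_f4]; ring
  · rw [X15, Q_eq, Q_eq]; simp only [vec8_e1, vec8_e2, vec8_e3, vec8_e4, vec8_f1, vec8_f2, vec8_f3, vec8_f4]; ring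
  · rw [X16, Q_eq, Q_eq]; simp only [vec8_e1, vec8_e2, vec8_e3, vec8_e4, vec8_f1, vec8_f2, vec8_f3, vec8_f4]; ring
  · rw [X17, Q_eq, Q_eq]; simp only [vec8_e1, vec8_e2, vec8_e3, vec8_e4, vec8_f1, vec8_f2, vec8_f3, vec8_f4]; ring
  · rw [X18, Q_eq, Q_eq]; simp only [vec8_e1, vec8_e2, vec8_e3, vec8_e4, vec8_f1, vec8_f2, vec8_f3, vec8_f4]; ring
  · rw [X19, Q_eq, Q_eq]; simp only [vec8_e1, vec8_e2, vec8_e3, vec8_e4, vec8_f1, vec8_f2, vec8_f3, vec8_f4]; ring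
  · rw [X20, Q_eq, Q_eq]; simp only [vec8_e1, vec8_e2, vec8_e3, vec8_e4, vec8_f1, vec8_f2, vec8_f3, vec8_f4]; ring
  · rw [X21, Q_eq, Q_eq]; simp only [vec8_e1, vec8_e2, vec8_e3, vec8_e4, vec8_f1, vec8_f2, vec8_f3, vec8_f4]; ring
  · rw [X22, Q_eq, Q_eq]; simp only [vec8_e1, vec8_e2, vec8_e3, vec8_e4, vec8_f1, vec8_f2, vec8_f3, vec8_f4]; ring
  · rw [X23, Q_eq, Q_eq]; simp only [vec8_e1, vec8_e2, vec8_e3, vec8_e4, vec8_f1, vec8_f2, vec8_f3, vec8_f4]; ring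

lemma mat_ext_mulVec {A B : Matrix I8 I8 F} (h : ∀ v, A *ᵥ v = B *ᵥ v) : A = B := by
  ext i j
  have := congrFun (h (Pi.single j 1)) i
  simpa [Matrix.mulVec, dotProduct, Pi.single_apply] using this

lemma X_add (n : ℕ) (hn : n < 24) (a b : F) : X F n a * X F n b = X F n (a + b) := by
  apply mat_ext_mulVec
  intro v
  rw [← Matrix.mulVec_mulVec]
  interval_cases n
  · rw [X0, X0, X0]; simp only [vec8_e1, vec8_e2, vec8_e3, vec8_e4, vec8_f1, vec8_f2, vec8_f3, vec8_f4]; apply vec8_congr <;> ring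
  · rw [X1, X1, X1]; simp only [vec8_e1, vec8_e2, vec8_e3, vec8_e4, vec8_f1, vec8_f2, vec8_f3, vec8_f4]; apply vec8_congr <;> ring
  · rw [X2, X2, X2]; simp only [vec8_e1, vec8_e2, vec8_e3, vec8_e4, vec8_f1, vec8_f2, vec8_f3, vec8_f4]; apply vec8_congr <;> ring
  · rw [X3, X3, X3]; simp only [vec8_e1, vec8_e2, vec8_e3, vec8_e4, vec8_f1, vec8_f2, vec8_f3, vec8_f4]; apply vec8_congr <;> ring
  · rw [X4, X4, X4]; simp only [vec8_e1, vec8_e2, vec8_e3, vec8_e4, vec8_f1, vec8_f2, vec8_f3, vec8_f4]; apply vec8_congr <;> ring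
  · rw [X5, X5, X5]; simp only [vec8_e1, vec8_e2, vec8_e3, vec8_e4, vec8_f1, vec8_f2, vec8_f3, vec8_f4]; apply vec8_congr <;> ring
  · rw [X6, X6, X6]; simp only [vec8_e1, vec8_e2, vec8_e3, vec8_e4, vec8_f1, vec8_f2, vec8_f3, vec8_f4]; apply vec8_congr <;> ring
  · rw [X7, X7, X7]; simp only [vec8_e1, vec8_e2, vec8_e3, vec8_e4, vec8_f1, vec8_f2, vec8_f3, vec8_f4]; apply vec8_congr <;> ring
  · rw [X8, X8, X8]; simp only [vec8_e1, vec8_e2, vec8_e3, vec8_e4, vec8_f1, vec8_f2, vec8_f3, vec8_f4]; apply vec8_congr <;> ring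
  · rw [X9, X9, X9]; simp only [vec8_e1, vec8_e2, vec8_e3, vec8_e4, vec8_f1, vec8_f2, vec8_f3, vec8_f4]; apply vec8_congr <;> ring
  · rw [X10, X10, X10]; simp only [vec8_e1, vec8_e2, vec8_e3, vec8_e4, vec8_f1, vec8_f2, vec8_f3, vec8_f4]; apply vec8_congr <;> ring
  · rw [X11, X11, X11]; simp only [vec8_e1, vec8_e2, vec8_e3, vec8_e4, vec8_f1, vec8_f2, vec8_f3, vec8_f4]; apply vec8_congr <;> ring
  · rw [X12, X12, X12]; simp only [vec8_e1, vec8_e2, vec8_e3, vec8_e4, vec8_f1, vec8_f2, vec8_f3, vec8_f4]; apply vec8_congr <;> ring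
  · rw [X13, X13, X13]; simp only [vec8_e1, vec8_e2, vec8_e3, vec8_e4, vec8_f1, vec8_f2, vec8_f3, vec8_f4]; apply vec8_congr <;> ring
  · rw [X14, X14, X14]; simp only [vec8_e1, vec8_e2, vec8_e3, vec8_e4, vec8_f1, vec8_f2, vec8_f3, vec8_f4]; apply vec8_congr <;> ring
  · rw [X15, X15, X15]; simp only [vec8_e1, vec8_e2, vec8_e3, vec8_e4, vec8_f1, vec8_f2, vec8_f3, vec8_f4]; apply vec8_congr <;> ring
  · rw [X16, X16, X16]; simp only [vec8_e1, vec8_e2, vec8_e3, vec8_e4, vec8_f1, vec8_f2, vec8_f3, vec8_f4]; apply vec8_congr <;> ring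
  · rw [X17, X17, X17]; simp only [vec8_e1, vec8_e2, vec8_e3, vec8_e4, vec8_f1, vec8_f2, vec8_f3, vec8_f4]; apply vec8_congr <;> ring
  · rw [X18, X18, X18]; simp only [vec8_e1, vec8_e2, vec8_e3, vec8_e4, vec8_f1, vec8_f2, vec8_f3, vec8_f4]; apply vec8_congr <;> ring
  · rw [X19, X19, X19]; simp only [vec8_e1, vec8_e2, vec8_e3, vec8_e4, vec8_f1, vec8_f2, vec8_f3, vec8_f4]; apply vec8_congr <;> ring
  · rw [X20, X20, X20]; simp only [vec8_e1, vec8_e2, vec8_e3, vec8_e4, vec8_f1, vec8_f2, vec8_f3, vec8_f4]; apply vec8_congr <;> ring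
  · rw [X21, X21, X21]; simp only [vec8_e1, vec8_e2, vec8_e3, vec8_e4, vec8_f1, vec8_f2, vec8_f3, vec8_f4]; apply vec8_congr <;> ring
  · rw [X22, X22, X22]; simp only [vec8_e1, vec8_e2, vec8_e3, vec8_e4, vec8_f1, vec8_f2, vec8_f3, vec8_f4]; apply vec8_congr <;> ring
  · rw [X23, X23, X23]; simp only [vec8_e1, vec8_e2, vec8_e3, vec8_e4, vec8_f1, vec8_f2, vec8_f3, vec8_f4]; apply vec8_congr <;> ring

lemma X_zero (n : ℕ) : X F n 0 = 1 := by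
  simp [X]

lemma X_mul_neg (n : ℕ) (hn : n < 24) (t : F) : X F n t * X F n (-t) = 1 := by
  rw [X_add n hn, add_neg_cancel, X_zero]

lemma X_neg_mul (n : ℕ) (hn : n < 24) (t : F) : X F n (-t) * X F n t = 1 := by
  rw [X_add n hn, neg_add_cancel, X_zero]

/-- the monoid generated by the root elements. -/
def E (F : Type*) [Field F] : Submonoid (Matrix I8 I8 F) :=
  Submonoid.closure {x | ∃ n, n < 24 ∧ ∃ t : F, x = X F n t}

lemma X_mem (n : ℕ) (hn : n < 24) (t : F) : X F n t ∈ E F :=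
  Submonoid.subset_closure ⟨n, hn, t, rfl⟩

lemma isQ_of_mem {x : Matrix I8 I8 F} (hx : x ∈ E F) : IsQ x := by
  induction hx using Submonoid.closure_induction with
  | mem x hx =>
    obtain ⟨n, hn, t, rfl⟩ := hx
    exact isQ_X n hn t
  | one => exact isQ_one
  | mul x y _ _ hx hy => exact hx.mul hy

/-- the swap of `e4` and `f4`. -/
def SW (F : Type*) [Field F] : Matrix I8 I8 F :=
  1 + spMat F [(e4, e4, -1), (f4, f4, -1), (e4, f4, 1), (f4, e4, 1)]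

lemma SW_mulVec (v : I8 → F) :
    SW F *ᵥ v = vec8 (v e1) (v e2) (v e3) (v f4) (v f1) (v f2) (v f3) (v e4) := by
  funext i
  simp only [SW, Matrix.add_mulVec, Matrix.one_mulVec, Pi.add_apply, spMat_mulVec]
  revert i
  rw [I8_forall]
  refine ⟨?_, ?_, ?_, ?_, ?_, ?_, ?_, ?_⟩ <;> simp

lemma isQ_SW : IsQ (SW F) := by
  intro v
  rw [SW_mulVec, Q_eq, Q_eq]
  simp only [vec8_e1, vec8_e2, vec8_e3, vec8_e4, vec8_f1, vec8_f2, vec8_f3, vec8_f4]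
  ring

lemma SW_mul_SW : SW F * SW F = 1 := by
  apply mat_ext_mulVec
  intro v
  rw [← Matrix.mulVec_mulVec, SW_mulVec, SW_mulVec, Matrix.one_mulVec]
  simp only [vec8_e1, vec8_e2, vec8_e3, vec8_e4, vec8_f1, vec8_f2, vec8_f3, vec8_f4]
  exact (vec8_eta v).symm

/-! ### elimination on vectors -/

lemma V1b_1 (u : I8 → F) (hu : u ≠ 0)  :
    ∃ x ∈ E F, (x *ᵥ u) e1 ≠ 0 := by
  by_cases h0 : u e1 = 0
  swap
  · exact ⟨1, (E F).one_mem, by rwa [Matrix.one_mulVec]⟩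
  by_cases he2 : u e2 = 0
  swap
  · refine ⟨X F 18 1, X_mem 18 (by norm_num) _, ?_⟩
    · rw [X18]
      simp [h0, he2]
  by_cases he3 : u e3 = 0
  swap
  · refine ⟨X F 19 1, X_mem 19 (by norm_num) _, ?_⟩
    · rw [X19]
      simp [h0, he2, he3]
  by_cases he4 : u e4 = 0
  swap
  · refine ⟨X F 21 1, X_mem 21 (by norm_num) _, ?_⟩
    · rw [X21]
      simp [h0, he2, he3, he4]
  by_cases hf2 : u f2 = 0
  swap
  · refine ⟨X F 23 1, X_mem 23 (by norm_num) _, ?_⟩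
    · rw [X23]
      simp [h0, he2, he3, he4, hf2]
  by_cases hf3 : u f3 = 0
  swap
  · refine ⟨X F 22 1, X_mem 22 (by norm_num) _, ?_⟩
    · rw [X22]
      simp [h0, he2, he3, he4, hf2, hf3]
  by_cases hf4 : u f4 = 0
  swap
  · refine ⟨X F 20 1, X_mem 20 (by norm_num) _, ?_⟩
    · rw [X20]
      simp [h0, he2, he3, he4, hf2, hf3, hf4]
  have hfk : u f1 ≠ 0 := by
    intro h
    apply hu
    rw [vec8_eta u, h0, he2, he3, he4, hf2, hf3, hf4, h]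
    exact vec8_zero
  refine ⟨X F 23 1 * X F 18 1, (E F).mul_mem (X_mem 23 (by norm_num) _) (X_mem 18 (by norm_num) _), ?_⟩
  · rw [← Matrix.mulVec_mulVec, X18, X23]
    simp [h0, he2, he3, he4, hf2, hf3, hf4, hfk]

lemma V1a_1 (u : I8 → F) (hQ : quadFormPlus 4 F u = 0)  (h : u e1 ≠ 0) :
    ∃ x ∈ E F, x *ᵥ u = vec8 (u e1) 0 0 0 0 0 0 0 := by
  have hx : X F 3 (u f4 / u e1) * X F 2 (u e4 / u e1) * X F 1 (u f3 / u e1) * X F 4 (-(u e3 / u e1)) * X F 0 (u f2 / u e1) * X F 5 (u e2 / u e1) ∈ E F :=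
    (E F).mul_mem ((E F).mul_mem ((E F).mul_mem ((E F).mul_mem ((E F).mul_mem (X_mem 3 (by norm_num) _) (X_mem 2 (by norm_num) _)) (X_mem 1 (by norm_num) _)) (X_mem 4 (by norm_num) _)) (X_mem 0 (by norm_num) _)) (X_mem 5 (by norm_num) _)
  have key : ∃ m : F, (X F 3 (u f4 / u e1) * X F 2 (u e4 / u e1) * X F 1 (u f3 / u e1) * X F 4 (-(u e3 / u e1)) * X F 0 (u f2 / u e1) * X F 5 (u e2 / u e1)) *ᵥ u = vec8 (u e1) 0 0 0 m 0 0 0 := by
    refine ⟨?_, ?_⟩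
    rotate_left
    simp only [← Matrix.mulVec_mulVec]
    rw [X5, X0, X4, X1, X2, X3]
    simp only [vec8_e1, vec8_e2, vec8_e3, vec8_e4, vec8_f1, vec8_f2, vec8_f3, vec8_f4]
    apply vec8_congr
    all_goals first | rfl | (field_simp; ring) | field_simp | ring
  obtain ⟨m, hm⟩ := key
  have hq := isQ_of_mem hx u
  rw [hm, hQ, Q_eq] at hq
  simp only [vec8_e1, vec8_e2, vec8_e3, vec8_e4, vec8_f1, vec8_f2, vec8_f3, vec8_f4] at hq
  have hm0 : m = 0 := by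
    have h2 : u e1 * m = 0 := by linear_combination hq
    exact (mul_eq_zero.mp h2).resolve_left h
  refine ⟨_, hx, ?_⟩
  · rw [hm, hm0]

lemma V1_1 (u : I8 → F) (hQ : quadFormPlus 4 F u = 0) (hu : u ≠ 0)  :
    ∃ x ∈ E F, ∃ c : F, c ≠ 0 ∧ x *ᵥ u = vec8 c 0 0 0 0 0 0 0 := by
  obtain ⟨x, hx, hx1⟩ := V1b_1 u hu 
  obtain ⟨y, hy, hy1⟩ := V1a_1 (x *ᵥ u) (by rw [isQ_of_mem hx, hQ])  hx1
  exact ⟨y * x, (E F).mul_mem hy hx, _, hx1, by rw [← Matrix.mulVec_mulVec, hy1]⟩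

lemma V2_1 (w : I8 → F) (hQ : quadFormPlus 4 F w = 0)  (h : w f1 ≠ 0) :
    ∃ x ∈ E F, (∀ c : F, x *ᵥ vec8 c 0 0 0 0 0 0 0 = vec8 c 0 0 0 0 0 0 0) ∧
      x *ᵥ w = vec8 0 0 0 0 (w f1) 0 0 0 := by
  have hx : X F 20 (-(w e4 / w f1)) * X F 21 (-(w f4 / w f1)) * X F 22 (-(w e3 / w f1)) * X F 19 (w f3 / w f1) * X F 23 (-(w e2 / w f1)) * X F 18 (-(w f2 / w f1)) ∈ E F :=
    (E F).mul_mem ((E F).mul_mem ((E F).mul_mem ((E F).mul_mem ((E F).mul_mem (X_mem 20 (by norm_num) _) (X_mem 21 (by norm_num) _)) (X_mem 22 (by norm_num) _)) (X_mem 19 (by norm_num) _)) (X_mem 23 (by norm_num) _)) (X_mem 18 (by norm_num) _)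
  have key : ∃ m : F, (X F 20 (-(w e4 / w f1)) * X F 21 (-(w f4 / w f1)) * X F 22 (-(w e3 / w f1)) * X F 19 (w f3 / w f1) * X F 23 (-(w e2 / w f1)) * X F 18 (-(w f2 / w f1))) *ᵥ w = vec8 m 0 0 0 (w f1) 0 0 0 := by
    refine ⟨?_, ?_⟩
    rotate_left
    simp only [← Matrix.mulVec_mulVec]
    rw [X18, X23, X19, X22, X21, X20]
    simp only [vec8_e1, vec8_e2, vec8_e3, vec8_e4, vec8_f1, vec8_f2, vec8_f3, vec8_f4]
    apply vec8_congr
    all_goals first | rfl | (field_simp; ring) | field_simp | ring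
  obtain ⟨m, hm⟩ := key
  have hq := isQ_of_mem hx w
  rw [hm, hQ, Q_eq] at hq
  simp only [vec8_e1, vec8_e2, vec8_e3, vec8_e4, vec8_f1, vec8_f2, vec8_f3, vec8_f4] at hq
  have hm0 : m = 0 := by
    have h2 : w f1 * m = 0 := by linear_combination hq
    exact (mul_eq_zero.mp h2).resolve_left h
  refine ⟨_, hx, ?_, ?_⟩
  · intro c
    simp only [← Matrix.mulVec_mulVec]
    rw [X18, X23, X19, X22, X21, X20]
    simp
  · rw [hm, hm0]

lemma V1b_2 (u : I8 → F) (hu : u ≠ 0) (hz0 : u e1 = 0) (hz4 : u f1 = 0) :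
    ∃ x ∈ E F, (∀ c : F, x *ᵥ vec8 c 0 0 0 0 0 0 0 = vec8 c 0 0 0 0 0 0 0) ∧
      (∀ c : F, x *ᵥ vec8 0 0 0 0 c 0 0 0 = vec8 0 0 0 0 c 0 0 0) ∧
      (x *ᵥ u) e2 ≠ 0 ∧ (x *ᵥ u) e1 = 0 ∧ (x *ᵥ u) f1 = 0 := by
  by_cases h0 : u e2 = 0
  swap
  · exact ⟨1, (E F).one_mem, fun c => Matrix.one_mulVec _, fun c => Matrix.one_mulVec _, by rwa [Matrix.one_mulVec], by rw [Matrix.one_mulVec]; exact hz0, by rw [Matrix.one_mulVec]; exact hz4⟩
  by_cases he3 : u e3 = 0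
  swap
  · refine ⟨X F 14 1, X_mem 14 (by norm_num) _, ?_, ?_, ?_, ?_, ?_⟩
    · intro c
      rw [X14]
      simp
    · intro c
      rw [X14]
      simp
    · rw [X14]
      simp [h0, he3]
    · rw [X14]
      simp [hz0]
    · rw [X14]
      simp [hz4]
  by_cases he4 : u e4 = 0
  swap
  · refine ⟨X F 16 1, X_mem 16 (by norm_num) _, ?_, ?_, ?_, ?_, ?_⟩
    · intro c
      rw [X16]
      simp
    · intro c
      rw [X16]
      simp
    · rw [X16]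
      simp [h0, he3, he4]
    · rw [X16]
      simp [hz0]
    · rw [X16]
      simp [hz4]
  by_cases hf3 : u f3 = 0
  swap
  · refine ⟨X F 17 1, X_mem 17 (by norm_num) _, ?_, ?_, ?_, ?_, ?_⟩
    · intro c
      rw [X17]
      simp
    · intro c
      rw [X17]
      simp
    · rw [X17]
      simp [h0, he3, he4, hf3]
    · rw [X17]
      simp [hz0]
    · rw [X17]
      simp [hz4]
  by_cases hf4 : u f4 = 0
  swap
  · refine ⟨X F 15 1, X_mem 15 (by norm_num) _, ?_, ?_, ?_, ?_, ?_⟩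
    · intro c
      rw [X15]
      simp
    · intro c
      rw [X15]
      simp
    · rw [X15]
      simp [h0, he3, he4, hf3, hf4]
    · rw [X15]
      simp [hz0]
    · rw [X15]
      simp [hz4]
  have hfk : u f2 ≠ 0 := by
    intro h
    apply hu
    rw [vec8_eta u, hz0, h0, he3, he4, hz4, hf3, hf4, h]
    exact vec8_zero
  refine ⟨X F 17 1 * X F 14 1, (E F).mul_mem (X_mem 17 (by norm_num) _) (X_mem 14 (by norm_num) _), ?_, ?_, ?_, ?_, ?_⟩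
  · intro c
    rw [← Matrix.mulVec_mulVec, X14, X17]
    simp
  · intro c
    rw [← Matrix.mulVec_mulVec, X14, X17]
    simp
  · rw [← Matrix.mulVec_mulVec, X14, X17]
    simp [hz0, hz4, h0, he3, he4, hf3, hf4, hfk]
  · rw [← Matrix.mulVec_mulVec, X14, X17]
    simp [hz0]
  · rw [← Matrix.mulVec_mulVec, X14, X17]
    simp [hz4]

lemma V1a_2 (u : I8 → F) (hQ : quadFormPlus 4 F u = 0) (hz0 : u e1 = 0) (hz4 : u f1 = 0) (h : u e2 ≠ 0) :
    ∃ x ∈ E F, (∀ c : F, x *ᵥ vec8 c 0 0 0 0 0 0 0 = vec8 c 0 0 0 0 0 0 0) ∧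
      (∀ c : F, x *ᵥ vec8 0 0 0 0 c 0 0 0 = vec8 0 0 0 0 c 0 0 0) ∧
      x *ᵥ u = vec8 0 (u e2) 0 0 0 0 0 0 := by
  have hx : X F 8 (u f4 / u e2) * X F 7 (u e4 / u e2) * X F 6 (u f3 / u e2) * X F 9 (-(u e3 / u e2)) ∈ E F :=
    (E F).mul_mem ((E F).mul_mem ((E F).mul_mem (X_mem 8 (by norm_num) _) (X_mem 7 (by norm_num) _)) (X_mem 6 (by norm_num) _)) (X_mem 9 (by norm_num) _)
  have key : ∃ m : F, (X F 8 (u f4 / u e2) * X F 7 (u e4 / u e2) * X F 6 (u f3 / u e2) * X F 9 (-(u e3 / u e2))) *ᵥ u = vec8 0 (u e2) 0 0 0 m 0 0 := by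
    refine ⟨?_, ?_⟩
    rotate_left
    simp only [← Matrix.mulVec_mulVec]
    rw [X9, X6, X7, X8]
    simp only [vec8_e1, vec8_e2, vec8_e3, vec8_e4, vec8_f1, vec8_f2, vec8_f3, vec8_f4, hz0, hz4]
    apply vec8_congr
    all_goals first | rfl | (field_simp; ring) | field_simp | ring
  obtain ⟨m, hm⟩ := key
  have hq := isQ_of_mem hx u
  rw [hm, hQ, Q_eq] at hq
  simp only [vec8_e1, vec8_e2, vec8_e3, vec8_e4, vec8_f1, vec8_f2, vec8_f3, vec8_f4] at hq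
  have hm0 : m = 0 := by
    have h2 : u e2 * m = 0 := by linear_combination hq
    exact (mul_eq_zero.mp h2).resolve_left h
  refine ⟨_, hx, ?_, ?_, ?_⟩
  · intro c
    simp only [← Matrix.mulVec_mulVec]
    rw [X9, X6, X7, X8]
    simp
  · intro c
    simp only [← Matrix.mulVec_mulVec]
    rw [X9, X6, X7, X8]
    simp
  · rw [hm, hm0]

lemma V1_2 (u : I8 → F) (hQ : quadFormPlus 4 F u = 0) (hu : u ≠ 0) (hz0 : u e1 = 0) (hz4 : u f1 = 0) :
    ∃ x ∈ E F, (∀ c : F, x *ᵥ vec8 c 0 0 0 0 0 0 0 = vec8 c 0 0 0 0 0 0 0) ∧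
      (∀ c : F, x *ᵥ vec8 0 0 0 0 c 0 0 0 = vec8 0 0 0 0 c 0 0 0) ∧
      ∃ c : F, c ≠ 0 ∧ x *ᵥ u = vec8 0 c 0 0 0 0 0 0 := by
  obtain ⟨x, hx, fx0, fx4, hx1, hzx0, hzx4⟩ := V1b_2 u hu hz0 hz4
  obtain ⟨y, hy, fy0, fy4, hy1⟩ := V1a_2 (x *ᵥ u) (by rw [isQ_of_mem hx, hQ]) hzx0 hzx4 hx1
  exact ⟨y * x, (E F).mul_mem hy hx, fun c => by rw [← Matrix.mulVec_mulVec, fx0, fy0], fun c => by rw [← Matrix.mulVec_mulVec, fx4, fy4], _, hx1, by rw [← Matrix.mulVec_mulVec, hy1]⟩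

lemma V2_2 (w : I8 → F) (hQ : quadFormPlus 4 F w = 0) (hz0 : w e1 = 0) (hz4 : w f1 = 0) (h : w f2 ≠ 0) :
    ∃ x ∈ E F, (∀ c : F, x *ᵥ vec8 c 0 0 0 0 0 0 0 = vec8 c 0 0 0 0 0 0 0) ∧
      (∀ c : F, x *ᵥ vec8 0 0 0 0 c 0 0 0 = vec8 0 0 0 0 c 0 0 0) ∧
      (∀ c : F, x *ᵥ vec8 0 c 0 0 0 0 0 0 = vec8 0 c 0 0 0 0 0 0) ∧
      x *ᵥ w = vec8 0 0 0 0 0 (w f2) 0 0 := by
  have hx : X F 15 (-(w e4 / w f2)) * X F 16 (-(w f4 / w f2)) * X F 17 (-(w e3 / w f2)) * X F 14 (w f3 / w f2) ∈ E F :=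
    (E F).mul_mem ((E F).mul_mem ((E F).mul_mem (X_mem 15 (by norm_num) _) (X_mem 16 (by norm_num) _)) (X_mem 17 (by norm_num) _)) (X_mem 14 (by norm_num) _)
  have key : ∃ m : F, (X F 15 (-(w e4 / w f2)) * X F 16 (-(w f4 / w f2)) * X F 17 (-(w e3 / w f2)) * X F 14 (w f3 / w f2)) *ᵥ w = vec8 0 m 0 0 0 (w f2) 0 0 := by
    refine ⟨?_, ?_⟩
    rotate_left
    simp only [← Matrix.mulVec_mulVec]
    rw [X14, X17, X16, X15]
    simp only [vec8_e1, vec8_e2, vec8_e3, vec8_e4, vec8_f1, vec8_f2, vec8_f3, vec8_f4, hz0, hz4]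
    apply vec8_congr
    all_goals first | rfl | (field_simp; ring) | field_simp | ring
  obtain ⟨m, hm⟩ := key
  have hq := isQ_of_mem hx w
  rw [hm, hQ, Q_eq] at hq
  simp only [vec8_e1, vec8_e2, vec8_e3, vec8_e4, vec8_f1, vec8_f2, vec8_f3, vec8_f4] at hq
  have hm0 : m = 0 := by
    have h2 : w f2 * m = 0 := by linear_combination hq
    exact (mul_eq_zero.mp h2).resolve_left h
  refine ⟨_, hx, ?_, ?_, ?_, ?_⟩
  · intro c
    simp only [← Matrix.mulVec_mulVec]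
    rw [X14, X17, X16, X15]
    simp
  · intro c
    simp only [← Matrix.mulVec_mulVec]
    rw [X14, X17, X16, X15]
    simp
  · intro c
    simp only [← Matrix.mulVec_mulVec]
    rw [X14, X17, X16, X15]
    simp
  · rw [hm, hm0]

lemma V1b_3 (u : I8 → F) (hu : u ≠ 0) (hz0 : u e1 = 0) (hz4 : u f1 = 0) (hz1 : u e2 = 0) (hz5 : u f2 = 0) :
    ∃ x ∈ E F, (∀ c : F, x *ᵥ vec8 c 0 0 0 0 0 0 0 = vec8 c 0 0 0 0 0 0 0) ∧
      (∀ c : F, x *ᵥ vec8 0 0 0 0 c 0 0 0 = vec8 0 0 0 0 c 0 0 0) ∧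
      (∀ c : F, x *ᵥ vec8 0 c 0 0 0 0 0 0 = vec8 0 c 0 0 0 0 0 0) ∧
      (∀ c : F, x *ᵥ vec8 0 0 0 0 0 c 0 0 = vec8 0 0 0 0 0 c 0 0) ∧
      (x *ᵥ u) e3 ≠ 0 ∧ (x *ᵥ u) e1 = 0 ∧ (x *ᵥ u) f1 = 0 ∧ (x *ᵥ u) e2 = 0 ∧ (x *ᵥ u) f2 = 0 := by
  by_cases h0 : u e3 = 0
  swap
  · exact ⟨1, (E F).one_mem, fun c => Matrix.one_mulVec _, fun c => Matrix.one_mulVec _, fun c => Matrix.one_mulVec _, fun c => Matrix.one_mulVec _, by rwa [Matrix.one_mulVec], by rw [Matrix.one_mulVec]; exact hz0, by rw [Matrix.one_mulVec]; exact hz4, by rw [Matrix.one_mulVec]; exact hz1, by rw [Matrix.one_mulVec]; exact hz5⟩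
  by_cases he4 : u e4 = 0
  swap
  · refine ⟨X F 13 1, X_mem 13 (by norm_num) _, ?_, ?_, ?_, ?_, ?_, ?_, ?_, ?_, ?_⟩
    · intro c
      rw [X13]
      simp
    · intro c
      rw [X13]
      simp
    · intro c
      rw [X13]
      simp
    · intro c
      rw [X13]
      simp
    · rw [X13]
      simp [h0, he4]
    · rw [X13]
      simp [hz0]
    · rw [X13]
      simp [hz4]
    · rw [X13]
      simp [hz1]
    · rw [X13]
      simp [hz5]
  by_cases hf4 : u f4 = 0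
  swap
  · refine ⟨X F 12 1, X_mem 12 (by norm_num) _, ?_, ?_, ?_, ?_, ?_, ?_, ?_, ?_, ?_⟩
    · intro c
      rw [X12]
      simp
    · intro c
      rw [X12]
      simp
    · intro c
      rw [X12]
      simp
    · intro c
      rw [X12]
      simp
    · rw [X12]
      simp [h0, he4, hf4]
    · rw [X12]
      simp [hz0]
    · rw [X12]
      simp [hz4]
    · rw [X12]
      simp [hz1]
    · rw [X12]
      simp [hz5]
  have hfk : u f3 ≠ 0 := by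
    intro h
    apply hu
    rw [vec8_eta u, hz0, hz1, h0, he4, hz4, hz5, hf4, h]
    exact vec8_zero
  refine ⟨X F 12 1 * X F 13 1, (E F).mul_mem (X_mem 12 (by norm_num) _) (X_mem 13 (by norm_num) _), ?_, ?_, ?_, ?_, ?_, ?_, ?_, ?_, ?_⟩
  · intro c
    rw [← Matrix.mulVec_mulVec, X13, X12]
    simp
  · intro c
    rw [← Matrix.mulVec_mulVec, X13, X12]
    simp
  · intro c
    rw [← Matrix.mulVec_mulVec, X13, X12]
    simp
  · intro c
    rw [← Matrix.mulVec_mulVec, X13, X12]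
    simp
  · rw [← Matrix.mulVec_mulVec, X13, X12]
    simp [hz0, hz4, hz1, hz5, h0, he4, hf4, hfk]
  · rw [← Matrix.mulVec_mulVec, X13, X12]
    simp [hz0]
  · rw [← Matrix.mulVec_mulVec, X13, X12]
    simp [hz4]
  · rw [← Matrix.mulVec_mulVec, X13, X12]
    simp [hz1]
  · rw [← Matrix.mulVec_mulVec, X13, X12]
    simp [hz5]

lemma V1a_3 (u : I8 → F) (hQ : quadFormPlus 4 F u = 0) (hz0 : u e1 = 0) (hz4 : u f1 = 0) (hz1 : u e2 = 0) (hz5 : u f2 = 0) (h : u e3 ≠ 0) :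
    ∃ x ∈ E F, (∀ c : F, x *ᵥ vec8 c 0 0 0 0 0 0 0 = vec8 c 0 0 0 0 0 0 0) ∧
      (∀ c : F, x *ᵥ vec8 0 0 0 0 c 0 0 0 = vec8 0 0 0 0 c 0 0 0) ∧
      (∀ c : F, x *ᵥ vec8 0 c 0 0 0 0 0 0 = vec8 0 c 0 0 0 0 0 0) ∧
      (∀ c : F, x *ᵥ vec8 0 0 0 0 0 c 0 0 = vec8 0 0 0 0 0 c 0 0) ∧
      x *ᵥ u = vec8 0 0 (u e3) 0 0 0 0 0 := by
  have hx : X F 11 (-(u f4 / u e3)) * X F 10 (-(u e4 / u e3)) ∈ E F :=
    (E F).mul_mem (X_mem 11 (by norm_num) _) (X_mem 10 (by norm_num) _)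
  have key : ∃ m : F, (X F 11 (-(u f4 / u e3)) * X F 10 (-(u e4 / u e3))) *ᵥ u = vec8 0 0 (u e3) 0 0 0 m 0 := by
    refine ⟨?_, ?_⟩
    rotate_left
    simp only [← Matrix.mulVec_mulVec]
    rw [X10, X11]
    simp only [vec8_e1, vec8_e2, vec8_e3, vec8_e4, vec8_f1, vec8_f2, vec8_f3, vec8_f4, hz0, hz4, hz1, hz5]
    apply vec8_congr
    all_goals first | rfl | (field_simp; ring) | field_simp | ring
  obtain ⟨m, hm⟩ := key
  have hq := isQ_of_mem hx u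
  rw [hm, hQ, Q_eq] at hq
  simp only [vec8_e1, vec8_e2, vec8_e3, vec8_e4, vec8_f1, vec8_f2, vec8_f3, vec8_f4] at hq
  have hm0 : m = 0 := by
    have h2 : u e3 * m = 0 := by linear_combination hq
    exact (mul_eq_zero.mp h2).resolve_left h
  refine ⟨_, hx, ?_, ?_, ?_, ?_, ?_⟩
  · intro c
    simp only [← Matrix.mulVec_mulVec]
    rw [X10, X11]
    simp
  · intro c
    simp only [← Matrix.mulVec_mulVec]
    rw [X10, X11]
    simp
  · intro c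
    simp only [← Matrix.mulVec_mulVec]
    rw [X10, X11]
    simp
  · intro c
    simp only [← Matrix.mulVec_mulVec]
    rw [X10, X11]
    simp
  · rw [hm, hm0]

lemma V1_3 (u : I8 → F) (hQ : quadFormPlus 4 F u = 0) (hu : u ≠ 0) (hz0 : u e1 = 0) (hz4 : u f1 = 0) (hz1 : u e2 = 0) (hz5 : u f2 = 0) :
    ∃ x ∈ E F, (∀ c : F, x *ᵥ vec8 c 0 0 0 0 0 0 0 = vec8 c 0 0 0 0 0 0 0) ∧
      (∀ c : F, x *ᵥ vec8 0 0 0 0 c 0 0 0 = vec8 0 0 0 0 c 0 0 0) ∧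
      (∀ c : F, x *ᵥ vec8 0 c 0 0 0 0 0 0 = vec8 0 c 0 0 0 0 0 0) ∧
      (∀ c : F, x *ᵥ vec8 0 0 0 0 0 c 0 0 = vec8 0 0 0 0 0 c 0 0) ∧
      ∃ c : F, c ≠ 0 ∧ x *ᵥ u = vec8 0 0 c 0 0 0 0 0 := by
  obtain ⟨x, hx, fx0, fx4, fx1, fx5, hx1, hzx0, hzx4, hzx1, hzx5⟩ := V1b_3 u hu hz0 hz4 hz1 hz5
  obtain ⟨y, hy, fy0, fy4, fy1, fy5, hy1⟩ := V1a_3 (x *ᵥ u) (by rw [isQ_of_mem hx, hQ]) hzx0 hzx4 hzx1 hzx5 hx1
  exact ⟨y * x, (E F).mul_mem hy hx, fun c => by rw [← Matrix.mulVec_mulVec, fx0, fy0], fun c => by rw [← Matrix.mulVec_mulVec, fx4, fy4], fun c => by rw [← Matrix.mulVec_mulVec, fx1, fy1], fun c => by rw [← Matrix.mulVec_mulVec, fx5, fy5], _, hx1, by rw [← Matrix.mulVec_mulVec, hy1]⟩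

lemma V2_3 (w : I8 → F) (hQ : quadFormPlus 4 F w = 0) (hz0 : w e1 = 0) (hz4 : w f1 = 0) (hz1 : w e2 = 0) (hz5 : w f2 = 0) (h : w f3 ≠ 0) :
    ∃ x ∈ E F, (∀ c : F, x *ᵥ vec8 c 0 0 0 0 0 0 0 = vec8 c 0 0 0 0 0 0 0) ∧
      (∀ c : F, x *ᵥ vec8 0 0 0 0 c 0 0 0 = vec8 0 0 0 0 c 0 0 0) ∧
      (∀ c : F, x *ᵥ vec8 0 c 0 0 0 0 0 0 = vec8 0 c 0 0 0 0 0 0) ∧
      (∀ c : F, x *ᵥ vec8 0 0 0 0 0 c 0 0 = vec8 0 0 0 0 0 c 0 0) ∧
      (∀ c : F, x *ᵥ vec8 0 0 c 0 0 0 0 0 = vec8 0 0 c 0 0 0 0 0) ∧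
      x *ᵥ w = vec8 0 0 0 0 0 0 (w f3) 0 := by
  have hx : X F 12 (w e4 / w f3) * X F 13 (w f4 / w f3) ∈ E F :=
    (E F).mul_mem (X_mem 12 (by norm_num) _) (X_mem 13 (by norm_num) _)
  have key : ∃ m : F, (X F 12 (w e4 / w f3) * X F 13 (w f4 / w f3)) *ᵥ w = vec8 0 0 m 0 0 0 (w f3) 0 := by
    refine ⟨?_, ?_⟩
    rotate_left
    simp only [← Matrix.mulVec_mulVec]
    rw [X13, X12]
    simp only [vec8_e1, vec8_e2, vec8_e3, vec8_e4, vec8_f1, vec8_f2, vec8_f3, vec8_f4, hz0, hz4, hz1, hz5]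
    apply vec8_congr
    all_goals first | rfl | (field_simp; ring) | field_simp | ring
  obtain ⟨m, hm⟩ := key
  have hq := isQ_of_mem hx w
  rw [hm, hQ, Q_eq] at hq
  simp only [vec8_e1, vec8_e2, vec8_e3, vec8_e4, vec8_f1, vec8_f2, vec8_f3, vec8_f4] at hq
  have hm0 : m = 0 := by
    have h2 : w f3 * m = 0 := by linear_combination hq
    exact (mul_eq_zero.mp h2).resolve_left h
  refine ⟨_, hx, ?_, ?_, ?_, ?_, ?_, ?_⟩
  · intro c
    simp only [← Matrix.mulVec_mulVec]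
    rw [X13, X12]
    simp
  · intro c
    simp only [← Matrix.mulVec_mulVec]
    rw [X13, X12]
    simp
  · intro c
    simp only [← Matrix.mulVec_mulVec]
    rw [X13, X12]
    simp
  · intro c
    simp only [← Matrix.mulVec_mulVec]
    rw [X13, X12]
    simp
  · intro c
    simp only [← Matrix.mulVec_mulVec]
    rw [X13, X12]
    simp
  · rw [hm, hm0]

/-! ### elimination on matrices -/

/-- the polar form. -/
def Bf (u w : I8 → F) : F :=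
  u e1 * w f1 + u f1 * w e1 + (u e2 * w f2 + u f2 * w e2) + (u e3 * w f3 + u f3 * w e3)
    + (u e4 * w f4 + u f4 * w e4)

lemma IsQ.polar {g : Matrix I8 I8 F} (hg : IsQ g) (a b : I8 → F) :
    Bf (g *ᵥ a) (g *ᵥ b) = Bf a b := by
  have h1 := hg (a + b)
  have h2 := hg a
  have h3 := hg b
  rw [Matrix.mulVec_add, Q_eq, Q_eq] at h1
  rw [Q_eq, Q_eq] at h2 h3
  simp only [Pi.add_apply] at h1
  unfold Bf
  linear_combination h1 - h2 - h3

lemma col_eq (A : Matrix I8 I8 F) (i j : I8) : A i j = (A *ᵥ Pi.single j 1) i := by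
  simp [Matrix.mulVec, dotProduct, Pi.single_apply]

lemma mat_ext_cols {A B : Matrix I8 I8 F} (h : ∀ j, A *ᵥ Pi.single j 1 = B *ᵥ Pi.single j 1) :
    A = B := by
  ext i j
  rw [col_eq A i j, col_eq B i j, h j]

lemma single_e1 : (Pi.single e1 1 : I8 → F) = vec8 1 0 0 0 0 0 0 0 := by
  funext i; revert i; rw [I8_forall]; simp [Pi.single_apply]

lemma single_e2 : (Pi.single e2 1 : I8 → F) = vec8 0 1 0 0 0 0 0 0 := by
  funext i; revert i; rw [I8_forall]; simp [Pi.single_apply]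

lemma single_e3 : (Pi.single e3 1 : I8 → F) = vec8 0 0 1 0 0 0 0 0 := by
  funext i; revert i; rw [I8_forall]; simp [Pi.single_apply]

lemma single_e4 : (Pi.single e4 1 : I8 → F) = vec8 0 0 0 1 0 0 0 0 := by
  funext i; revert i; rw [I8_forall]; simp [Pi.single_apply]

lemma single_f1 : (Pi.single f1 1 : I8 → F) = vec8 0 0 0 0 1 0 0 0 := by
  funext i; revert i; rw [I8_forall]; simp [Pi.single_apply]

lemma single_f2 : (Pi.single f2 1 : I8 → F) = vec8 0 0 0 0 0 1 0 0 := by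
  funext i; revert i; rw [I8_forall]; simp [Pi.single_apply]

lemma single_f3 : (Pi.single f3 1 : I8 → F) = vec8 0 0 0 0 0 0 1 0 := by
  funext i; revert i; rw [I8_forall]; simp [Pi.single_apply]

lemma single_f4 : (Pi.single f4 1 : I8 → F) = vec8 0 0 0 0 0 0 0 1 := by
  funext i; revert i; rw [I8_forall]; simp [Pi.single_apply]

lemma stepE1 (g : Matrix I8 I8 F) (hg : IsQ g) :
    ∃ x ∈ E F, ∃ c : F, c ≠ 0 ∧ (x * g) *ᵥ (vec8 1 0 0 0 0 0 0 0) = vec8 c 0 0 0 0 0 0 0 := by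
  have hQ : quadFormPlus 4 F (g *ᵥ (vec8 1 0 0 0 0 0 0 0)) = 0 := by rw [hg, Q_eq]; simp
  have hu : g *ᵥ (vec8 1 0 0 0 0 0 0 0) ≠ 0 := by
    intro h0
    have h := hg.polar (vec8 1 0 0 0 0 0 0 0) (vec8 0 0 0 0 1 0 0 0)
    rw [h0] at h
    simp [Bf] at h
  obtain ⟨x, hx, c, hc, hxu⟩ := V1_1 _ hQ hu 
  exact ⟨x, hx, c, hc, by rw [← Matrix.mulVec_mulVec, hxu]⟩

lemma stepF1 (g : Matrix I8 I8 F) (hg : IsQ g) (c : F) (hc : c ≠ 0)
    (ak : g *ᵥ (vec8 1 0 0 0 0 0 0 0) = vec8 c 0 0 0 0 0 0 0) :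
    ∃ x ∈ E F, (x * g) *ᵥ (vec8 1 0 0 0 0 0 0 0) = vec8 c 0 0 0 0 0 0 0 ∧
      ∃ d : F, c * d = 1 ∧ (x * g) *ᵥ (vec8 0 0 0 0 1 0 0 0) = vec8 0 0 0 0 d 0 0 0 := by
  have hQ : quadFormPlus 4 F (g *ᵥ (vec8 0 0 0 0 1 0 0 0)) = 0 := by rw [hg, Q_eq]; simp
  have hcd : c * (g *ᵥ (vec8 0 0 0 0 1 0 0 0)) f1 = 1 := by
    have h := hg.polar (vec8 1 0 0 0 0 0 0 0) (vec8 0 0 0 0 1 0 0 0)
    rw [ak] at h
    simp only [Bf, vec8_e1, vec8_e2, vec8_e3, vec8_e4, vec8_f1, vec8_f2, vec8_f3, vec8_f4] at h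
    linear_combination h
  have hd : (g *ᵥ (vec8 0 0 0 0 1 0 0 0)) f1 ≠ 0 := by
    intro h0
    rw [h0, mul_zero] at hcd
    exact zero_ne_one hcd
  obtain ⟨x, hx, fxk, hxw⟩ := V2_1 _ hQ  hd
  exact ⟨x, hx, by rw [← Matrix.mulVec_mulVec, ak, fxk], _, hcd, by rw [← Matrix.mulVec_mulVec, hxw]⟩

lemma stepE2 (g : Matrix I8 I8 F) (hg : IsQ g) (c1 d1 : F) (hc1 : c1 ≠ 0) (hd1 : d1 ≠ 0)
    (a1 : g *ᵥ (vec8 1 0 0 0 0 0 0 0) = vec8 c1 0 0 0 0 0 0 0) (b1 : g *ᵥ (vec8 0 0 0 0 1 0 0 0) = vec8 0 0 0 0 d1 0 0 0) :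
    ∃ x ∈ E F, (x * g) *ᵥ (vec8 1 0 0 0 0 0 0 0) = vec8 c1 0 0 0 0 0 0 0 ∧
      (x * g) *ᵥ (vec8 0 0 0 0 1 0 0 0) = vec8 0 0 0 0 d1 0 0 0 ∧
      ∃ c : F, c ≠ 0 ∧ (x * g) *ᵥ (vec8 0 1 0 0 0 0 0 0) = vec8 0 c 0 0 0 0 0 0 := by
  have hQ : quadFormPlus 4 F (g *ᵥ (vec8 0 1 0 0 0 0 0 0)) = 0 := by rw [hg, Q_eq]; simp
  have hu : g *ᵥ (vec8 0 1 0 0 0 0 0 0) ≠ 0 := by
    intro h0
    have h := hg.polar (vec8 0 1 0 0 0 0 0 0) (vec8 0 0 0 0 0 1 0 0)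
    rw [h0] at h
    simp [Bf] at h
  have hz0 : (g *ᵥ (vec8 0 1 0 0 0 0 0 0)) e1 = 0 := by
    have h := hg.polar (vec8 0 0 0 0 1 0 0 0) (vec8 0 1 0 0 0 0 0 0)
    rw [b1] at h
    simp only [Bf, vec8_e1, vec8_e2, vec8_e3, vec8_e4, vec8_f1, vec8_f2, vec8_f3, vec8_f4] at h
    have h' : d1 * (g *ᵥ (vec8 0 1 0 0 0 0 0 0)) e1 = 0 := by linear_combination h
    exact (mul_eq_zero.mp h').resolve_left hd1
  have hz4 : (g *ᵥ (vec8 0 1 0 0 0 0 0 0)) f1 = 0 := by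
    have h := hg.polar (vec8 1 0 0 0 0 0 0 0) (vec8 0 1 0 0 0 0 0 0)
    rw [a1] at h
    simp only [Bf, vec8_e1, vec8_e2, vec8_e3, vec8_e4, vec8_f1, vec8_f2, vec8_f3, vec8_f4] at h
    have h' : c1 * (g *ᵥ (vec8 0 1 0 0 0 0 0 0)) f1 = 0 := by linear_combination h
    exact (mul_eq_zero.mp h').resolve_left hc1
  obtain ⟨x, hx, fx0, fx4, c, hc, hxu⟩ := V1_2 _ hQ hu hz0 hz4
  exact ⟨x, hx, by rw [← Matrix.mulVec_mulVec, a1, fx0], by rw [← Matrix.mulVec_mulVec, b1, fx4], c, hc, by rw [← Matrix.mulVec_mulVec, hxu]⟩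

lemma stepF2 (g : Matrix I8 I8 F) (hg : IsQ g) (c1 d1 : F) (hc1 : c1 ≠ 0) (hd1 : d1 ≠ 0)
    (a1 : g *ᵥ (vec8 1 0 0 0 0 0 0 0) = vec8 c1 0 0 0 0 0 0 0) (b1 : g *ᵥ (vec8 0 0 0 0 1 0 0 0) = vec8 0 0 0 0 d1 0 0 0) (c : F) (hc : c ≠ 0)
    (ak : g *ᵥ (vec8 0 1 0 0 0 0 0 0) = vec8 0 c 0 0 0 0 0 0) :
    ∃ x ∈ E F, (x * g) *ᵥ (vec8 1 0 0 0 0 0 0 0) = vec8 c1 0 0 0 0 0 0 0 ∧
      (x * g) *ᵥ (vec8 0 0 0 0 1 0 0 0) = vec8 0 0 0 0 d1 0 0 0 ∧
      (x * g) *ᵥ (vec8 0 1 0 0 0 0 0 0) = vec8 0 c 0 0 0 0 0 0 ∧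
      ∃ d : F, c * d = 1 ∧ (x * g) *ᵥ (vec8 0 0 0 0 0 1 0 0) = vec8 0 0 0 0 0 d 0 0 := by
  have hQ : quadFormPlus 4 F (g *ᵥ (vec8 0 0 0 0 0 1 0 0)) = 0 := by rw [hg, Q_eq]; simp
  have hcd : c * (g *ᵥ (vec8 0 0 0 0 0 1 0 0)) f2 = 1 := by
    have h := hg.polar (vec8 0 1 0 0 0 0 0 0) (vec8 0 0 0 0 0 1 0 0)
    rw [ak] at h
    simp only [Bf, vec8_e1, vec8_e2, vec8_e3, vec8_e4, vec8_f1, vec8_f2, vec8_f3, vec8_f4] at h
    linear_combination h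
  have hd : (g *ᵥ (vec8 0 0 0 0 0 1 0 0)) f2 ≠ 0 := by
    intro h0
    rw [h0, mul_zero] at hcd
    exact zero_ne_one hcd
  have hz0 : (g *ᵥ (vec8 0 0 0 0 0 1 0 0)) e1 = 0 := by
    have h := hg.polar (vec8 0 0 0 0 1 0 0 0) (vec8 0 0 0 0 0 1 0 0)
    rw [b1] at h
    simp only [Bf, vec8_e1, vec8_e2, vec8_e3, vec8_e4, vec8_f1, vec8_f2, vec8_f3, vec8_f4] at h
    have h' : d1 * (g *ᵥ (vec8 0 0 0 0 0 1 0 0)) e1 = 0 := by linear_combination h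
    exact (mul_eq_zero.mp h').resolve_left hd1
  have hz4 : (g *ᵥ (vec8 0 0 0 0 0 1 0 0)) f1 = 0 := by
    have h := hg.polar (vec8 1 0 0 0 0 0 0 0) (vec8 0 0 0 0 0 1 0 0)
    rw [a1] at h
    simp only [Bf, vec8_e1, vec8_e2, vec8_e3, vec8_e4, vec8_f1, vec8_f2, vec8_f3, vec8_f4] at h
    have h' : c1 * (g *ᵥ (vec8 0 0 0 0 0 1 0 0)) f1 = 0 := by linear_combination h
    exact (mul_eq_zero.mp h').resolve_left hc1
  obtain ⟨x, hx, fx0, fx4, fxk, hxw⟩ := V2_2 _ hQ hz0 hz4 hd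
  exact ⟨x, hx, by rw [← Matrix.mulVec_mulVec, a1, fx0], by rw [← Matrix.mulVec_mulVec, b1, fx4], by rw [← Matrix.mulVec_mulVec, ak, fxk], _, hcd, by rw [← Matrix.mulVec_mulVec, hxw]⟩

lemma stepE3 (g : Matrix I8 I8 F) (hg : IsQ g) (c1 d1 : F) (hc1 : c1 ≠ 0) (hd1 : d1 ≠ 0)
    (a1 : g *ᵥ (vec8 1 0 0 0 0 0 0 0) = vec8 c1 0 0 0 0 0 0 0) (b1 : g *ᵥ (vec8 0 0 0 0 1 0 0 0) = vec8 0 0 0 0 d1 0 0 0) (c2 d2 : F) (hc2 : c2 ≠ 0) (hd2 : d2 ≠ 0)
    (a2 : g *ᵥ (vec8 0 1 0 0 0 0 0 0) = vec8 0 c2 0 0 0 0 0 0) (b2 : g *ᵥ (vec8 0 0 0 0 0 1 0 0) = vec8 0 0 0 0 0 d2 0 0) :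
    ∃ x ∈ E F, (x * g) *ᵥ (vec8 1 0 0 0 0 0 0 0) = vec8 c1 0 0 0 0 0 0 0 ∧
      (x * g) *ᵥ (vec8 0 0 0 0 1 0 0 0) = vec8 0 0 0 0 d1 0 0 0 ∧
      (x * g) *ᵥ (vec8 0 1 0 0 0 0 0 0) = vec8 0 c2 0 0 0 0 0 0 ∧
      (x * g) *ᵥ (vec8 0 0 0 0 0 1 0 0) = vec8 0 0 0 0 0 d2 0 0 ∧
      ∃ c : F, c ≠ 0 ∧ (x * g) *ᵥ (vec8 0 0 1 0 0 0 0 0) = vec8 0 0 c 0 0 0 0 0 := by
  have hQ : quadFormPlus 4 F (g *ᵥ (vec8 0 0 1 0 0 0 0 0)) = 0 := by rw [hg, Q_eq]; simp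
  have hu : g *ᵥ (vec8 0 0 1 0 0 0 0 0) ≠ 0 := by
    intro h0
    have h := hg.polar (vec8 0 0 1 0 0 0 0 0) (vec8 0 0 0 0 0 0 1 0)
    rw [h0] at h
    simp [Bf] at h
  have hz0 : (g *ᵥ (vec8 0 0 1 0 0 0 0 0)) e1 = 0 := by
    have h := hg.polar (vec8 0 0 0 0 1 0 0 0) (vec8 0 0 1 0 0 0 0 0)
    rw [b1] at h
    simp only [Bf, vec8_e1, vec8_e2, vec8_e3, vec8_e4, vec8_f1, vec8_f2, vec8_f3, vec8_f4] at h
    have h' : d1 * (g *ᵥ (vec8 0 0 1 0 0 0 0 0)) e1 = 0 := by linear_combination h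
    exact (mul_eq_zero.mp h').resolve_left hd1
  have hz4 : (g *ᵥ (vec8 0 0 1 0 0 0 0 0)) f1 = 0 := by
    have h := hg.polar (vec8 1 0 0 0 0 0 0 0) (vec8 0 0 1 0 0 0 0 0)
    rw [a1] at h
    simp only [Bf, vec8_e1, vec8_e2, vec8_e3, vec8_e4, vec8_f1, vec8_f2, vec8_f3, vec8_f4] at h
    have h' : c1 * (g *ᵥ (vec8 0 0 1 0 0 0 0 0)) f1 = 0 := by linear_combination h
    exact (mul_eq_zero.mp h').resolve_left hc1
  have hz1 : (g *ᵥ (vec8 0 0 1 0 0 0 0 0)) e2 = 0 := by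
    have h := hg.polar (vec8 0 0 0 0 0 1 0 0) (vec8 0 0 1 0 0 0 0 0)
    rw [b2] at h
    simp only [Bf, vec8_e1, vec8_e2, vec8_e3, vec8_e4, vec8_f1, vec8_f2, vec8_f3, vec8_f4] at h
    have h' : d2 * (g *ᵥ (vec8 0 0 1 0 0 0 0 0)) e2 = 0 := by linear_combination h
    exact (mul_eq_zero.mp h').resolve_left hd2
  have hz5 : (g *ᵥ (vec8 0 0 1 0 0 0 0 0)) f2 = 0 := by
    have h := hg.polar (vec8 0 1 0 0 0 0 0 0) (vec8 0 0 1 0 0 0 0 0)
    rw [a2] at h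
    simp only [Bf, vec8_e1, vec8_e2, vec8_e3, vec8_e4, vec8_f1, vec8_f2, vec8_f3, vec8_f4] at h
    have h' : c2 * (g *ᵥ (vec8 0 0 1 0 0 0 0 0)) f2 = 0 := by linear_combination h
    exact (mul_eq_zero.mp h').resolve_left hc2
  obtain ⟨x, hx, fx0, fx4, fx1, fx5, c, hc, hxu⟩ := V1_3 _ hQ hu hz0 hz4 hz1 hz5
  exact ⟨x, hx, by rw [← Matrix.mulVec_mulVec, a1, fx0], by rw [← Matrix.mulVec_mulVec, b1, fx4], by rw [← Matrix.mulVec_mulVec, a2, fx1], by rw [← Matrix.mulVec_mulVec, b2, fx5], c, hc, by rw [← Matrix.mulVec_mulVec, hxu]⟩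

lemma stepF3 (g : Matrix I8 I8 F) (hg : IsQ g) (c1 d1 : F) (hc1 : c1 ≠ 0) (hd1 : d1 ≠ 0)
    (a1 : g *ᵥ (vec8 1 0 0 0 0 0 0 0) = vec8 c1 0 0 0 0 0 0 0) (b1 : g *ᵥ (vec8 0 0 0 0 1 0 0 0) = vec8 0 0 0 0 d1 0 0 0) (c2 d2 : F) (hc2 : c2 ≠ 0) (hd2 : d2 ≠ 0)
    (a2 : g *ᵥ (vec8 0 1 0 0 0 0 0 0) = vec8 0 c2 0 0 0 0 0 0) (b2 : g *ᵥ (vec8 0 0 0 0 0 1 0 0) = vec8 0 0 0 0 0 d2 0 0) (c : F) (hc : c ≠ 0)
    (ak : g *ᵥ (vec8 0 0 1 0 0 0 0 0) = vec8 0 0 c 0 0 0 0 0) :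
    ∃ x ∈ E F, (x * g) *ᵥ (vec8 1 0 0 0 0 0 0 0) = vec8 c1 0 0 0 0 0 0 0 ∧
      (x * g) *ᵥ (vec8 0 0 0 0 1 0 0 0) = vec8 0 0 0 0 d1 0 0 0 ∧
      (x * g) *ᵥ (vec8 0 1 0 0 0 0 0 0) = vec8 0 c2 0 0 0 0 0 0 ∧
      (x * g) *ᵥ (vec8 0 0 0 0 0 1 0 0) = vec8 0 0 0 0 0 d2 0 0 ∧
      (x * g) *ᵥ (vec8 0 0 1 0 0 0 0 0) = vec8 0 0 c 0 0 0 0 0 ∧
      ∃ d : F, c * d = 1 ∧ (x * g) *ᵥ (vec8 0 0 0 0 0 0 1 0) = vec8 0 0 0 0 0 0 d 0 := by
  have hQ : quadFormPlus 4 F (g *ᵥ (vec8 0 0 0 0 0 0 1 0)) = 0 := by rw [hg, Q_eq]; simp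
  have hcd : c * (g *ᵥ (vec8 0 0 0 0 0 0 1 0)) f3 = 1 := by
    have h := hg.polar (vec8 0 0 1 0 0 0 0 0) (vec8 0 0 0 0 0 0 1 0)
    rw [ak] at h
    simp only [Bf, vec8_e1, vec8_e2, vec8_e3, vec8_e4, vec8_f1, vec8_f2, vec8_f3, vec8_f4] at h
    linear_combination h
  have hd : (g *ᵥ (vec8 0 0 0 0 0 0 1 0)) f3 ≠ 0 := by
    intro h0
    rw [h0, mul_zero] at hcd
    exact zero_ne_one hcd
  have hz0 : (g *ᵥ (vec8 0 0 0 0 0 0 1 0)) e1 = 0 := by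
    have h := hg.polar (vec8 0 0 0 0 1 0 0 0) (vec8 0 0 0 0 0 0 1 0)
    rw [b1] at h
    simp only [Bf, vec8_e1, vec8_e2, vec8_e3, vec8_e4, vec8_f1, vec8_f2, vec8_f3, vec8_f4] at h
    have h' : d1 * (g *ᵥ (vec8 0 0 0 0 0 0 1 0)) e1 = 0 := by linear_combination h
    exact (mul_eq_zero.mp h').resolve_left hd1
  have hz4 : (g *ᵥ (vec8 0 0 0 0 0 0 1 0)) f1 = 0 := by
    have h := hg.polar (vec8 1 0 0 0 0 0 0 0) (vec8 0 0 0 0 0 0 1 0)
    rw [a1] at h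
    simp only [Bf, vec8_e1, vec8_e2, vec8_e3, vec8_e4, vec8_f1, vec8_f2, vec8_f3, vec8_f4] at h
    have h' : c1 * (g *ᵥ (vec8 0 0 0 0 0 0 1 0)) f1 = 0 := by linear_combination h
    exact (mul_eq_zero.mp h').resolve_left hc1
  have hz1 : (g *ᵥ (vec8 0 0 0 0 0 0 1 0)) e2 = 0 := by
    have h := hg.polar (vec8 0 0 0 0 0 1 0 0) (vec8 0 0 0 0 0 0 1 0)
    rw [b2] at h
    simp only [Bf, vec8_e1, vec8_e2, vec8_e3, vec8_e4, vec8_f1, vec8_f2, vec8_f3, vec8_f4] at h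
    have h' : d2 * (g *ᵥ (vec8 0 0 0 0 0 0 1 0)) e2 = 0 := by linear_combination h
    exact (mul_eq_zero.mp h').resolve_left hd2
  have hz5 : (g *ᵥ (vec8 0 0 0 0 0 0 1 0)) f2 = 0 := by
    have h := hg.polar (vec8 0 1 0 0 0 0 0 0) (vec8 0 0 0 0 0 0 1 0)
    rw [a2] at h
    simp only [Bf, vec8_e1, vec8_e2, vec8_e3, vec8_e4, vec8_f1, vec8_f2, vec8_f3, vec8_f4] at h
    have h' : c2 * (g *ᵥ (vec8 0 0 0 0 0 0 1 0)) f2 = 0 := by linear_combination h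
    exact (mul_eq_zero.mp h').resolve_left hc2
  obtain ⟨x, hx, fx0, fx4, fx1, fx5, fxk, hxw⟩ := V2_3 _ hQ hz0 hz4 hz1 hz5 hd
  exact ⟨x, hx, by rw [← Matrix.mulVec_mulVec, a1, fx0], by rw [← Matrix.mulVec_mulVec, b1, fx4], by rw [← Matrix.mulVec_mulVec, a2, fx1], by rw [← Matrix.mulVec_mulVec, b2, fx5], by rw [← Matrix.mulVec_mulVec, ak, fxk], _, hcd, by rw [← Matrix.mulVec_mulVec, hxw]⟩

/-- diagonal isometries. -/
structure IsD (δ : I8 → F) : Prop where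
  h1 : δ e1 * δ f1 = 1
  h2 : δ e2 * δ f2 = 1
  h3 : δ e3 * δ f3 = 1
  h4 : δ e4 * δ f4 = 1

lemma diag_mulVec (δ v : I8 → F) :
    Matrix.diagonal δ *ᵥ v = vec8 (δ e1 * v e1) (δ e2 * v e2) (δ e3 * v e3) (δ e4 * v e4)
      (δ f1 * v f1) (δ f2 * v f2) (δ f3 * v f3) (δ f4 * v f4) := by
  funext i
  revert i
  rw [I8_forall]
  simp [Matrix.mulVec_diagonal]

lemma final (g : Matrix I8 I8 F) (hg : IsQ g) (c1 d1 : F) (h1 : c1 * d1 = 1)
    (a1 : g *ᵥ (vec8 1 0 0 0 0 0 0 0) = vec8 c1 0 0 0 0 0 0 0) (b1 : g *ᵥ (vec8 0 0 0 0 1 0 0 0) = vec8 0 0 0 0 d1 0 0 0) (c2 d2 : F) (h2 : c2 * d2 = 1)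
    (a2 : g *ᵥ (vec8 0 1 0 0 0 0 0 0) = vec8 0 c2 0 0 0 0 0 0) (b2 : g *ᵥ (vec8 0 0 0 0 0 1 0 0) = vec8 0 0 0 0 0 d2 0 0) (c3 d3 : F) (h3 : c3 * d3 = 1)
    (a3 : g *ᵥ (vec8 0 0 1 0 0 0 0 0) = vec8 0 0 c3 0 0 0 0 0) (b3 : g *ᵥ (vec8 0 0 0 0 0 0 1 0) = vec8 0 0 0 0 0 0 d3 0) :
    ∃ δ : I8 → F, IsD δ ∧ (g = Matrix.diagonal δ ∨ g = Matrix.diagonal δ * SW F) := by
  have hc1 : c1 ≠ 0 := left_ne_zero_of_mul_eq_one h1
  have hd1 : d1 ≠ 0 := right_ne_zero_of_mul_eq_one h1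
  have hc2 : c2 ≠ 0 := left_ne_zero_of_mul_eq_one h2
  have hd2 : d2 ≠ 0 := right_ne_zero_of_mul_eq_one h2
  have hc3 : c3 ≠ 0 := left_ne_zero_of_mul_eq_one h3
  have hd3 : d3 ≠ 0 := right_ne_zero_of_mul_eq_one h3
  have hu0 : (g *ᵥ (vec8 0 0 0 1 0 0 0 0)) e1 = 0 := by
    have h := hg.polar (vec8 0 0 0 0 1 0 0 0) (vec8 0 0 0 1 0 0 0 0)
    rw [b1] at h
    simp only [Bf, vec8_e1, vec8_e2, vec8_e3, vec8_e4, vec8_f1, vec8_f2, vec8_f3, vec8_f4] at h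
    have h' : d1 * (g *ᵥ (vec8 0 0 0 1 0 0 0 0)) e1 = 0 := by linear_combination h
    exact (mul_eq_zero.mp h').resolve_left hd1
  have hu4 : (g *ᵥ (vec8 0 0 0 1 0 0 0 0)) f1 = 0 := by
    have h := hg.polar (vec8 1 0 0 0 0 0 0 0) (vec8 0 0 0 1 0 0 0 0)
    rw [a1] at h
    simp only [Bf, vec8_e1, vec8_e2, vec8_e3, vec8_e4, vec8_f1, vec8_f2, vec8_f3, vec8_f4] at h
    have h' : c1 * (g *ᵥ (vec8 0 0 0 1 0 0 0 0)) f1 = 0 := by linear_combination h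
    exact (mul_eq_zero.mp h').resolve_left hc1
  have hu1 : (g *ᵥ (vec8 0 0 0 1 0 0 0 0)) e2 = 0 := by
    have h := hg.polar (vec8 0 0 0 0 0 1 0 0) (vec8 0 0 0 1 0 0 0 0)
    rw [b2] at h
    simp only [Bf, vec8_e1, vec8_e2, vec8_e3, vec8_e4, vec8_f1, vec8_f2, vec8_f3, vec8_f4] at h
    have h' : d2 * (g *ᵥ (vec8 0 0 0 1 0 0 0 0)) e2 = 0 := by linear_combination h
    exact (mul_eq_zero.mp h').resolve_left hd2
  have hu5 : (g *ᵥ (vec8 0 0 0 1 0 0 0 0)) f2 = 0 := by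
    have h := hg.polar (vec8 0 1 0 0 0 0 0 0) (vec8 0 0 0 1 0 0 0 0)
    rw [a2] at h
    simp only [Bf, vec8_e1, vec8_e2, vec8_e3, vec8_e4, vec8_f1, vec8_f2, vec8_f3, vec8_f4] at h
    have h' : c2 * (g *ᵥ (vec8 0 0 0 1 0 0 0 0)) f2 = 0 := by linear_combination h
    exact (mul_eq_zero.mp h').resolve_left hc2
  have hu2 : (g *ᵥ (vec8 0 0 0 1 0 0 0 0)) e3 = 0 := by
    have h := hg.polar (vec8 0 0 0 0 0 0 1 0) (vec8 0 0 0 1 0 0 0 0)
    rw [b3] at h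
    simp only [Bf, vec8_e1, vec8_e2, vec8_e3, vec8_e4, vec8_f1, vec8_f2, vec8_f3, vec8_f4] at h
    have h' : d3 * (g *ᵥ (vec8 0 0 0 1 0 0 0 0)) e3 = 0 := by linear_combination h
    exact (mul_eq_zero.mp h').resolve_left hd3
  have hu6 : (g *ᵥ (vec8 0 0 0 1 0 0 0 0)) f3 = 0 := by
    have h := hg.polar (vec8 0 0 1 0 0 0 0 0) (vec8 0 0 0 1 0 0 0 0)
    rw [a3] at h
    simp only [Bf, vec8_e1, vec8_e2, vec8_e3, vec8_e4, vec8_f1, vec8_f2, vec8_f3, vec8_f4] at h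
    have h' : c3 * (g *ᵥ (vec8 0 0 0 1 0 0 0 0)) f3 = 0 := by linear_combination h
    exact (mul_eq_zero.mp h').resolve_left hc3
  have hw0 : (g *ᵥ (vec8 0 0 0 0 0 0 0 1)) e1 = 0 := by
    have h := hg.polar (vec8 0 0 0 0 1 0 0 0) (vec8 0 0 0 0 0 0 0 1)
    rw [b1] at h
    simp only [Bf, vec8_e1, vec8_e2, vec8_e3, vec8_e4, vec8_f1, vec8_f2, vec8_f3, vec8_f4] at h
    have h' : d1 * (g *ᵥ (vec8 0 0 0 0 0 0 0 1)) e1 = 0 := by linear_combination h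
    exact (mul_eq_zero.mp h').resolve_left hd1
  have hw4 : (g *ᵥ (vec8 0 0 0 0 0 0 0 1)) f1 = 0 := by
    have h := hg.polar (vec8 1 0 0 0 0 0 0 0) (vec8 0 0 0 0 0 0 0 1)
    rw [a1] at h
    simp only [Bf, vec8_e1, vec8_e2, vec8_e3, vec8_e4, vec8_f1, vec8_f2, vec8_f3, vec8_f4] at h
    have h' : c1 * (g *ᵥ (vec8 0 0 0 0 0 0 0 1)) f1 = 0 := by linear_combination h
    exact (mul_eq_zero.mp h').resolve_left hc1
  have hw1 : (g *ᵥ (vec8 0 0 0 0 0 0 0 1)) e2 = 0 := by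
    have h := hg.polar (vec8 0 0 0 0 0 1 0 0) (vec8 0 0 0 0 0 0 0 1)
    rw [b2] at h
    simp only [Bf, vec8_e1, vec8_e2, vec8_e3, vec8_e4, vec8_f1, vec8_f2, vec8_f3, vec8_f4] at h
    have h' : d2 * (g *ᵥ (vec8 0 0 0 0 0 0 0 1)) e2 = 0 := by linear_combination h
    exact (mul_eq_zero.mp h').resolve_left hd2
  have hw5 : (g *ᵥ (vec8 0 0 0 0 0 0 0 1)) f2 = 0 := by
    have h := hg.polar (vec8 0 1 0 0 0 0 0 0) (vec8 0 0 0 0 0 0 0 1)
    rw [a2] at h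
    simp only [Bf, vec8_e1, vec8_e2, vec8_e3, vec8_e4, vec8_f1, vec8_f2, vec8_f3, vec8_f4] at h
    have h' : c2 * (g *ᵥ (vec8 0 0 0 0 0 0 0 1)) f2 = 0 := by linear_combination h
    exact (mul_eq_zero.mp h').resolve_left hc2
  have hw2 : (g *ᵥ (vec8 0 0 0 0 0 0 0 1)) e3 = 0 := by
    have h := hg.polar (vec8 0 0 0 0 0 0 1 0) (vec8 0 0 0 0 0 0 0 1)
    rw [b3] at h
    simp only [Bf, vec8_e1, vec8_e2, vec8_e3, vec8_e4, vec8_f1, vec8_f2, vec8_f3, vec8_f4] at h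
    have h' : d3 * (g *ᵥ (vec8 0 0 0 0 0 0 0 1)) e3 = 0 := by linear_combination h
    exact (mul_eq_zero.mp h').resolve_left hd3
  have hw6 : (g *ᵥ (vec8 0 0 0 0 0 0 0 1)) f3 = 0 := by
    have h := hg.polar (vec8 0 0 1 0 0 0 0 0) (vec8 0 0 0 0 0 0 0 1)
    rw [a3] at h
    simp only [Bf, vec8_e1, vec8_e2, vec8_e3, vec8_e4, vec8_f1, vec8_f2, vec8_f3, vec8_f4] at h
    have h' : c3 * (g *ᵥ (vec8 0 0 0 0 0 0 0 1)) f3 = 0 := by linear_combination h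
    exact (mul_eq_zero.mp h').resolve_left hc3
  obtain ⟨a, b, hu⟩ : ∃ a b : F, g *ᵥ (vec8 0 0 0 1 0 0 0 0) = vec8 0 0 0 a 0 0 0 b :=
    ⟨_, _, by funext i; revert i; rw [I8_forall]; exact ⟨hu0, hu1, hu2, rfl, hu4, hu5, hu6, rfl⟩⟩
  obtain ⟨c, d, hw⟩ : ∃ c d : F, g *ᵥ (vec8 0 0 0 0 0 0 0 1) = vec8 0 0 0 c 0 0 0 d :=
    ⟨_, _, by funext i; revert i; rw [I8_forall]; exact ⟨hw0, hw1, hw2, rfl, hw4, hw5, hw6, rfl⟩⟩
  have q1 : a * b = 0 := by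
    have h := hg (vec8 0 0 0 1 0 0 0 0)
    rw [hu, Q_eq, Q_eq] at h
    simp only [vec8_e1, vec8_e2, vec8_e3, vec8_e4, vec8_f1, vec8_f2, vec8_f3, vec8_f4] at h
    linear_combination h
  have q2 : c * d = 0 := by
    have h := hg (vec8 0 0 0 0 0 0 0 1)
    rw [hw, Q_eq, Q_eq] at h
    simp only [vec8_e1, vec8_e2, vec8_e3, vec8_e4, vec8_f1, vec8_f2, vec8_f3, vec8_f4] at h
    linear_combination h
  have q3 : a * d + b * c = 1 := by
    have h := hg.polar (vec8 0 0 0 1 0 0 0 0) (vec8 0 0 0 0 0 0 0 1)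
    rw [hu, hw] at h
    simp only [Bf, vec8_e1, vec8_e2, vec8_e3, vec8_e4, vec8_f1, vec8_f2, vec8_f3, vec8_f4] at h
    linear_combination h
  by_cases hb : b = 0
  · rw [hb, zero_mul, add_zero] at q3
    have hd0 : d ≠ 0 := right_ne_zero_of_mul_eq_one q3
    have hc0 : c = 0 := (mul_eq_zero.mp q2).resolve_right hd0
    rw [hb] at hu
    rw [hc0] at hw
    refine ⟨vec8 c1 c2 c3 a d1 d2 d3 d, ⟨h1, h2, h3, q3⟩, Or.inl ?_⟩
    apply mat_ext_cols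
    rw [I8_forall]
    refine ⟨?_, ?_, ?_, ?_, ?_, ?_, ?_, ?_⟩
    · rw [single_e1, a1, diag_mulVec]; simp
    · rw [single_e2, a2, diag_mulVec]; simp
    · rw [single_e3, a3, diag_mulVec]; simp
    · rw [single_e4, hu, diag_mulVec]; simp
    · rw [single_f1, b1, diag_mulVec]; simp
    · rw [single_f2, b2, diag_mulVec]; simp
    · rw [single_f3, b3, diag_mulVec]; simp
    · rw [single_f4, hw, diag_mulVec]; simp
  · have ha0 : a = 0 := (mul_eq_zero.mp q1).resolve_right hb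
    rw [ha0, zero_mul, zero_add] at q3
    have hc0 : c ≠ 0 := right_ne_zero_of_mul_eq_one q3
    have hd0 : d = 0 := (mul_eq_zero.mp q2).resolve_left hc0
    rw [ha0] at hu
    rw [hd0] at hw
    refine ⟨vec8 c1 c2 c3 c d1 d2 d3 b, ⟨h1, h2, h3, by rw [mul_comm]; exact q3⟩, Or.inr ?_⟩
    apply mat_ext_cols
    rw [I8_forall]
    refine ⟨?_, ?_, ?_, ?_, ?_, ?_, ?_, ?_⟩
    · rw [single_e1, a1, ← Matrix.mulVec_mulVec, SW_mulVec, diag_mulVec]; simp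
    · rw [single_e2, a2, ← Matrix.mulVec_mulVec, SW_mulVec, diag_mulVec]; simp
    · rw [single_e3, a3, ← Matrix.mulVec_mulVec, SW_mulVec, diag_mulVec]; simp
    · rw [single_e4, hu, ← Matrix.mulVec_mulVec, SW_mulVec, diag_mulVec]; simp
    · rw [single_f1, b1, ← Matrix.mulVec_mulVec, SW_mulVec, diag_mulVec]; simp
    · rw [single_f2, b2, ← Matrix.mulVec_mulVec, SW_mulVec, diag_mulVec]; simp
    · rw [single_f3, b3, ← Matrix.mulVec_mulVec, SW_mulVec, diag_mulVec]; simp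
    · rw [single_f4, hw, ← Matrix.mulVec_mulVec, SW_mulVec, diag_mulVec]; simp

theorem elim (g : Matrix I8 I8 F) (hg : IsQ g) :
    ∃ x ∈ E F, ∃ δ : I8 → F, IsD δ ∧ (x * g = Matrix.diagonal δ ∨ x * g = Matrix.diagonal δ * SW F) := by
  obtain ⟨x1, hx1, c1, hc1, A1⟩ := stepE1 g hg
  have hg1 := (isQ_of_mem hx1).mul hg
  obtain ⟨x2, hx2, A2, d1, hcd1, B2⟩ := stepF1 _ hg1 c1 hc1 A1
  have hd1 : d1 ≠ 0 := right_ne_zero_of_mul_eq_one hcd1
  have hg2 := (isQ_of_mem hx2).mul hg1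
  obtain ⟨x3, hx3, A3, B3, c2, hc2, C3⟩ := stepE2 _ hg2 c1 d1 hc1 hd1 A2 B2
  have hg3 := (isQ_of_mem hx3).mul hg2
  obtain ⟨x4, hx4, A4, B4, C4, d2, hcd2, D4⟩ := stepF2 _ hg3 c1 d1 hc1 hd1 A3 B3 c2 hc2 C3
  have hd2 : d2 ≠ 0 := right_ne_zero_of_mul_eq_one hcd2
  have hg4 := (isQ_of_mem hx4).mul hg3
  obtain ⟨x5, hx5, A5, B5, C5, D5, c3, hc3, E5⟩ :=
    stepE3 _ hg4 c1 d1 hc1 hd1 A4 B4 c2 d2 hc2 hd2 C4 D4
  have hg5 := (isQ_of_mem hx5).mul hg4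
  obtain ⟨x6, hx6, A6, B6, C6, D6, E6, d3, hcd3, F6⟩ :=
    stepF3 _ hg5 c1 d1 hc1 hd1 A5 B5 c2 d2 hc2 hd2 C5 D5 c3 hc3 E5
  have hg6 := (isQ_of_mem hx6).mul hg5
  obtain ⟨δ, hδ, hfin⟩ := final _ hg6 c1 d1 hcd1 A6 B6 c2 d2 hcd2 C6 D6 c3 d3 hcd3 E6 F6
  refine ⟨x6 * (x5 * (x4 * (x3 * (x2 * x1)))),
    (E F).mul_mem hx6 ((E F).mul_mem hx5 ((E F).mul_mem hx4 ((E F).mul_mem hx3
      ((E F).mul_mem hx2 hx1)))), δ, hδ, ?_⟩
  have eg : x6 * (x5 * (x4 * (x3 * (x2 * x1)))) * g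
      = x6 * (x5 * (x4 * (x3 * (x2 * (x1 * g))))) := by
    simp only [mul_assoc]
  rw [eg]
  exact hfin

/-! ### the isometry group -/

/-- the isometry group of the form. -/
abbrev O8 (F : Type*) [Field F] : Subgroup (GL I8 F) := isometryGroup F (quadFormPlus 4 F)

lemma mem_O8 (g : GL I8 F) : g ∈ O8 F ↔ IsQ (g : Matrix I8 I8 F) := by
  constructor
  · intro h v
    exact h v v
  · intro h u _
    exact h u

/-- root elements in `GL`. -/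
def XU (n : ℕ) (hn : n < 24) (t : F) : GL I8 F :=
  ⟨X F n t, X F n (-t), X_mul_neg n hn t, X_neg_mul n hn t⟩

/-- root elements in the isometry group. -/
def XO (n : ℕ) (hn : n < 24) (t : F) : O8 F := ⟨XU n hn t, (mem_O8 _).mpr (isQ_X n hn t)⟩

/-- the set of root elements. -/
def S (F : Type*) [Field F] : Set (O8 F) := {x | ∃ n, ∃ hn : n < 24, ∃ t : F, x = XO n hn t}

/-- the subgroup generated by the root elements. -/
def E0 (F : Type*) [Field F] : Subgroup (O8 F) := Subgroup.closure (S F)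

lemma O8_ext {x y : O8 F}
    (h : ((x : GL I8 F) : Matrix I8 I8 F) = ((y : GL I8 F) : Matrix I8 I8 F)) : x = y :=
  Subtype.ext (Units.ext h)

lemma XO_mem (n : ℕ) (hn : n < 24) (t : F) : XO n hn t ∈ E0 F :=
  Subgroup.subset_closure ⟨n, hn, t, rfl⟩

lemma XO_add (n : ℕ) (hn : n < 24) (a b : F) : XO n hn a * XO n hn b = XO n hn (a + b) :=
  O8_ext (X_add n hn a b)

lemma XO_inv (n : ℕ) (hn : n < 24) (t : F) : (XO n hn t)⁻¹ = XO n hn (-t) := by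
  rw [inv_eq_iff_mul_eq_one, XO_add, add_neg_cancel]
  exact O8_ext (X_zero n)

lemma bridge {x : Matrix I8 I8 F} (hx : x ∈ E F) :
    ∃ y ∈ E0 F, ((y : GL I8 F) : Matrix I8 I8 F) = x := by
  induction hx using Submonoid.closure_induction with
  | mem x hx =>
    obtain ⟨n, hn, t, rfl⟩ := hx
    exact ⟨XO n hn t, Subgroup.subset_closure ⟨n, hn, t, rfl⟩, rfl⟩
  | one => exact ⟨1, (E0 F).one_mem, rfl⟩
  | mul x y _ _ hx hy =>
    obtain ⟨a, ha, rfl⟩ := hx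
    obtain ⟨b, hb, rfl⟩ := hy
    exact ⟨a * b, (E0 F).mul_mem ha hb, rfl⟩

/-- the inverse diagonal. -/
def dinv (δ : I8 → F) : I8 → F := vec8 (δ f1) (δ f2) (δ f3) (δ f4) (δ e1) (δ e2) (δ e3) (δ e4)

lemma diag_mul_dinv (δ : I8 → F) (h : IsD δ) :
    Matrix.diagonal δ * Matrix.diagonal (dinv δ) = 1 := by
  rw [Matrix.diagonal_mul_diagonal, ← Matrix.diagonal_one]
  congr 1
  funext i
  revert i
  rw [I8_forall]
  simp only [dinv, vec8_e1, vec8_e2, vec8_e3, vec8_e4, vec8_f1, vec8_f2, vec8_f3, vec8_f4,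
    Pi.one_apply]
  exact ⟨h.h1, h.h2, h.h3, h.h4, by rw [mul_comm]; exact h.h1, by rw [mul_comm]; exact h.h2,
    by rw [mul_comm]; exact h.h3, by rw [mul_comm]; exact h.h4⟩

lemma dinv_mul_diag (δ : I8 → F) (h : IsD δ) :
    Matrix.diagonal (dinv δ) * Matrix.diagonal δ = 1 := by
  rw [Matrix.diagonal_mul_diagonal, ← Matrix.diagonal_one]
  congr 1
  funext i
  revert i
  rw [I8_forall]
  simp only [dinv, vec8_e1, vec8_e2, vec8_e3, vec8_e4, vec8_f1, vec8_f2, vec8_f3, vec8_f4,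
    Pi.one_apply]
  exact ⟨by rw [mul_comm]; exact h.h1, by rw [mul_comm]; exact h.h2,
    by rw [mul_comm]; exact h.h3, by rw [mul_comm]; exact h.h4, h.h1, h.h2, h.h3, h.h4⟩

lemma isQ_diag (δ : I8 → F) (h : IsD δ) : IsQ (Matrix.diagonal δ) := by
  intro v
  rw [diag_mulVec, Q_eq, Q_eq]
  simp only [vec8_e1, vec8_e2, vec8_e3, vec8_e4, vec8_f1, vec8_f2, vec8_f3, vec8_f4]
  linear_combination v e1 * v f1 * h.h1 + v e2 * v f2 * h.h2 + v e3 * v f3 * h.h3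
    + v e4 * v f4 * h.h4

/-- diagonal elements in `GL`. -/
def DU (δ : I8 → F) (h : IsD δ) : GL I8 F :=
  ⟨Matrix.diagonal δ, Matrix.diagonal (dinv δ), diag_mul_dinv δ h, dinv_mul_diag δ h⟩

/-- diagonal elements in the isometry group. -/
def DO (δ : I8 → F) (h : IsD δ) : O8 F := ⟨DU δ h, (mem_O8 _).mpr (isQ_diag δ h)⟩

/-- the swap in `GL`. -/
def SU (F : Type*) [Field F] : GL I8 F := ⟨SW F, SW F, SW_mul_SW, SW_mul_SW⟩

/-- the swap in the isometry group. -/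
def SO (F : Type*) [Field F] : O8 F := ⟨SU F, (mem_O8 _).mpr isQ_SW⟩

/-- the character of a diagonal element on the root number `n`. -/
def chi (δ : I8 → F) (n : ℕ) : F :=
  match n with
  | 0 => δ f1 * δ f2
  | 1 => δ f1 * δ f3
  | 2 => δ e4 * δ f1
  | 3 => δ f1 * δ f4
  | 4 => δ e3 * δ f1
  | 5 => δ e2 * δ f1
  | 6 => δ f2 * δ f3
  | 7 => δ e4 * δ f2
  | 8 => δ f2 * δ f4
  | 9 => δ e3 * δ f2
  | 10 => δ e4 * δ f3
  | 11 => δ f3 * δ f4
  | 12 => δ e3 * δ e4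
  | 13 => δ e3 * δ f4
  | 14 => δ e2 * δ f3
  | 15 => δ e2 * δ e4
  | 16 => δ e2 * δ f4
  | 17 => δ e2 * δ e3
  | 18 => δ e1 * δ f2
  | 19 => δ e1 * δ f3
  | 20 => δ e1 * δ e4
  | 21 => δ e1 * δ f4
  | 22 => δ e1 * δ e3
  | 23 => δ e1 * δ e2
  | _ => 1

lemma diag_X (δ : I8 → F) (h : IsD δ) (n : ℕ) (hn : n < 24) (t : F) :
    Matrix.diagonal δ * X F n t = X F n (chi δ n * t) * Matrix.diagonal δ := by
  obtain ⟨h1, h2, h3, h4⟩ := h
  apply mat_ext_mulVec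
  intro v
  rw [← Matrix.mulVec_mulVec, ← Matrix.mulVec_mulVec, diag_mulVec δ v]
  interval_cases n
  · rw [X0, X0, diag_mulVec]
    simp only [vec8_e1, vec8_e2, vec8_e3, vec8_e4, vec8_f1, vec8_f2, vec8_f3, vec8_f4, chi]
    apply vec8_congr <;> grind
  · rw [X1, X1, diag_mulVec]
    simp only [vec8_e1, vec8_e2, vec8_e3, vec8_e4, vec8_f1, vec8_f2, vec8_f3, vec8_f4, chi]
    apply vec8_congr <;> grind
  · rw [X2, X2, diag_mulVec]
    simp only [vec8_e1, vec8_e2, vec8_e3, vec8_e4, vec8_f1, vec8_f2, vec8_f3, vec8_f4, chi]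
    apply vec8_congr <;> grind
  · rw [X3, X3, diag_mulVec]
    simp only [vec8_e1, vec8_e2, vec8_e3, vec8_e4, vec8_f1, vec8_f2, vec8_f3, vec8_f4, chi]
    apply vec8_congr <;> grind
  · rw [X4, X4, diag_mulVec]
    simp only [vec8_e1, vec8_e2, vec8_e3, vec8_e4, vec8_f1, vec8_f2, vec8_f3, vec8_f4, chi]
    apply vec8_congr <;> grind
  · rw [X5, X5, diag_mulVec]
    simp only [vec8_e1, vec8_e2, vec8_e3, vec8_e4, vec8_f1, vec8_f2, vec8_f3, vec8_f4, chi]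
    apply vec8_congr <;> grind
  · rw [X6, X6, diag_mulVec]
    simp only [vec8_e1, vec8_e2, vec8_e3, vec8_e4, vec8_f1, vec8_f2, vec8_f3, vec8_f4, chi]
    apply vec8_congr <;> grind
  · rw [X7, X7, diag_mulVec]
    simp only [vec8_e1, vec8_e2, vec8_e3, vec8_e4, vec8_f1, vec8_f2, vec8_f3, vec8_f4, chi]
    apply vec8_congr <;> grind
  · rw [X8, X8, diag_mulVec]
    simp only [vec8_e1, vec8_e2, vec8_e3, vec8_e4, vec8_f1, vec8_f2, vec8_f3, vec8_f4, chi]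
    apply vec8_congr <;> grind
  · rw [X9, X9, diag_mulVec]
    simp only [vec8_e1, vec8_e2, vec8_e3, vec8_e4, vec8_f1, vec8_f2, vec8_f3, vec8_f4, chi]
    apply vec8_congr <;> grind
  · rw [X10, X10, diag_mulVec]
    simp only [vec8_e1, vec8_e2, vec8_e3, vec8_e4, vec8_f1, vec8_f2, vec8_f3, vec8_f4, chi]
    apply vec8_congr <;> grind
  · rw [X11, X11, diag_mulVec]
    simp only [vec8_e1, vec8_e2, vec8_e3, vec8_e4, vec8_f1, vec8_f2, vec8_f3, vec8_f4, chi]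
    apply vec8_congr <;> grind
  · rw [X12, X12, diag_mulVec]
    simp only [vec8_e1, vec8_e2, vec8_e3, vec8_e4, vec8_f1, vec8_f2, vec8_f3, vec8_f4, chi]
    apply vec8_congr <;> grind
  · rw [X13, X13, diag_mulVec]
    simp only [vec8_e1, vec8_e2, vec8_e3, vec8_e4, vec8_f1, vec8_f2, vec8_f3, vec8_f4, chi]
    apply vec8_congr <;> grind
  · rw [X14, X14, diag_mulVec]
    simp only [vec8_e1, vec8_e2, vec8_e3, vec8_e4, vec8_f1, vec8_f2, vec8_f3, vec8_f4, chi]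
    apply vec8_congr <;> grind
  · rw [X15, X15, diag_mulVec]
    simp only [vec8_e1, vec8_e2, vec8_e3, vec8_e4, vec8_f1, vec8_f2, vec8_f3, vec8_f4, chi]
    apply vec8_congr <;> grind
  · rw [X16, X16, diag_mulVec]
    simp only [vec8_e1, vec8_e2, vec8_e3, vec8_e4, vec8_f1, vec8_f2, vec8_f3, vec8_f4, chi]
    apply vec8_congr <;> grind
  · rw [X17, X17, diag_mulVec]
    simp only [vec8_e1, vec8_e2, vec8_e3, vec8_e4, vec8_f1, vec8_f2, vec8_f3, vec8_f4, chi]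
    apply vec8_congr <;> grind
  · rw [X18, X18, diag_mulVec]
    simp only [vec8_e1, vec8_e2, vec8_e3, vec8_e4, vec8_f1, vec8_f2, vec8_f3, vec8_f4, chi]
    apply vec8_congr <;> grind
  · rw [X19, X19, diag_mulVec]
    simp only [vec8_e1, vec8_e2, vec8_e3, vec8_e4, vec8_f1, vec8_f2, vec8_f3, vec8_f4, chi]
    apply vec8_congr <;> grind
  · rw [X20, X20, diag_mulVec]
    simp only [vec8_e1, vec8_e2, vec8_e3, vec8_e4, vec8_f1, vec8_f2, vec8_f3, vec8_f4, chi]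
    apply vec8_congr <;> grind
  · rw [X21, X21, diag_mulVec]
    simp only [vec8_e1, vec8_e2, vec8_e3, vec8_e4, vec8_f1, vec8_f2, vec8_f3, vec8_f4, chi]
    apply vec8_congr <;> grind
  · rw [X22, X22, diag_mulVec]
    simp only [vec8_e1, vec8_e2, vec8_e3, vec8_e4, vec8_f1, vec8_f2, vec8_f3, vec8_f4, chi]
    apply vec8_congr <;> grind
  · rw [X23, X23, diag_mulVec]
    simp only [vec8_e1, vec8_e2, vec8_e3, vec8_e4, vec8_f1, vec8_f2, vec8_f3, vec8_f4, chi]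
    apply vec8_congr <;> grind

lemma DO_XO (δ : I8 → F) (h : IsD δ) (n : ℕ) (hn : n < 24) (t : F) :
    DO δ h * XO n hn t = XO n hn (chi δ n * t) * DO δ h :=
  O8_ext (diag_X δ h n hn t)

lemma SW_X (n : ℕ) (hn : n < 24) (t : F) :
    ∃ n', ∃ hn' : n' < 24, SW F * X F n t = X F n' t * SW F := by
  interval_cases n
  · refine ⟨0, by norm_num, ?_⟩
    apply mat_ext_mulVec
    intro v
    simp only [← Matrix.mulVec_mulVec, X0, X0, SW_mulVec, vec8_e1, vec8_e2, vec8_e3, vec8_e4, vec8_f1, vec8_f2, vec8_f3, vec8_f4]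
    try (apply vec8_congr <;> ring)
  · refine ⟨1, by norm_num, ?_⟩
    apply mat_ext_mulVec
    intro v
    simp only [← Matrix.mulVec_mulVec, X1, X1, SW_mulVec, vec8_e1, vec8_e2, vec8_e3, vec8_e4, vec8_f1, vec8_f2, vec8_f3, vec8_f4]
    try (apply vec8_congr <;> ring)
  · refine ⟨3, by norm_num, ?_⟩
    apply mat_ext_mulVec
    intro v
    simp only [← Matrix.mulVec_mulVec, X2, X3, SW_mulVec, vec8_e1, vec8_e2, vec8_e3, vec8_e4, vec8_f1, vec8_f2, vec8_f3, vec8_f4]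
    try (apply vec8_congr <;> ring)
  · refine ⟨2, by norm_num, ?_⟩
    apply mat_ext_mulVec
    intro v
    simp only [← Matrix.mulVec_mulVec, X3, X2, SW_mulVec, vec8_e1, vec8_e2, vec8_e3, vec8_e4, vec8_f1, vec8_f2, vec8_f3, vec8_f4]
    try (apply vec8_congr <;> ring)
  · refine ⟨4, by norm_num, ?_⟩
    apply mat_ext_mulVec
    intro v
    simp only [← Matrix.mulVec_mulVec, X4, X4, SW_mulVec, vec8_e1, vec8_e2, vec8_e3, vec8_e4, vec8_f1, vec8_f2, vec8_f3, vec8_f4]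
    try (apply vec8_congr <;> ring)
  · refine ⟨5, by norm_num, ?_⟩
    apply mat_ext_mulVec
    intro v
    simp only [← Matrix.mulVec_mulVec, X5, X5, SW_mulVec, vec8_e1, vec8_e2, vec8_e3, vec8_e4, vec8_f1, vec8_f2, vec8_f3, vec8_f4]
    try (apply vec8_congr <;> ring)
  · refine ⟨6, by norm_num, ?_⟩
    apply mat_ext_mulVec
    intro v
    simp only [← Matrix.mulVec_mulVec, X6, X6, SW_mulVec, vec8_e1, vec8_e2, vec8_e3, vec8_e4, vec8_f1, vec8_f2, vec8_f3, vec8_f4]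
    try (apply vec8_congr <;> ring)
  · refine ⟨8, by norm_num, ?_⟩
    apply mat_ext_mulVec
    intro v
    simp only [← Matrix.mulVec_mulVec, X7, X8, SW_mulVec, vec8_e1, vec8_e2, vec8_e3, vec8_e4, vec8_f1, vec8_f2, vec8_f3, vec8_f4]
    try (apply vec8_congr <;> ring)
  · refine ⟨7, by norm_num, ?_⟩
    apply mat_ext_mulVec
    intro v
    simp only [← Matrix.mulVec_mulVec, X8, X7, SW_mulVec, vec8_e1, vec8_e2, vec8_e3, vec8_e4, vec8_f1, vec8_f2, vec8_f3, vec8_f4]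
    try (apply vec8_congr <;> ring)
  · refine ⟨9, by norm_num, ?_⟩
    apply mat_ext_mulVec
    intro v
    simp only [← Matrix.mulVec_mulVec, X9, X9, SW_mulVec, vec8_e1, vec8_e2, vec8_e3, vec8_e4, vec8_f1, vec8_f2, vec8_f3, vec8_f4]
    try (apply vec8_congr <;> ring)
  · refine ⟨11, by norm_num, ?_⟩
    apply mat_ext_mulVec
    intro v
    simp only [← Matrix.mulVec_mulVec, X10, X11, SW_mulVec, vec8_e1, vec8_e2, vec8_e3, vec8_e4, vec8_f1, vec8_f2, vec8_f3, vec8_f4]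
    try (apply vec8_congr <;> ring)
  · refine ⟨10, by norm_num, ?_⟩
    apply mat_ext_mulVec
    intro v
    simp only [← Matrix.mulVec_mulVec, X11, X10, SW_mulVec, vec8_e1, vec8_e2, vec8_e3, vec8_e4, vec8_f1, vec8_f2, vec8_f3, vec8_f4]
    try (apply vec8_congr <;> ring)
  · refine ⟨13, by norm_num, ?_⟩
    apply mat_ext_mulVec
    intro v
    simp only [← Matrix.mulVec_mulVec, X12, X13, SW_mulVec, vec8_e1, vec8_e2, vec8_e3, vec8_e4, vec8_f1, vec8_f2, vec8_f3, vec8_f4]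
    try (apply vec8_congr <;> ring)
  · refine ⟨12, by norm_num, ?_⟩
    apply mat_ext_mulVec
    intro v
    simp only [← Matrix.mulVec_mulVec, X13, X12, SW_mulVec, vec8_e1, vec8_e2, vec8_e3, vec8_e4, vec8_f1, vec8_f2, vec8_f3, vec8_f4]
    try (apply vec8_congr <;> ring)
  · refine ⟨14, by norm_num, ?_⟩
    apply mat_ext_mulVec
    intro v
    simp only [← Matrix.mulVec_mulVec, X14, X14, SW_mulVec, vec8_e1, vec8_e2, vec8_e3, vec8_e4, vec8_f1, vec8_f2, vec8_f3, vec8_f4]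
    try (apply vec8_congr <;> ring)
  · refine ⟨16, by norm_num, ?_⟩
    apply mat_ext_mulVec
    intro v
    simp only [← Matrix.mulVec_mulVec, X15, X16, SW_mulVec, vec8_e1, vec8_e2, vec8_e3, vec8_e4, vec8_f1, vec8_f2, vec8_f3, vec8_f4]
    try (apply vec8_congr <;> ring)
  · refine ⟨15, by norm_num, ?_⟩
    apply mat_ext_mulVec
    intro v
    simp only [← Matrix.mulVec_mulVec, X16, X15, SW_mulVec, vec8_e1, vec8_e2, vec8_e3, vec8_e4, vec8_f1, vec8_f2, vec8_f3, vec8_f4]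
    try (apply vec8_congr <;> ring)
  · refine ⟨17, by norm_num, ?_⟩
    apply mat_ext_mulVec
    intro v
    simp only [← Matrix.mulVec_mulVec, X17, X17, SW_mulVec, vec8_e1, vec8_e2, vec8_e3, vec8_e4, vec8_f1, vec8_f2, vec8_f3, vec8_f4]
    try (apply vec8_congr <;> ring)
  · refine ⟨18, by norm_num, ?_⟩
    apply mat_ext_mulVec
    intro v
    simp only [← Matrix.mulVec_mulVec, X18, X18, SW_mulVec, vec8_e1, vec8_e2, vec8_e3, vec8_e4, vec8_f1, vec8_f2, vec8_f3, vec8_f4]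
    try (apply vec8_congr <;> ring)
  · refine ⟨19, by norm_num, ?_⟩
    apply mat_ext_mulVec
    intro v
    simp only [← Matrix.mulVec_mulVec, X19, X19, SW_mulVec, vec8_e1, vec8_e2, vec8_e3, vec8_e4, vec8_f1, vec8_f2, vec8_f3, vec8_f4]
    try (apply vec8_congr <;> ring)
  · refine ⟨21, by norm_num, ?_⟩
    apply mat_ext_mulVec
    intro v
    simp only [← Matrix.mulVec_mulVec, X20, X21, SW_mulVec, vec8_e1, vec8_e2, vec8_e3, vec8_e4, vec8_f1, vec8_f2, vec8_f3, vec8_f4]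
    try (apply vec8_congr <;> ring)
  · refine ⟨20, by norm_num, ?_⟩
    apply mat_ext_mulVec
    intro v
    simp only [← Matrix.mulVec_mulVec, X21, X20, SW_mulVec, vec8_e1, vec8_e2, vec8_e3, vec8_e4, vec8_f1, vec8_f2, vec8_f3, vec8_f4]
    try (apply vec8_congr <;> ring)
  · refine ⟨22, by norm_num, ?_⟩
    apply mat_ext_mulVec
    intro v
    simp only [← Matrix.mulVec_mulVec, X22, X22, SW_mulVec, vec8_e1, vec8_e2, vec8_e3, vec8_e4, vec8_f1, vec8_f2, vec8_f3, vec8_f4]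
    try (apply vec8_congr <;> ring)
  · refine ⟨23, by norm_num, ?_⟩
    apply mat_ext_mulVec
    intro v
    simp only [← Matrix.mulVec_mulVec, X23, X23, SW_mulVec, vec8_e1, vec8_e2, vec8_e3, vec8_e4, vec8_f1, vec8_f2, vec8_f3, vec8_f4]
    try (apply vec8_congr <;> ring)

lemma SO_XO (n : ℕ) (hn : n < 24) (t : F) :
    ∃ n', ∃ hn' : n' < 24, SO F * XO n hn t = XO n' hn' t * SO F := by
  obtain ⟨n', hn', h⟩ := SW_X n hn t
  exact ⟨n', hn', O8_ext h⟩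

lemma decomp (g : O8 F) :
    ∃ y ∈ E0 F, ∃ δ : I8 → F, ∃ h : IsD δ, y * g = DO δ h ∨ y * g = DO δ h * SO F := by
  obtain ⟨x, hx, δ, hδ, hxg⟩ := elim ((g : GL I8 F) : Matrix I8 I8 F) ((mem_O8 _).mp g.2)
  obtain ⟨y, hy, rfl⟩ := bridge hx
  rcases hxg with hxg | hxg
  · exact ⟨y, hy, δ, hδ, Or.inl (O8_ext hxg)⟩
  · exact ⟨y, hy, δ, hδ, Or.inr (O8_ext hxg)⟩

lemma conj_diag_mem (δ : I8 → F) (h : IsD δ) {x : O8 F} (hx : x ∈ E0 F) :
    DO δ h * x * (DO δ h)⁻¹ ∈ E0 F := by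
  have key : (E0 F).map (MulAut.conj (DO δ h)).toMonoidHom ≤ E0 F := by
    rw [E0, MonoidHom.map_closure, Subgroup.closure_le]
    rintro _ ⟨s, ⟨n, hn, t, rfl⟩, rfl⟩
    show DO δ h * XO n hn t * (DO δ h)⁻¹ ∈ _
    rw [DO_XO, mul_inv_cancel_right]
    exact Subgroup.subset_closure ⟨n, hn, _, rfl⟩
  exact key (Subgroup.mem_map_of_mem _ hx)

lemma conj_swap_mem {x : O8 F} (hx : x ∈ E0 F) : SO F * x * (SO F)⁻¹ ∈ E0 F := by
  have key : (E0 F).map (MulAut.conj (SO F)).toMonoidHom ≤ E0 F := by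
    rw [E0, MonoidHom.map_closure, Subgroup.closure_le]
    rintro _ ⟨s, ⟨n, hn, t, rfl⟩, rfl⟩
    show SO F * XO n hn t * (SO F)⁻¹ ∈ _
    obtain ⟨n', hn', h⟩ := SO_XO n hn t
    rw [h, mul_inv_cancel_right]
    exact Subgroup.subset_closure ⟨n', hn', _, rfl⟩
  exact key (Subgroup.mem_map_of_mem _ hx)

lemma conj_mem (g : O8 F) {x : O8 F} (hx : x ∈ E0 F) : g * x * g⁻¹ ∈ E0 F := by
  obtain ⟨y, hy, δ, h, hyg⟩ := decomp g
  rcases hyg with hyg | hyg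
  · have hg : g = y⁻¹ * DO δ h := by rw [← hyg]; group
    have h1 := (E0 F).mul_mem ((E0 F).mul_mem ((E0 F).inv_mem hy) (conj_diag_mem δ h hx)) hy
    have e : g * x * g⁻¹ = y⁻¹ * (DO δ h * x * (DO δ h)⁻¹) * y := by rw [hg]; group
    rw [e]
    exact h1
  · have hg : g = y⁻¹ * (DO δ h * SO F) := by rw [← hyg]; group
    have h1 := (E0 F).mul_mem ((E0 F).mul_mem ((E0 F).inv_mem hy)
      (conj_diag_mem δ h (conj_swap_mem hx))) hy
    have e : g * x * g⁻¹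
        = y⁻¹ * (DO δ h * (SO F * x * (SO F)⁻¹) * (DO δ h)⁻¹) * y := by rw [hg]; group
    rw [e]
    exact h1

instance E0_normal : (E0 F).Normal := ⟨fun x hx g => conj_mem g hx⟩

lemma DO_comm (δ δ' : I8 → F) (h : IsD δ) (h' : IsD δ') :
    DO δ h * DO δ' h' = DO δ' h' * DO δ h := by
  apply O8_ext
  show Matrix.diagonal δ * Matrix.diagonal δ' = Matrix.diagonal δ' * Matrix.diagonal δ
  rw [Matrix.diagonal_mul_diagonal, Matrix.diagonal_mul_diagonal]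
  congr 1
  funext i
  exact mul_comm _ _

/-- a monomial element of `E`, exchanging `e3, f3` and `e4, f4` up to sign. -/
def NN (F : Type*) [Field F] : Matrix I8 I8 F :=
  X F 13 1 * X F 10 (-1) * X F 13 1 * (X F 12 1 * X F 11 (-1) * X F 12 1)

lemma NN_mem : NN F ∈ E F :=
  (E F).mul_mem ((E F).mul_mem ((E F).mul_mem (X_mem 13 (by norm_num) _) (X_mem 10 (by norm_num) _))
    (X_mem 13 (by norm_num) _)) ((E F).mul_mem ((E F).mul_mem (X_mem 12 (by norm_num) _)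
      (X_mem 11 (by norm_num) _)) (X_mem 12 (by norm_num) _))

lemma NN_mulVec (v : I8 → F) :
    NN F *ᵥ v = vec8 (v e1) (v e2) (-v f3) (-v f4) (v f1) (v f2) (-v e3) (-v e4) := by
  simp only [NN, ← Matrix.mulVec_mulVec, X10, X11, X12, X13, vec8_e1, vec8_e2, vec8_e3, vec8_e4,
    vec8_f1, vec8_f2, vec8_f3, vec8_f4]
  apply vec8_congr <;> ring

lemma isD_last (a b : F) (hab : a * b = 1) : IsD (vec8 1 1 1 a 1 1 1 b) :=
  ⟨by simp, by simp, by simp, by simpa using hab⟩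

lemma NN_diag (a b : F) (hab : a * b = 1) :
    NN F * Matrix.diagonal (vec8 1 1 1 b 1 1 1 a) = Matrix.diagonal (vec8 1 1 1 a 1 1 1 b) * NN F := by
  apply mat_ext_mulVec
  intro v
  simp only [← Matrix.mulVec_mulVec, diag_mulVec, NN_mulVec, vec8_e1, vec8_e2, vec8_e3, vec8_e4,
    vec8_f1, vec8_f2, vec8_f3, vec8_f4]
  apply vec8_congr <;> ring

lemma sq_last_mem (a b : F) (hab : a * b = 1) :
    DO (vec8 1 1 1 a 1 1 1 b) (isD_last a b hab) * DO (vec8 1 1 1 a 1 1 1 b) (isD_last a b hab)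
      ∈ E0 F := by
  obtain ⟨y, hy, hyN⟩ := bridge (NN_mem (F := F))
  set dd := DO (vec8 1 1 1 a 1 1 1 b) (isD_last a b hab) with hdd
  have h1 : y * dd⁻¹ = dd * y := by
    apply O8_ext
    show ((y : GL I8 F) : Matrix I8 I8 F) * Matrix.diagonal (dinv (vec8 1 1 1 a 1 1 1 b))
      = Matrix.diagonal (vec8 1 1 1 a 1 1 1 b) * ((y : GL I8 F) : Matrix I8 I8 F)
    rw [hyN]
    have e : dinv (vec8 1 1 1 a 1 1 1 b) = vec8 1 1 1 b 1 1 1 a := by
      simp [dinv]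
    rw [e]
    exact NN_diag a b hab
  have h2 : dd * dd = (dd * y * dd⁻¹) * y⁻¹ := by
    rw [mul_assoc dd y, h1]
    group
  rw [h2]
  exact (E0 F).mul_mem (conj_diag_mem _ _ hy) ((E0 F).inv_mem hy)

/-- the diagonal with `e4` and `f4` exchanged. -/
def dsw (δ : I8 → F) : I8 → F := vec8 (δ e1) (δ e2) (δ e3) (δ f4) (δ f1) (δ f2) (δ f3) (δ e4)

lemma isD_dsw (δ : I8 → F) (h : IsD δ) : IsD (dsw δ) :=
  ⟨h.h1, h.h2, h.h3, by
    show δ f4 * δ e4 = 1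
    rw [mul_comm]
    exact h.h4⟩

lemma SO_DO (δ : I8 → F) (h : IsD δ) : SO F * DO δ h = DO (dsw δ) (isD_dsw δ h) * SO F := by
  apply O8_ext
  show SW F * Matrix.diagonal δ = Matrix.diagonal (dsw δ) * SW F
  apply mat_ext_mulVec
  intro v
  simp only [← Matrix.mulVec_mulVec, diag_mulVec, SW_mulVec, dsw, vec8_e1, vec8_e2, vec8_e3, vec8_e4,
    vec8_f1, vec8_f2, vec8_f3, vec8_f4]
  try (apply vec8_congr <;> ring)

lemma DO_dsw (δ : I8 → F) (h : IsD δ) :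
    DO (dsw δ) (isD_dsw δ h)
      = DO (vec8 1 1 1 (δ f4) 1 1 1 (δ e4)) (isD_last _ _ (by rw [mul_comm]; exact h.h4))
        * DO (vec8 1 1 1 (δ f4) 1 1 1 (δ e4)) (isD_last _ _ (by rw [mul_comm]; exact h.h4))
        * DO δ h := by
  obtain ⟨h1, h2, h3, h4⟩ := h
  apply O8_ext
  show Matrix.diagonal (dsw δ)
    = Matrix.diagonal (vec8 1 1 1 (δ f4) 1 1 1 (δ e4)) * Matrix.diagonal (vec8 1 1 1 (δ f4) 1 1 1 (δ e4))
      * Matrix.diagonal δ
  rw [Matrix.diagonal_mul_diagonal, Matrix.diagonal_mul_diagonal]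
  congr 1
  funext i
  revert i
  rw [I8_forall]
  simp only [dsw, vec8_e1, vec8_e2, vec8_e3, vec8_e4, vec8_f1, vec8_f2, vec8_f3, vec8_f4]
  refine ⟨?_, ?_, ?_, ?_, ?_, ?_, ?_, ?_⟩ <;> grind

lemma comm_le : commutator (O8 F) ≤ E0 F := by
  rw [commutator_def, Subgroup.commutator_le]
  intro g _ k _
  rw [← QuotientGroup.eq_one_iff (N := E0 F)]
  have cD : ∀ (δ δ' : I8 → F) (h : IsD δ) (h' : IsD δ'),
      Commute (QuotientGroup.mk (DO δ h) : O8 F ⧸ E0 F) (QuotientGroup.mk (DO δ' h')) := by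
    intro δ δ' h h'
    show (QuotientGroup.mk (DO δ h) : O8 F ⧸ E0 F) * QuotientGroup.mk (DO δ' h')
      = QuotientGroup.mk (DO δ' h') * QuotientGroup.mk (DO δ h)
    rw [← QuotientGroup.mk_mul, ← QuotientGroup.mk_mul, DO_comm]
  have cS : ∀ (δ : I8 → F) (h : IsD δ),
      Commute (QuotientGroup.mk (SO F) : O8 F ⧸ E0 F) (QuotientGroup.mk (DO δ h)) := by
    intro δ h
    show (QuotientGroup.mk (SO F) : O8 F ⧸ E0 F) * QuotientGroup.mk (DO δ h)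
      = QuotientGroup.mk (DO δ h) * QuotientGroup.mk (SO F)
    rw [← QuotientGroup.mk_mul, SO_DO, DO_dsw, QuotientGroup.mk_mul, QuotientGroup.mk_mul,
      (QuotientGroup.eq_one_iff _).mpr (sq_last_mem _ _ (by rw [mul_comm]; exact h.h4)), one_mul]
  have key : ∀ g : O8 F, ∃ (δ : I8 → F) (h : IsD δ),
      (QuotientGroup.mk g : O8 F ⧸ E0 F) = QuotientGroup.mk (DO δ h)
        ∨ (QuotientGroup.mk g : O8 F ⧸ E0 F) = QuotientGroup.mk (DO δ h) * QuotientGroup.mk (SO F) := by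
    intro g
    obtain ⟨y, hy, δ, h, hyg⟩ := decomp g
    refine ⟨δ, h, ?_⟩
    have e1 : (QuotientGroup.mk g : O8 F ⧸ E0 F) = QuotientGroup.mk (y * g) := by
      rw [QuotientGroup.mk_mul, (QuotientGroup.eq_one_iff y).mpr hy, one_mul]
    rcases hyg with hyg | hyg
    · left
      rw [e1, hyg]
    · right
      rw [e1, hyg, QuotientGroup.mk_mul]
  have hcomm : Commute (QuotientGroup.mk g : O8 F ⧸ E0 F) (QuotientGroup.mk k) := by
    obtain ⟨δ, h, hg⟩ := key g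
    obtain ⟨δ', h', hk⟩ := key k
    rcases hg with hg | hg <;> rcases hk with hk | hk <;> rw [hg, hk]
    · exact cD δ δ' h h'
    · exact (cD δ δ' h h').mul_right (cS δ h).symm
    · exact (cD δ δ' h h').mul_left (cS δ' h')
    · exact ((cD δ δ' h h').mul_right (cS δ h).symm).mul_left
        ((cS δ' h').mul_right (Commute.refl _))
  calc (QuotientGroup.mk ⁅g, k⁆ : O8 F ⧸ E0 F)
      = ⁅(QuotientGroup.mk g : O8 F ⧸ E0 F), QuotientGroup.mk k⁆ := by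
        simp [commutatorElement_def]
    _ = 1 := commutatorElement_eq_one_iff_commute.mpr hcomm

lemma commX (n : ℕ) (hn : n < 24) (t : F) :
    ∃ a, ∃ ha : a < 24, ∃ b, ∃ hb : b < 24, ∃ s : F,
      X F a 1 * X F b s * X F a (-1) * X F b (-s) = X F n t := by
  interval_cases n
  · refine ⟨1, by norm_num, 9, by norm_num, t, ?_⟩
    apply mat_ext_mulVec
    intro v
    simp only [← Matrix.mulVec_mulVec, X1, X9, X0, vec8_e1, vec8_e2, vec8_e3, vec8_e4, vec8_f1, vec8_f2, vec8_f3, vec8_f4]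
    apply vec8_congr <;> ring
  · refine ⟨0, by norm_num, 14, by norm_num, t, ?_⟩
    apply mat_ext_mulVec
    intro v
    simp only [← Matrix.mulVec_mulVec, X0, X14, X1, vec8_e1, vec8_e2, vec8_e3, vec8_e4, vec8_f1, vec8_f2, vec8_f3, vec8_f4]
    apply vec8_congr <;> ring
  · refine ⟨0, by norm_num, 15, by norm_num, -t, ?_⟩
    apply mat_ext_mulVec
    intro v
    simp only [← Matrix.mulVec_mulVec, X0, X15, X2, vec8_e1, vec8_e2, vec8_e3, vec8_e4, vec8_f1, vec8_f2, vec8_f3, vec8_f4]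
    apply vec8_congr <;> ring
  · refine ⟨0, by norm_num, 16, by norm_num, -t, ?_⟩
    apply mat_ext_mulVec
    intro v
    simp only [← Matrix.mulVec_mulVec, X0, X16, X3, vec8_e1, vec8_e2, vec8_e3, vec8_e4, vec8_f1, vec8_f2, vec8_f3, vec8_f4]
    apply vec8_congr <;> ring
  · refine ⟨0, by norm_num, 17, by norm_num, t, ?_⟩
    apply mat_ext_mulVec
    intro v
    simp only [← Matrix.mulVec_mulVec, X0, X17, X4, vec8_e1, vec8_e2, vec8_e3, vec8_e4, vec8_f1, vec8_f2, vec8_f3, vec8_f4]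
    apply vec8_congr <;> ring
  · refine ⟨1, by norm_num, 17, by norm_num, t, ?_⟩
    apply mat_ext_mulVec
    intro v
    simp only [← Matrix.mulVec_mulVec, X1, X17, X5, vec8_e1, vec8_e2, vec8_e3, vec8_e4, vec8_f1, vec8_f2, vec8_f3, vec8_f4]
    apply vec8_congr <;> ring
  · refine ⟨0, by norm_num, 19, by norm_num, -t, ?_⟩
    apply mat_ext_mulVec
    intro v
    simp only [← Matrix.mulVec_mulVec, X0, X19, X6, vec8_e1, vec8_e2, vec8_e3, vec8_e4, vec8_f1, vec8_f2, vec8_f3, vec8_f4]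
    apply vec8_congr <;> ring
  · refine ⟨0, by norm_num, 20, by norm_num, t, ?_⟩
    apply mat_ext_mulVec
    intro v
    simp only [← Matrix.mulVec_mulVec, X0, X20, X7, vec8_e1, vec8_e2, vec8_e3, vec8_e4, vec8_f1, vec8_f2, vec8_f3, vec8_f4]
    apply vec8_congr <;> ring
  · refine ⟨0, by norm_num, 21, by norm_num, t, ?_⟩
    apply mat_ext_mulVec
    intro v
    simp only [← Matrix.mulVec_mulVec, X0, X21, X8, vec8_e1, vec8_e2, vec8_e3, vec8_e4, vec8_f1, vec8_f2, vec8_f3, vec8_f4]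
    apply vec8_congr <;> ring
  · refine ⟨0, by norm_num, 22, by norm_num, -t, ?_⟩
    apply mat_ext_mulVec
    intro v
    simp only [← Matrix.mulVec_mulVec, X0, X22, X9, vec8_e1, vec8_e2, vec8_e3, vec8_e4, vec8_f1, vec8_f2, vec8_f3, vec8_f4]
    apply vec8_congr <;> ring
  · refine ⟨1, by norm_num, 20, by norm_num, -t, ?_⟩
    apply mat_ext_mulVec
    intro v
    simp only [← Matrix.mulVec_mulVec, X1, X20, X10, vec8_e1, vec8_e2, vec8_e3, vec8_e4, vec8_f1, vec8_f2, vec8_f3, vec8_f4]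
    apply vec8_congr <;> ring
  · refine ⟨1, by norm_num, 21, by norm_num, -t, ?_⟩
    apply mat_ext_mulVec
    intro v
    simp only [← Matrix.mulVec_mulVec, X1, X21, X11, vec8_e1, vec8_e2, vec8_e3, vec8_e4, vec8_f1, vec8_f2, vec8_f3, vec8_f4]
    apply vec8_congr <;> ring
  · refine ⟨2, by norm_num, 22, by norm_num, -t, ?_⟩
    apply mat_ext_mulVec
    intro v
    simp only [← Matrix.mulVec_mulVec, X2, X22, X12, vec8_e1, vec8_e2, vec8_e3, vec8_e4, vec8_f1, vec8_f2, vec8_f3, vec8_f4]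
    apply vec8_congr <;> ring
  · refine ⟨3, by norm_num, 22, by norm_num, -t, ?_⟩
    apply mat_ext_mulVec
    intro v
    simp only [← Matrix.mulVec_mulVec, X3, X22, X13, vec8_e1, vec8_e2, vec8_e3, vec8_e4, vec8_f1, vec8_f2, vec8_f3, vec8_f4]
    apply vec8_congr <;> ring
  · refine ⟨1, by norm_num, 23, by norm_num, -t, ?_⟩
    apply mat_ext_mulVec
    intro v
    simp only [← Matrix.mulVec_mulVec, X1, X23, X14, vec8_e1, vec8_e2, vec8_e3, vec8_e4, vec8_f1, vec8_f2, vec8_f3, vec8_f4]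
    apply vec8_congr <;> ring
  · refine ⟨2, by norm_num, 23, by norm_num, t, ?_⟩
    apply mat_ext_mulVec
    intro v
    simp only [← Matrix.mulVec_mulVec, X2, X23, X15, vec8_e1, vec8_e2, vec8_e3, vec8_e4, vec8_f1, vec8_f2, vec8_f3, vec8_f4]
    apply vec8_congr <;> ring
  · refine ⟨3, by norm_num, 23, by norm_num, t, ?_⟩
    apply mat_ext_mulVec
    intro v
    simp only [← Matrix.mulVec_mulVec, X3, X23, X16, vec8_e1, vec8_e2, vec8_e3, vec8_e4, vec8_f1, vec8_f2, vec8_f3, vec8_f4]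
    apply vec8_congr <;> ring
  · refine ⟨4, by norm_num, 23, by norm_num, -t, ?_⟩
    apply mat_ext_mulVec
    intro v
    simp only [← Matrix.mulVec_mulVec, X4, X23, X17, vec8_e1, vec8_e2, vec8_e3, vec8_e4, vec8_f1, vec8_f2, vec8_f3, vec8_f4]
    apply vec8_congr <;> ring
  · refine ⟨6, by norm_num, 22, by norm_num, t, ?_⟩
    apply mat_ext_mulVec
    intro v
    simp only [← Matrix.mulVec_mulVec, X6, X22, X18, vec8_e1, vec8_e2, vec8_e3, vec8_e4, vec8_f1, vec8_f2, vec8_f3, vec8_f4]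
    apply vec8_congr <;> ring
  · refine ⟨6, by norm_num, 23, by norm_num, t, ?_⟩
    apply mat_ext_mulVec
    intro v
    simp only [← Matrix.mulVec_mulVec, X6, X23, X19, vec8_e1, vec8_e2, vec8_e3, vec8_e4, vec8_f1, vec8_f2, vec8_f3, vec8_f4]
    apply vec8_congr <;> ring
  · refine ⟨7, by norm_num, 23, by norm_num, -t, ?_⟩
    apply mat_ext_mulVec
    intro v
    simp only [← Matrix.mulVec_mulVec, X7, X23, X20, vec8_e1, vec8_e2, vec8_e3, vec8_e4, vec8_f1, vec8_f2, vec8_f3, vec8_f4]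
    apply vec8_congr <;> ring
  · refine ⟨8, by norm_num, 23, by norm_num, -t, ?_⟩
    apply mat_ext_mulVec
    intro v
    simp only [← Matrix.mulVec_mulVec, X8, X23, X21, vec8_e1, vec8_e2, vec8_e3, vec8_e4, vec8_f1, vec8_f2, vec8_f3, vec8_f4]
    apply vec8_congr <;> ring
  · refine ⟨9, by norm_num, 23, by norm_num, t, ?_⟩
    apply mat_ext_mulVec
    intro v
    simp only [← Matrix.mulVec_mulVec, X9, X23, X22, vec8_e1, vec8_e2, vec8_e3, vec8_e4, vec8_f1, vec8_f2, vec8_f3, vec8_f4]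
    apply vec8_congr <;> ring
  · refine ⟨14, by norm_num, 22, by norm_num, t, ?_⟩
    apply mat_ext_mulVec
    intro v
    simp only [← Matrix.mulVec_mulVec, X14, X22, X23, vec8_e1, vec8_e2, vec8_e3, vec8_e4, vec8_f1, vec8_f2, vec8_f3, vec8_f4]
    apply vec8_congr <;> ring

lemma XO_mem_comm (n : ℕ) (hn : n < 24) (t : F) : XO n hn t ∈ commutator (O8 F) := by
  obtain ⟨a, ha, b, hb, s, h⟩ := commX n hn t
  have e : XO n hn t = ⁅XO a ha (1 : F), XO b hb s⁆ := by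
    rw [commutatorElement_def, XO_inv, XO_inv]
    exact O8_ext h.symm
  rw [e, commutator_def]
  exact Subgroup.commutator_mem_commutator (Subgroup.mem_top _) (Subgroup.mem_top _)

theorem Omega_eq : commutator (O8 F) = E0 F := by
  apply le_antisymm comm_le
  rw [E0, Subgroup.closure_le]
  rintro _ ⟨n, hn, t, rfl⟩
  exact XO_mem_comm n hn t

/-! ### the representation -/

/-- `u ⬝ (A u)`. -/
def qf (A : Matrix I8 I8 F) (u : I8 → F) : F := u ⬝ᵥ (A *ᵥ u)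

lemma model_gl : model.gl = gl := rfl

lemma qf_Gam (u : I8 → F) : qf (model.Gam F) u = quadFormPlus 4 F u := by
  rw [Q_eq, qf, dotProduct, I8_sum]
  simp only [Model.Gam, spMat_mulVec, model_gl]
  simp [gl]

lemma qf_conj (A g : Matrix I8 I8 F) (u : I8 → F) : qf (gᵀ * A * g) u = qf A (g *ᵥ u) := by
  unfold qf
  rw [← Matrix.mulVec_mulVec, ← Matrix.mulVec_mulVec, Matrix.dotProduct_mulVec,
    Matrix.vecMul_transpose]

lemma qf_sub (A B : Matrix I8 I8 F) (u : I8 → F) : qf (A - B) u = qf A u - qf B u := by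
  simp [qf, Matrix.sub_mulVec, dotProduct_sub]

lemma qf_single (A : Matrix I8 I8 F) (a : I8) : qf A (Pi.single a 1) = A a a := by
  simp [qf, Matrix.mulVec_single_one]

lemma qf_single_add (A : Matrix I8 I8 F) (a b : I8) :
    qf A (Pi.single a 1 + Pi.single b 1) = A a a + A a b + A b a + A b b := by
  simp [qf, Matrix.mulVec_add, Matrix.mulVec_single_one]
  ring

lemma isIso_of_isQ {g : Matrix I8 I8 F} (hg : IsQ g) : model.IsIso g := by
  have key : ∀ u, qf (gᵀ * model.Gam F * g - model.Gam F) u = 0 := by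
    intro u
    rw [qf_sub, qf_conj, qf_Gam, qf_Gam, hg, sub_self]
  constructor
  · intro a
    have h2 := key (Pi.single a 1)
    rw [qf_single] at h2
    exact h2
  · intro a b
    have h1 := key (Pi.single a 1 + Pi.single b 1)
    rw [qf_single_add] at h1
    have h2 := key (Pi.single a 1)
    rw [qf_single] at h2
    have h3 := key (Pi.single b 1)
    rw [qf_single] at h3
    linear_combination h1 - h2 - h3

lemma isIso_O (g : O8 F) : model.IsIso ((g : GL I8 F) : Matrix I8 I8 F) :=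
  isIso_of_isQ ((mem_O8 _).mp g.2)

/-- the representation on the Chevalley module. -/
def rhoHom (F : Type*) [Field F] : O8 F →* GL Lie.chevD4.Idx F where
  toFun g := ⟨model.rho ((g : GL I8 F) : Matrix I8 I8 F),
    model.rho (((g⁻¹ : O8 F) : GL I8 F) : Matrix I8 I8 F),
    by
      rw [← D4Model.rho_mul (isIso_O g) (isIso_O g⁻¹)]
      have : ((g : GL I8 F) : Matrix I8 I8 F) * (((g⁻¹ : O8 F) : GL I8 F) : Matrix I8 I8 F) = 1 := by
        simp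
      rw [this, D4Model.rho_one],
    by
      rw [← D4Model.rho_mul (isIso_O g⁻¹) (isIso_O g)]
      have : (((g⁻¹ : O8 F) : GL I8 F) : Matrix I8 I8 F) * ((g : GL I8 F) : Matrix I8 I8 F) = 1 := by
        simp
      rw [this, D4Model.rho_one]⟩
  map_one' := Units.ext D4Model.rho_one
  map_mul' g h := Units.ext (D4Model.rho_mul (isIso_O g) (isIso_O h))

lemma rhoHom_XO (n : ℕ) (hn : n < 24) (t : F) :
    ((rhoHom F (XO n hn t) : GL Lie.chevD4.Idx F) : Matrix Lie.chevD4.Idx Lie.chevD4.Idx F)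
      = Lie.chevD4.xMat F ⟨n, hn⟩ t :=
  rho_X F ⟨n, hn⟩ t

theorem map_E0 : (E0 F).map (rhoHom F) = Lie.chevD4.group F := by
  rw [E0, MonoidHom.map_closure]
  unfold Lie.ChevalleyDatum.group
  congr 1
  ext g
  constructor
  · rintro ⟨_, ⟨n, hn, t, rfl⟩, rfl⟩
    exact ⟨⟨n, hn⟩, t, rhoHom_XO n hn t⟩
  · rintro ⟨r, t, h⟩
    refine ⟨XO r.val r.isLt t, ⟨r.val, r.isLt, t, rfl⟩, Units.ext ?_⟩
    rw [h]
    exact rhoHom_XO r.val r.isLt t

/-! ### the kernel -/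

lemma wedge_of_sym (g : Matrix I8 I8 F) (a b : I8) (c : ℤ) (hc : c * c = 1)
    (hs : (g * spMat F [(a, b, c)] * gᵀ - spMat F [(a, b, c)])ᵀ
      = g * spMat F [(a, b, c)] * gᵀ - spMat F [(a, b, c)]) :
    ∀ i j, g i a * g j b - g j a * g i b
      = (if a = i ∧ b = j then 1 else 0) - (if a = j ∧ b = i then 1 else 0) := by
  have e : spMat F [(a, b, c)] = Matrix.single a b (c : F) := by simp [spMat]
  rw [e] at hs
  have hc' : (c : F) * (c : F) = 1 := by exact_mod_cast congrArg (Int.cast : ℤ → F) hc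
  intro i j
  have := congrFun (congrFun hs i) j
  simp only [Matrix.transpose_apply, Matrix.sub_apply, conj_single, Matrix.single_apply] at this
  split_ifs at this ⊢ <;> grind

lemma wedge_zero {u w : I8 → F} {a b : I8} (hab : a ≠ b)
    (h : ∀ i j, u i * w j - u j * w i
      = (if a = i ∧ b = j then 1 else 0) - (if a = j ∧ b = i then 1 else 0)) :
    ∀ i, i ≠ a → i ≠ b → u i = 0 ∧ w i = 0 := by
  intro i hia hib
  have h1 := h a b
  rw [if_pos ⟨rfl, rfl⟩, if_neg (fun hh => hab hh.1)] at h1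
  have h2 := h i a
  rw [if_neg (fun hh => hia hh.1.symm), if_neg (fun hh => hib hh.2.symm)] at h2
  have h3 := h i b
  rw [if_neg (fun hh => hia hh.1.symm), if_neg (fun hh => hab hh.1)] at h3
  constructor
  · linear_combination (-(u i)) * h1 + (u a) * h3 - (u b) * h2
  · linear_combination (-(w i)) * h1 - (w b) * h2 + (w a) * h3

theorem scalar_of_rho_one {g : Matrix I8 I8 F} (hg : model.IsIso g) (h : model.rho g = 1) :
    g = g e1 e1 • (1 : Matrix I8 I8 F) := by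
  have sym : ∀ k, (g * model.T F k * gᵀ - model.T F k)ᵀ = g * model.T F k * gᵀ - model.T F k := by
    intro k
    have hb : model.bHat (g * model.T F k * gᵀ) = 0 := by
      rw [model.bHat_conj hg, model.H1_of_table h1_ok]
    have h3 := (model.H3_of_table nu 0 h3a_ok h3b_ok _ hb).1
    have e : ∑ i, model.lam i (g * model.T F k * gᵀ) • model.T F i = model.T F k := by
      have e' : ∀ i, model.lam i (g * model.T F k * gᵀ) = if i = k then 1 else 0 := by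
        intro i
        have := congrFun (congrFun h i) k
        simpa [Model.rho, Matrix.one_apply] using this
      simp only [e', ite_smul, one_smul, zero_smul, Finset.sum_ite_eq', Finset.mem_univ, if_true]
    rwa [e] at h3
  have w0 := wedge_of_sym g f1 f2 (1) (by norm_num) (sym (Sum.inr (0 : Fin 24)))
  have w1 := wedge_of_sym g f1 f3 (1) (by norm_num) (sym (Sum.inr (1 : Fin 24)))
  have w2 := wedge_of_sym g f1 e4 (1) (by norm_num) (sym (Sum.inr (2 : Fin 24)))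
  have w3 := wedge_of_sym g f1 f4 (1) (by norm_num) (sym (Sum.inr (3 : Fin 24)))
  have w4 := wedge_of_sym g f1 e3 (-1) (by norm_num) (sym (Sum.inr (4 : Fin 24)))
  have w5 := wedge_of_sym g f1 e2 (1) (by norm_num) (sym (Sum.inr (5 : Fin 24)))
  have w6 := wedge_of_sym g f2 f3 (1) (by norm_num) (sym (Sum.inr (6 : Fin 24)))
  have w7 := wedge_of_sym g f2 e4 (1) (by norm_num) (sym (Sum.inr (7 : Fin 24)))
  have w8 := wedge_of_sym g f2 f4 (1) (by norm_num) (sym (Sum.inr (8 : Fin 24)))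
  have w9 := wedge_of_sym g f2 e3 (-1) (by norm_num) (sym (Sum.inr (9 : Fin 24)))
  have w10 := wedge_of_sym g f3 e4 (-1) (by norm_num) (sym (Sum.inr (10 : Fin 24)))
  have w11 := wedge_of_sym g f3 f4 (-1) (by norm_num) (sym (Sum.inr (11 : Fin 24)))
  have w12 := wedge_of_sym g e3 e4 (1) (by norm_num) (sym (Sum.inr (12 : Fin 24)))
  have w13 := wedge_of_sym g e3 f4 (1) (by norm_num) (sym (Sum.inr (13 : Fin 24)))
  have w14 := wedge_of_sym g e2 f3 (1) (by norm_num) (sym (Sum.inr (14 : Fin 24)))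
  have w15 := wedge_of_sym g e2 e4 (-1) (by norm_num) (sym (Sum.inr (15 : Fin 24)))
  have w16 := wedge_of_sym g e2 f4 (-1) (by norm_num) (sym (Sum.inr (16 : Fin 24)))
  have w17 := wedge_of_sym g e2 e3 (-1) (by norm_num) (sym (Sum.inr (17 : Fin 24)))
  have w18 := wedge_of_sym g e1 f2 (-1) (by norm_num) (sym (Sum.inr (18 : Fin 24)))
  have w19 := wedge_of_sym g e1 f3 (1) (by norm_num) (sym (Sum.inr (19 : Fin 24)))
  have w20 := wedge_of_sym g e1 e4 (-1) (by norm_num) (sym (Sum.inr (20 : Fin 24)))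
  have w21 := wedge_of_sym g e1 f4 (-1) (by norm_num) (sym (Sum.inr (21 : Fin 24)))
  have w22 := wedge_of_sym g e1 e3 (-1) (by norm_num) (sym (Sum.inr (22 : Fin 24)))
  have w23 := wedge_of_sym g e1 e2 (-1) (by norm_num) (sym (Sum.inr (23 : Fin 24)))
  have z0 := wedge_zero (u := fun i => g i f1) (w := fun i => g i f2) (by decide) w0
  have z1 := wedge_zero (u := fun i => g i f1) (w := fun i => g i f3) (by decide) w1
  have z2 := wedge_zero (u := fun i => g i f1) (w := fun i => g i e4) (by decide) w2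
  have z3 := wedge_zero (u := fun i => g i f1) (w := fun i => g i f4) (by decide) w3
  have z4 := wedge_zero (u := fun i => g i f1) (w := fun i => g i e3) (by decide) w4
  have z5 := wedge_zero (u := fun i => g i f1) (w := fun i => g i e2) (by decide) w5
  have z6 := wedge_zero (u := fun i => g i f2) (w := fun i => g i f3) (by decide) w6
  have z7 := wedge_zero (u := fun i => g i f2) (w := fun i => g i e4) (by decide) w7
  have z8 := wedge_zero (u := fun i => g i f2) (w := fun i => g i f4) (by decide) w8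
  have z9 := wedge_zero (u := fun i => g i f2) (w := fun i => g i e3) (by decide) w9
  have z10 := wedge_zero (u := fun i => g i f3) (w := fun i => g i e4) (by decide) w10
  have z11 := wedge_zero (u := fun i => g i f3) (w := fun i => g i f4) (by decide) w11
  have z12 := wedge_zero (u := fun i => g i e3) (w := fun i => g i e4) (by decide) w12
  have z13 := wedge_zero (u := fun i => g i e3) (w := fun i => g i f4) (by decide) w13
  have z14 := wedge_zero (u := fun i => g i e2) (w := fun i => g i f3) (by decide) w14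
  have z15 := wedge_zero (u := fun i => g i e2) (w := fun i => g i e4) (by decide) w15
  have z16 := wedge_zero (u := fun i => g i e2) (w := fun i => g i f4) (by decide) w16
  have z17 := wedge_zero (u := fun i => g i e2) (w := fun i => g i e3) (by decide) w17
  have z18 := wedge_zero (u := fun i => g i e1) (w := fun i => g i f2) (by decide) w18
  have z19 := wedge_zero (u := fun i => g i e1) (w := fun i => g i f3) (by decide) w19
  have z20 := wedge_zero (u := fun i => g i e1) (w := fun i => g i e4) (by decide) w20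
  have z21 := wedge_zero (u := fun i => g i e1) (w := fun i => g i f4) (by decide) w21
  have z22 := wedge_zero (u := fun i => g i e1) (w := fun i => g i e3) (by decide) w22
  have z23 := wedge_zero (u := fun i => g i e1) (w := fun i => g i e2) (by decide) w23
  have o_e2_e1 : g e2 e1 = 0 := (z18 e2 (by decide) (by decide)).1
  have o_e3_e1 : g e3 e1 = 0 := (z18 e3 (by decide) (by decide)).1
  have o_e4_e1 : g e4 e1 = 0 := (z18 e4 (by decide) (by decide)).1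
  have o_f1_e1 : g f1 e1 = 0 := (z18 f1 (by decide) (by decide)).1
  have o_f2_e1 : g f2 e1 = 0 := (z19 f2 (by decide) (by decide)).1
  have o_f3_e1 : g f3 e1 = 0 := (z18 f3 (by decide) (by decide)).1
  have o_f4_e1 : g f4 e1 = 0 := (z18 f4 (by decide) (by decide)).1
  have o_e1_e2 : g e1 e2 = 0 := (z5 e1 (by decide) (by decide)).2
  have o_e3_e2 : g e3 e2 = 0 := (z5 e3 (by decide) (by decide)).2
  have o_e4_e2 : g e4 e2 = 0 := (z5 e4 (by decide) (by decide)).2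
  have o_f1_e2 : g f1 e2 = 0 := (z14 f1 (by decide) (by decide)).1
  have o_f2_e2 : g f2 e2 = 0 := (z5 f2 (by decide) (by decide)).2
  have o_f3_e2 : g f3 e2 = 0 := (z5 f3 (by decide) (by decide)).2
  have o_f4_e2 : g f4 e2 = 0 := (z5 f4 (by decide) (by decide)).2
  have o_e1_e3 : g e1 e3 = 0 := (z4 e1 (by decide) (by decide)).2
  have o_e2_e3 : g e2 e3 = 0 := (z4 e2 (by decide) (by decide)).2
  have o_e4_e3 : g e4 e3 = 0 := (z4 e4 (by decide) (by decide)).2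
  have o_f1_e3 : g f1 e3 = 0 := (z9 f1 (by decide) (by decide)).2
  have o_f2_e3 : g f2 e3 = 0 := (z4 f2 (by decide) (by decide)).2
  have o_f3_e3 : g f3 e3 = 0 := (z4 f3 (by decide) (by decide)).2
  have o_f4_e3 : g f4 e3 = 0 := (z4 f4 (by decide) (by decide)).2
  have o_e1_e4 : g e1 e4 = 0 := (z2 e1 (by decide) (by decide)).2
  have o_e2_e4 : g e2 e4 = 0 := (z2 e2 (by decide) (by decide)).2
  have o_e3_e4 : g e3 e4 = 0 := (z2 e3 (by decide) (by decide)).2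
  have o_f1_e4 : g f1 e4 = 0 := (z7 f1 (by decide) (by decide)).2
  have o_f2_e4 : g f2 e4 = 0 := (z2 f2 (by decide) (by decide)).2
  have o_f3_e4 : g f3 e4 = 0 := (z2 f3 (by decide) (by decide)).2
  have o_f4_e4 : g f4 e4 = 0 := (z2 f4 (by decide) (by decide)).2
  have o_e1_f1 : g e1 f1 = 0 := (z0 e1 (by decide) (by decide)).1
  have o_e2_f1 : g e2 f1 = 0 := (z0 e2 (by decide) (by decide)).1
  have o_e3_f1 : g e3 f1 = 0 := (z0 e3 (by decide) (by decide)).1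
  have o_e4_f1 : g e4 f1 = 0 := (z0 e4 (by decide) (by decide)).1
  have o_f2_f1 : g f2 f1 = 0 := (z1 f2 (by decide) (by decide)).1
  have o_f3_f1 : g f3 f1 = 0 := (z0 f3 (by decide) (by decide)).1
  have o_f4_f1 : g f4 f1 = 0 := (z0 f4 (by decide) (by decide)).1
  have o_e1_f2 : g e1 f2 = 0 := (z0 e1 (by decide) (by decide)).2
  have o_e2_f2 : g e2 f2 = 0 := (z0 e2 (by decide) (by decide)).2
  have o_e3_f2 : g e3 f2 = 0 := (z0 e3 (by decide) (by decide)).2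
  have o_e4_f2 : g e4 f2 = 0 := (z0 e4 (by decide) (by decide)).2
  have o_f1_f2 : g f1 f2 = 0 := (z6 f1 (by decide) (by decide)).1
  have o_f3_f2 : g f3 f2 = 0 := (z0 f3 (by decide) (by decide)).2
  have o_f4_f2 : g f4 f2 = 0 := (z0 f4 (by decide) (by decide)).2
  have o_e1_f3 : g e1 f3 = 0 := (z1 e1 (by decide) (by decide)).2
  have o_e2_f3 : g e2 f3 = 0 := (z1 e2 (by decide) (by decide)).2
  have o_e3_f3 : g e3 f3 = 0 := (z1 e3 (by decide) (by decide)).2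
  have o_e4_f3 : g e4 f3 = 0 := (z1 e4 (by decide) (by decide)).2
  have o_f1_f3 : g f1 f3 = 0 := (z6 f1 (by decide) (by decide)).2
  have o_f2_f3 : g f2 f3 = 0 := (z1 f2 (by decide) (by decide)).2
  have o_f4_f3 : g f4 f3 = 0 := (z1 f4 (by decide) (by decide)).2
  have o_e1_f4 : g e1 f4 = 0 := (z3 e1 (by decide) (by decide)).2
  have o_e2_f4 : g e2 f4 = 0 := (z3 e2 (by decide) (by decide)).2
  have o_e3_f4 : g e3 f4 = 0 := (z3 e3 (by decide) (by decide)).2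
  have o_e4_f4 : g e4 f4 = 0 := (z3 e4 (by decide) (by decide)).2
  have o_f1_f4 : g f1 f4 = 0 := (z8 f1 (by decide) (by decide)).2
  have o_f2_f4 : g f2 f4 = 0 := (z3 f2 (by decide) (by decide)).2
  have o_f3_f4 : g f3 f4 = 0 := (z3 f3 (by decide) (by decide)).2
  have p12 : g e1 e1 * g e2 e2 = 1 := by
    have := w23 e1 e2
    simpa [o_e2_e1, o_e1_e2] using this
  have p13 : g e1 e1 * g e3 e3 = 1 := by
    have := w22 e1 e3
    simpa [o_e3_e1, o_e1_e3] using this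
  have p23 : g e2 e2 * g e3 e3 = 1 := by
    have := w17 e2 e3
    simpa [o_e3_e2, o_e2_e3] using this
  have hcc : g e1 e1 * g e1 e1 = 1 := by
    linear_combination (-(g e1 e1 * g e1 e1)) * p23 + (g e1 e1 * g e3 e3) * p12 + p13
  have p1_e2 : g e1 e1 * g e2 e2 = 1 := by
    have := w23 e1 e2
    simpa [o_e2_e1, o_e1_e2] using this
  have q_e2 : g e2 e2 = g e1 e1 := by linear_combination (-(g e2 e2)) * hcc + g e1 e1 * p1_e2
  have p1_e3 : g e1 e1 * g e3 e3 = 1 := by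
    have := w22 e1 e3
    simpa [o_e3_e1, o_e1_e3] using this
  have q_e3 : g e3 e3 = g e1 e1 := by linear_combination (-(g e3 e3)) * hcc + g e1 e1 * p1_e3
  have p1_e4 : g e1 e1 * g e4 e4 = 1 := by
    have := w20 e1 e4
    simpa [o_e4_e1, o_e1_e4] using this
  have q_e4 : g e4 e4 = g e1 e1 := by linear_combination (-(g e4 e4)) * hcc + g e1 e1 * p1_e4
  have p1_f2 : g e1 e1 * g f2 f2 = 1 := by
    have := w18 e1 f2
    simpa [o_f2_e1, o_e1_f2] using this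
  have q_f2 : g f2 f2 = g e1 e1 := by linear_combination (-(g f2 f2)) * hcc + g e1 e1 * p1_f2
  have p1_f3 : g e1 e1 * g f3 f3 = 1 := by
    have := w19 e1 f3
    simpa [o_f3_e1, o_e1_f3] using this
  have q_f3 : g f3 f3 = g e1 e1 := by linear_combination (-(g f3 f3)) * hcc + g e1 e1 * p1_f3
  have p1_f4 : g e1 e1 * g f4 f4 = 1 := by
    have := w21 e1 f4
    simpa [o_f4_e1, o_e1_f4] using this
  have q_f4 : g f4 f4 = g e1 e1 := by linear_combination (-(g f4 f4)) * hcc + g e1 e1 * p1_f4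
  have pf1 : g f1 f1 * g e2 e2 = 1 := by
    have := w5 f1 e2
    simpa [o_e2_f1, o_f1_e2] using this
  have q_f1 : g f1 f1 = g e1 e1 := by
    rw [q_e2] at pf1
    linear_combination (-(g f1 f1)) * hcc + g e1 e1 * pf1
  ext i j
  revert i j
  simp only [I8_forall]
  simp [Matrix.one_apply, o_e2_e1, o_e3_e1, o_e4_e1, o_f1_e1, o_f2_e1, o_f3_e1, o_f4_e1, o_e1_e2, o_e3_e2, o_e4_e2, o_f1_e2, o_f2_e2, o_f3_e2, o_f4_e2, o_e1_e3, o_e2_e3, o_e4_e3, o_f1_e3, o_f2_e3, o_f3_e3, o_f4_e3, o_e1_e4, o_e2_e4, o_e3_e4, o_f1_e4, o_f2_e4, o_f3_e4, o_f4_e4, o_e1_f1, o_e2_f1, o_e3_f1, o_e4_f1, o_f2_f1, o_f3_f1, o_f4_f1, o_e1_f2, o_e2_f2, o_e3_f2, o_e4_f2, o_f1_f2, o_f3_f2, o_f4_f2, o_e1_f3, o_e2_f3, o_e3_f3, o_e4_f3, o_f1_f3, o_f2_f3, o_f4_f3, o_e1_f4, o_e2_f4, o_e3_f4, o_e4_f4, o_f1_f4, o_f2_f4, o_f3_f4, q_e2, q_e3, q_e4, q_f2, q_f3, q_f4, q_f1]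

lemma mul_single_ite (M : Matrix I8 I8 F) (a b : I8) (c : F) (i j : I8) :
    (M * Matrix.single a b c) i j = if j = b then M i a * c else 0 := by
  by_cases h : j = b
  · subst h
    rw [if_pos rfl, Matrix.mul_single_apply_same]
  · rw [if_neg h, Matrix.mul_single_apply_of_ne (hbj := h)]

lemma single_mul_ite (M : Matrix I8 I8 F) (a b : I8) (c : F) (i j : I8) :
    (Matrix.single a b c * M) i j = if i = a then c * M b j else 0 := by
  by_cases h : i = a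
  · subst h
    rw [if_pos rfl, Matrix.single_mul_apply_same]
  · rw [if_neg h, Matrix.single_mul_apply_of_ne (h := h)]

lemma mul_spMat (g : Matrix I8 I8 F) (l : Sp I8) (i j : I8) :
    (g * spMat F l) i j
      = (l.map fun x => if j = x.2.1 then g i x.1 * ((x.2.2 : ℤ) : F) else 0).sum := by
  induction l with
  | nil => simp [spMat]
  | cons x l ih =>
    rw [spMat_cons, Matrix.mul_add, Matrix.add_apply, ih, mul_single_ite]
    simp

lemma spMat_mul (g : Matrix I8 I8 F) (l : Sp I8) (i j : I8) :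
    (spMat F l * g) i j
      = (l.map fun x => if i = x.1 then ((x.2.2 : ℤ) : F) * g x.2.1 j else 0).sum := by
  induction l with
  | nil => simp [spMat]
  | cons x l ih =>
    rw [spMat_cons, Matrix.add_mul, Matrix.add_apply, ih, single_mul_ite]
    simp

lemma comm_entry (g : Matrix I8 I8 F) (n : ℕ) (h : g * X F n 1 = X F n 1 * g) (i j : I8) :
    (g * spMat F (Nl n)) i j = (spMat F (Nl n) * g) i j := by
  have e : X F n 1 = 1 + spMat F (Nl n) := by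
    simp [X]
  rw [e, mul_add, add_mul, mul_one, one_mul] at h
  have h' := add_left_cancel h
  exact congrFun (congrFun h' i) j

theorem scalar_of_comm {g : Matrix I8 I8 F} (h : ∀ n < 24, g * X F n 1 = X F n 1 * g) :
    g = g e1 e1 • (1 : Matrix I8 I8 F) := by
  have h18 := fun i j => comm_entry g 18 (h 18 (by norm_num)) i j
  have h14 := fun i j => comm_entry g 14 (h 14 (by norm_num)) i j
  have h13 := fun i j => comm_entry g 13 (h 13 (by norm_num)) i j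
  have h12 := fun i j => comm_entry g 12 (h 12 (by norm_num)) i j
  have h5 := fun i j => comm_entry g 5 (h 5 (by norm_num)) i j
  have h9 := fun i j => comm_entry g 9 (h 9 (by norm_num)) i j
  have h10 := fun i j => comm_entry g 10 (h 10 (by norm_num)) i j
  have h11 := fun i j => comm_entry g 11 (h 11 (by norm_num)) i j
  simp only [I8_forall] at h18 h14 h13 h12 h5 h9 h10 h11
  simp [mul_spMat, spMat_mul, Nl18, Nl14, Nl13, Nl12, Nl5, Nl9, Nl10, Nl11] at h18 h14 h13 h12 h5 h9 h10 h11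
  ext i j
  revert i j
  simp only [I8_forall]
  simp [Matrix.one_apply]
  grind

lemma rho_scalar (c : F) (hc : c * c = 1) : model.rho (c • (1 : Matrix I8 I8 F)) = 1 := by
  rw [← D4Model.rho_one (F := F)]
  ext j k
  simp only [Model.rho, Matrix.of_apply]
  have e : (c • (1 : Matrix I8 I8 F)) * model.T F k * (c • (1 : Matrix I8 I8 F))ᵀ
      = (c * c) • (1 * model.T F k * (1 : Matrix I8 I8 F)ᵀ) := by
    simp [smul_smul]
  rw [e, hc, one_smul]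

/-! ### the isomorphism -/

theorem main : Nonempty (↥(Lie.chevD4.group F) ≃* POmega F (quadFormPlus 4 F)) := by
  have hΩ := Omega_eq (F := F)
  let Ω : Subgroup (O8 F) := commutator (O8 F)
  let φ : ↥Ω →* GL Lie.chevD4.Idx F := (rhoHom F).comp Ω.subtype
  have hrange : φ.range = Lie.chevD4.group F := by
    rw [MonoidHom.range_comp, Subgroup.range_subtype, ← map_E0, ← hΩ]
  have hker : φ.ker = Subgroup.center ↥Ω := by
    ext z
    rw [MonoidHom.mem_ker, Subgroup.mem_center_iff]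
    constructor
    · intro hz w
      have h1 : model.rho (((z : O8 F) : GL I8 F) : Matrix I8 I8 F) = 1 :=
        congrArg (fun u : GL Lie.chevD4.Idx F => (u : Matrix Lie.chevD4.Idx Lie.chevD4.Idx F)) hz
      obtain ⟨c, hc⟩ : ∃ c : F, (((z : O8 F) : GL I8 F) : Matrix I8 I8 F) = c • 1 :=
        ⟨_, scalar_of_rho_one (isIso_O (z : O8 F)) h1⟩
      apply Subtype.ext
      apply O8_ext
      show (((w : O8 F) : GL I8 F) : Matrix I8 I8 F) * (((z : O8 F) : GL I8 F) : Matrix I8 I8 F)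
        = (((z : O8 F) : GL I8 F) : Matrix I8 I8 F) * (((w : O8 F) : GL I8 F) : Matrix I8 I8 F)
      rw [hc]
      simp
    · intro hz
      have hcomm : ∀ n < 24, (((z : O8 F) : GL I8 F) : Matrix I8 I8 F) * X F n 1
          = X F n 1 * (((z : O8 F) : GL I8 F) : Matrix I8 I8 F) := by
        intro n hn
        have hmem : XO n hn (1 : F) ∈ Ω := by
          show XO n hn (1 : F) ∈ commutator (O8 F)
          rw [hΩ]
          exact Subgroup.subset_closure ⟨n, hn, 1, rfl⟩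
        have h' := congrArg (fun u : ↥Ω => (((u : O8 F) : GL I8 F) : Matrix I8 I8 F))
          (hz ⟨XO n hn 1, hmem⟩)
        exact h'.symm
      obtain ⟨c, hc⟩ : ∃ c : F, (((z : O8 F) : GL I8 F) : Matrix I8 I8 F) = c • 1 :=
        ⟨_, scalar_of_comm hcomm⟩
      have hQ := (mem_O8 _).mp (z : O8 F).2 (vec8 1 0 0 0 1 0 0 0)
      rw [hc, Matrix.smul_mulVec, Matrix.one_mulVec, Q_eq, Q_eq] at hQ
      simp only [Pi.smul_apply, vec8_e1, vec8_e2, vec8_e3, vec8_e4, vec8_f1, vec8_f2, vec8_f3,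
        vec8_f4, smul_eq_mul] at hQ
      have hcc : c * c = 1 := by linear_combination hQ
      apply Units.ext
      show model.rho (((z : O8 F) : GL I8 F) : Matrix I8 I8 F) = 1
      rw [hc]
      exact rho_scalar c hcc
  exact ⟨((QuotientGroup.quotientMulEquivOfEq hker.symm).trans
    ((QuotientGroup.quotientKerEquivRange φ).trans (MulEquiv.subgroupCongr hrange))).symm⟩

end Cfsg.Agent.Lib.Helper5.D4Iso
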