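import Mathlib
import Cfsg.Agent.Lib.Helper74.DixStmt
import Cfsg.Agent.Lib.Helper47.Basic
import Cfsg.Agent.Lib.Helper2.Split

/-!
# S4472 / GRPA2 (helper5)

Frattini argument: `K` a complement of `U = O_p(G)` in the normal subgroup `M`; then
`G = U N_G(K)`, and a Sylow `p`-subgroup `P₀` of `N_G(K)` satisfies
`ν_p [G : U] ≤ ν_p [P₀ : P₀ ∩ C_G(K)]`.
-/

set_option autoImplicit false

universe u

open scoped Pointwise

namespace Cfsg.Agent.Lib.Helper5.DixGRPA2

open Cfsg Cfsg.Agent.Lib.Helper74.DixStmt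

theorem main : GrpA2.{u} := by
  intro G _ _ p _ M K hMn hUM hKM hKp hcard hcent
  classical
  have hpP : p.Prime := Fact.out
  have hUn : (pCore p G).Normal := Cfsg.Agent.Lib.Helper47.Basic.pCore_normal p G
  have hUp : IsPGroup p (pCore p G) := Cfsg.Agent.Lib.Helper47.Basic.pCore_isPGroup p G
  obtain ⟨n, hn⟩ := IsPGroup.iff_card.mp hUp
  have hcopUK : (Nat.card (pCore p G)).Coprime (Nat.card K) := by
    rw [hn]
    exact Nat.Coprime.pow_left n hKp.symm
  have hUK : pCore p G ⊓ K = ⊥ := (Subgroup.disjoint_of_coprime_natCard hcopUK).eq_bot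
  have hUsolv : Group.IsSolvable ↥(pCore p G) := by
    have := hUp.isNilpotent
    infer_instance
  -- Frattini argument
  have hfrat : ∀ g : G, ∃ u ∈ pCore p G, u * g ∈ Subgroup.normalizer (K : Set G) := by
    intro g
    have hcg : Nat.card ↥(MulAut.conj g • K) = Nat.card ↥K :=
      (Nat.card_congr (Subgroup.equivSMul (MulAut.conj g) K).toEquiv).symm
    have h1 : MulAut.conj g • K ≤ M := by
      intro x hx
      rw [Subgroup.mem_pointwise_smul_iff_inv_smul_mem] at hx
      have hx' : (MulAut.conj g)⁻¹ • x ∈ M := hKM hx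
      have e : x = g * ((MulAut.conj g)⁻¹ • x) * g⁻¹ := by
        rw [MulAut.smul_def, MulAut.conj_inv_apply]
        group
      rw [e]
      exact hMn.conj_mem _ hx' g
    obtain ⟨m, hm, hmK⟩ := Cfsg.Agent.Lib.Helper2.Split.conj_compl (pCore p G) M
      (MulAut.conj g • K) K hUM
      (by rw [Subgroup.normalizer_eq_top]; exact le_top) hUsolv h1 hKM
      (Subgroup.disjoint_of_coprime_natCard (by rw [hcg]; exact hcopUK)).eq_bot hUK
      (by rw [hcg]; exact hcard) hcard (by rw [hcg]; exact hcopUK)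
    refine ⟨m, hm, ?_⟩
    rw [smul_smul, ← map_mul] at hmK
    rw [Subgroup.mem_normalizer_iff]
    intro h
    have e : (m * g) * h * (m * g)⁻¹ = MulAut.conj (m * g) • h := by
      rw [MulAut.smul_def, MulAut.conj_apply]
    rw [e]
    constructor
    · intro hh
      rw [← hmK]
      exact Subgroup.smul_mem_pointwise_smul_iff.mpr hh
    · intro hh
      rw [← hmK] at hh
      exact Subgroup.smul_mem_pointwise_smul_iff.mp hh
  have hsup : pCore p G ⊔ Subgroup.normalizer (K : Set G) = ⊤ := by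
    rw [eq_top_iff]
    intro g _
    obtain ⟨u, hu, hug⟩ := hfrat g
    have e : g = u⁻¹ * (u * g) := by group
    rw [e]
    exact Subgroup.mul_mem_sup ((pCore p G).inv_mem hu) hug
  -- the Sylow subgroup
  obtain ⟨P⟩ : Nonempty (Sylow p ↥(Subgroup.normalizer (K : Set G))) := inferInstance
  set N : Subgroup G := Subgroup.normalizer (K : Set G) with hN
  set P₀ : Subgroup G := (P : Subgroup ↥N).map N.subtype with hP₀
  have hP₀p : IsPGroup p P₀ := P.isPGroup'.map N.subtype
  have hP₀N : P₀ ≤ N := Subgroup.map_subtype_le _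
  refine ⟨P₀, hP₀p, hP₀N, ?_⟩
  have hP₀card : Nat.card ↥P₀ = p ^ (Nat.card ↥N).factorization p := by
    rw [hP₀, Subgroup.card_map_of_injective N.subtype_injective, P.card_eq_multiplicity]
  -- `P₀ ⊓ C(K) ≤ U ⊓ N`
  have hD : P₀ ⊓ Subgroup.centralizer (K : Set G) ≤ pCore p G ⊓ N := by
    intro x hx
    obtain ⟨hx1, hx2⟩ := Subgroup.mem_inf.mp hx
    refine Subgroup.mem_inf.mpr ⟨?_, hP₀N hx1⟩
    apply hcent x
    · obtain ⟨j, hj⟩ := hP₀p ⟨x, hx1⟩
      exact ⟨j, by simpa using congrArg Subtype.val hj⟩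
    · intro k hk
      exact ((Subgroup.mem_centralizer_iff.mp hx2) k hk).symm
  -- index computations
  have hidx : (pCore p G).index * Nat.card ↥(pCore p G ⊓ N) = Nat.card ↥N := by
    have h1 : (pCore p G).index = ((pCore p G ⊓ N).subgroupOf N).index := by
      rw [← Subgroup.relIndex_top_right, ← hsup, Subgroup.relIndex_sup_left,
        ← Subgroup.inf_relIndex_right]
      rfl
    have h2 : Nat.card ↥((pCore p G ⊓ N).subgroupOf N) = Nat.card ↥(pCore p G ⊓ N) :=
      Nat.card_congr (Subgroup.subgroupOfEquivOfLe inf_le_right).toEquiv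
    rw [h1, ← h2, mul_comm]
    exact Subgroup.card_mul_index _
  have hrel : ((P₀ ⊓ Subgroup.centralizer (K : Set G)).relIndex P₀) *
      Nat.card ↥(P₀ ⊓ Subgroup.centralizer (K : Set G)) = Nat.card ↥P₀ := by
    have h2 : Nat.card ↥((P₀ ⊓ Subgroup.centralizer (K : Set G)).subgroupOf P₀)
        = Nat.card ↥(P₀ ⊓ Subgroup.centralizer (K : Set G)) :=
      Nat.card_congr (Subgroup.subgroupOfEquivOfLe inf_le_left).toEquiv
    rw [← h2, mul_comm]
    exact Subgroup.card_mul_index _
  have hdvd : Nat.card ↥(P₀ ⊓ Subgroup.centralizer (K : Set G)) ∣ Nat.card ↥(pCore p G ⊓ N) :=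
    Subgroup.card_dvd_of_le hD
  have hN0 : Nat.card ↥N ≠ 0 := Nat.card_pos.ne'
  have hUN0 : Nat.card ↥(pCore p G ⊓ N) ≠ 0 := Nat.card_pos.ne'
  have hD0 : Nat.card ↥(P₀ ⊓ Subgroup.centralizer (K : Set G)) ≠ 0 := Nat.card_pos.ne'
  have hi0 : (pCore p G).index ≠ 0 := Subgroup.index_ne_zero_of_finite
  have hr0 : (P₀ ⊓ Subgroup.centralizer (K : Set G)).relIndex P₀ ≠ 0 := by
    intro h0
    rw [h0, zero_mul] at hrel
    exact Nat.card_pos.ne' hrel.symm
  have e1 := congrArg (fun t => t.factorization p) hidx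
  have e2 := congrArg (fun t => t.factorization p) hrel
  simp only [Nat.factorization_mul hi0 hUN0, Nat.factorization_mul hr0 hD0,
    Finsupp.add_apply] at e1 e2
  have e3 : (Nat.card ↥P₀).factorization p = (Nat.card ↥N).factorization p := by
    rw [hP₀card, Nat.Prime.factorization_pow hpP, Finsupp.single_eq_same]
  have e4 : (Nat.card ↥(P₀ ⊓ Subgroup.centralizer (K : Set G))).factorization p
      ≤ (Nat.card ↥(pCore p G ⊓ N)).factorization p :=
    (Nat.factorization_le_iff_dvd hD0 hUN0).mpr hdvd p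
  omega

end Cfsg.Agent.Lib.Helper5.DixGRPA2
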