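import Mathlib
import Cfsg.Prelude
import Cfsg.Agent.Lib.Helper44.OMat2
import Cfsg.Agent.Lib.Helper44.NegPairs

set_option autoImplicit false
open Cfsg

namespace Cfsg.Agent.Lib.Helper5.E6Cox

open Module QuadraticMap Matrix
open Cfsg.Agent.Lib.Helper44.QSpace Cfsg.Agent.Lib.Helper44.OGroup Cfsg.Agent.Lib.Helper44.OMat
open Cfsg.Agent.Lib.Helper44.Omega2 Cfsg.Agent.Lib.Helper44.NegPairs
open Cfsg.Agent.Lib.Helper44.Spinor
open scoped commutatorElement

section coxeter

variable {F : Type*} [Field F] {V : Type*} [AddCommGroup V] [Module F V]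

theorem conj_refl (Q : QuadraticForm F V) (g : O Q) (v : V) :
    g * refl Q v * g⁻¹ = refl Q ((g : V ≃ₗ[F] V) v) :=
  Subtype.ext (conj_reflE g.2 v)

theorem cube_of_braid {G : Type*} [Group G] (a b : G) (ha : a * a = 1) (hb : b * b = 1)
    (h : a * b * a = b * a * b) : (a * b) ^ 3 = 1 := by
  have e : (a * b) ^ 3 = (a * b * a) * (b * a * b) := by
    rw [pow_succ, pow_two]
    group
  rw [e, h]
  calc b * a * b * (b * a * b) = b * a * (b * b) * a * b := by group
    _ = b * (a * a) * b := by rw [hb]; group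
    _ = 1 := by rw [ha, mul_one, hb]

theorem E6_off : ∀ i j : Fin 6, i ≠ j → CoxeterMatrix.E₆ i j = 2 ∨ CoxeterMatrix.E₆ i j = 3 := by
  intro i j
  fin_cases i <;> fin_cases j <;> simp [CoxeterMatrix.E₆]

/-- adjacency in the diagram -/
def adj : Fin 6 → Fin 6 → Bool :=
  fun i j => (i.val, j.val) ∈
    [(0, 2), (2, 0), (1, 3), (3, 1), (2, 3), (3, 2), (3, 4), (4, 3), (4, 5), (5, 4)]

theorem E6_adj : ∀ i j : Fin 6, CoxeterMatrix.E₆ i j = 3 ↔ adj i j = true := by
  intro i j
  fin_cases i <;> fin_cases j <;> simp [CoxeterMatrix.E₆, adj]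

/-- reflections in a family of vectors with the `E₆` Gram pattern satisfy the Coxeter relations -/
theorem liftable (Q : QuadraticForm F V) (u : Fin 6 → V) (c : F) (hc : c ≠ 0)
    (hQ : ∀ i, Q (u i) = c)
    (hP : ∀ i j, i ≠ j → polar Q (u i) (u j) = if CoxeterMatrix.E₆ i j = 3 then -c else 0) :
    CoxeterMatrix.E₆.IsLiftable (fun i => refl Q (u i)) := by
  intro i j
  by_cases hij : i = j
  · subst hij
    rw [CoxeterMatrix.diagonal, pow_one]
    exact refl_mul_self Q (u i)
  · rcases E6_off i j hij with h2 | h3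
    · rw [h2]
      have hp := hP i j hij
      rw [if_neg (by rw [h2]; norm_num)] at hp
      have h1 : refl Q (u i) * refl Q (u j) * (refl Q (u i))⁻¹ = refl Q (u j) := by
        rw [conj_refl]
        congr 1
        exact reflE_of_orth (by rw [polar_comm]; exact hp)
      rw [refl_inv] at h1
      rw [pow_two]
      calc refl Q (u i) * refl Q (u j) * (refl Q (u i) * refl Q (u j))
          = (refl Q (u i) * refl Q (u j) * refl Q (u i)) * refl Q (u j) := by group
        _ = 1 := by rw [h1, refl_mul_self]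
    · rw [h3]
      have hp := hP i j hij
      rw [if_pos h3] at hp
      have hcc : c⁻¹ * -c = -1 := by field_simp
      apply cube_of_braid _ _ (refl_mul_self Q _) (refl_mul_self Q _)
      have h1 : refl Q (u i) * refl Q (u j) * (refl Q (u i))⁻¹ = refl Q (u i + u j) := by
        rw [conj_refl]
        congr 1
        show reflE Q (u i) (u j) = u i + u j
        rw [reflE_apply, polar_comm, hp, hQ, hcc, neg_one_smul]
        abel
      have h2 : refl Q (u j) * refl Q (u i) * (refl Q (u j))⁻¹ = refl Q (u i + u j) := by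
        rw [conj_refl]
        congr 1
        show reflE Q (u j) (u i) = u i + u j
        rw [reflE_apply, hp, hQ, hcc, neg_one_smul]
        abel
      rw [refl_inv] at h1 h2
      rw [h1, h2]

/-- the homomorphism from the Coxeter group of type `E₆` -/
noncomputable def cox (Q : QuadraticForm F V) (u : Fin 6 → V) (c : F) (hc : c ≠ 0)
    (hQ : ∀ i, Q (u i) = c)
    (hP : ∀ i j, i ≠ j → polar Q (u i) (u j) = if CoxeterMatrix.E₆ i j = 3 then -c else 0) :
    CoxeterMatrix.E₆.Group →* O Q :=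
  CoxeterMatrix.E₆.toCoxeterSystem.lift ⟨fun i => refl Q (u i), liftable Q u c hc hQ hP⟩

theorem cox_simple (Q : QuadraticForm F V) (u : Fin 6 → V) (c : F) (hc : c ≠ 0)
    (hQ : ∀ i, Q (u i) = c)
    (hP : ∀ i j, i ≠ j → polar Q (u i) (u j) = if CoxeterMatrix.E₆ i j = 3 then -c else 0)
    (i : Fin 6) : cox Q u c hc hQ hP (CoxeterMatrix.E₆.simple i) = refl Q (u i) :=
  CoxeterMatrix.E₆.toCoxeterSystem.lift_apply_simple (liftable Q u c hc hQ hP) i

theorem reflE_adj (Q : QuadraticForm F V) (u : Fin 6 → V) (c : F) (hc : c ≠ 0)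
    (hQ : ∀ i, Q (u i) = c)
    (hP : ∀ i j, i ≠ j → polar Q (u i) (u j) = if CoxeterMatrix.E₆ i j = 3 then -c else 0)
    (i j : Fin 6) (hij : i ≠ j) (h3 : CoxeterMatrix.E₆ i j = 3) :
    reflE Q (u i) (u j) = u i + u j := by
  have hp := hP i j hij
  rw [if_pos h3] at hp
  have hcc : c⁻¹ * -c = -1 := by field_simp
  rw [reflE_apply, polar_comm, hp, hQ, hcc, neg_one_smul]
  abel

theorem reflE_nadj (Q : QuadraticForm F V) (u : Fin 6 → V) (c : F)
    (hP : ∀ i j, i ≠ j → polar Q (u i) (u j) = if CoxeterMatrix.E₆ i j = 3 then -c else 0)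
    (i j : Fin 6) (hij : i ≠ j) (h3 : CoxeterMatrix.E₆ i j ≠ 3) :
    reflE Q (u i) (u j) = u j := by
  have hp := hP i j hij
  rw [if_neg h3] at hp
  exact reflE_of_orth (by rw [polar_comm]; exact hp)

/-- the image of a commutator of two adjacent simple reflections is not trivial -/
theorem cox_comm_ne_one (Q : QuadraticForm F V) (u : Fin 6 → V) (c : F) (hc : c ≠ 0)
    (hQ : ∀ i, Q (u i) = c)
    (hP : ∀ i j, i ≠ j → polar Q (u i) (u j) = if CoxeterMatrix.E₆ i j = 3 then -c else 0) :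
    cox Q u c hc hQ hP ⁅CoxeterMatrix.E₆.simple 2, CoxeterMatrix.E₆.simple 0⁆ ≠ 1 := by
  intro h
  rw [map_commutatorElement, cox_simple, cox_simple, commutatorElement_eq_one_iff_commute] at h
  have h1 := congrArg (fun g : O Q => (g : V ≃ₗ[F] V) (u 3)) h.eq
  have e1 : reflE Q (u 2) (reflE Q (u 0) (u 3)) = reflE Q (u 0) (reflE Q (u 2) (u 3)) := h1
  rw [reflE_nadj Q u c hP 0 3 (by decide) (by simp [CoxeterMatrix.E₆]),
    reflE_adj Q u c hc hQ hP 2 3 (by decide) (by simp [CoxeterMatrix.E₆]), map_add,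
    reflE_nadj Q u c hP 0 3 (by decide) (by simp [CoxeterMatrix.E₆]),
    reflE_adj Q u c hc hQ hP 0 2 (by decide) (by simp [CoxeterMatrix.E₆])] at e1
  have e2 : u 0 = 0 := by
    have e3 : u 2 + u 3 = u 0 + (u 2 + u 3) := e1.trans (add_assoc _ _ _)
    exact (add_eq_right.mp e3.symm)
  have e4 := hQ 0
  rw [e2, map_zero] at e4
  exact hc e4.symm

end coxeter

section mod2

/-- index type of the six-dimensional form -/
abbrev I6 : Type := (Fin 2 ⊕ Fin 2) ⊕ Fin 2

/-- a vector from its six coordinates -/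
def mk6 {R : Type*} (a b c d e f : R) : I6 → R
  | Sum.inl (Sum.inl i) => ![a, c] i
  | Sum.inl (Sum.inr i) => ![b, d] i
  | Sum.inr i => ![e, f] i

theorem exists_mk6 {R : Type*} (v : I6 → R) : ∃ a b c d e f, v = mk6 a b c d e f := by
  refine ⟨v (Sum.inl (Sum.inl 0)), v (Sum.inl (Sum.inr 0)), v (Sum.inl (Sum.inl 1)),
    v (Sum.inl (Sum.inr 1)), v (Sum.inr 0), v (Sum.inr 1), ?_⟩
  funext k
  rcases k with (k | k) | k <;> fin_cases k <;> rfl

theorem mk6_add {R : Type*} [Add R] (a b c d e f a' b' c' d' e' f' : R) :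
    mk6 a b c d e f + mk6 a' b' c' d' e' f' =
      mk6 (a + a') (b + b') (c + c') (d + d') (e + e') (f + f') := by
  funext k
  rcases k with (k | k) | k <;> fin_cases k <;> rfl

/-- the minus-type form over the field with two elements -/
noncomputable abbrev Q2 : QuadraticForm (ZMod 2) (I6 → ZMod 2) := minusQ 2 (ZMod 2) 1 1

theorem hab2 : ∀ z₁ z₂ : ZMod 2, z₁ ^ 2 + 1 * z₁ * z₂ + 1 * z₂ ^ 2 = 0 → z₁ = 0 ∧ z₂ = 0 := by
  decide

/-- the form as a function -/
abbrev q2 : (I6 → ZMod 2) → ZMod 2 := Cfsg.quadFormMinus 2 (ZMod 2) 1 1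

theorem Q2_apply (v : I6 → ZMod 2) : Q2 v = q2 v := rfl

theorem polar_Q2 (x y : I6 → ZMod 2) : polar Q2 x y = q2 (x + y) - q2 x - q2 y := rfl

theorem q2_mk6 (a b c d e f : ZMod 2) :
    q2 (mk6 a b c d e f) = a * b + c * d + (e ^ 2 + e * f + f ^ 2) := by
  simp [q2, Cfsg.quadFormMinus, mk6, Fin.sum_univ_two]

theorem polar_mk6 (a b c d e f a' b' c' d' e' f' : ZMod 2) :
    polar Q2 (mk6 a b c d e f) (mk6 a' b' c' d' e' f') =
      a * b' + a' * b + c * d' + c' * d + e * f' + e' * f := by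
  rw [polar_Q2, mk6_add, q2_mk6, q2_mk6, q2_mk6]
  have h2 : ∀ x : ZMod 2, x + x = 0 := by decide
  linear_combination (e * e') * h2 1 + (f * f') * h2 1

/-- the basic closure step, in coordinates -/
theorem step (H : Subgroup (O Q2)) (a b c d e f a' b' c' d' e' f' a'' b'' c'' d'' e'' f'' : ZMod 2)
    (hx : a * b + c * d + (e ^ 2 + e * f + f ^ 2) = 1)
    (hxy : a * b' + a' * b + c * d' + c' * d + e * f' + e' * f = 1)
    (ha : a + a' = a'') (hb : b + b' = b'') (hc : c + c' = c'') (hd : d + d' = d'')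
    (he : e + e' = e'') (hf : f + f' = f'')
    (hxH : refl Q2 (mk6 a b c d e f) ∈ H) (hyH : refl Q2 (mk6 a' b' c' d' e' f') ∈ H) :
    refl Q2 (mk6 a'' b'' c'' d'' e'' f'') ∈ H := by
  have h1 : refl Q2 (mk6 a b c d e f) * refl Q2 (mk6 a' b' c' d' e' f') *
      (refl Q2 (mk6 a b c d e f))⁻¹ = refl Q2 (mk6 a'' b'' c'' d'' e'' f'') := by
    rw [conj_refl]
    congr 1
    show reflE Q2 (mk6 a b c d e f) (mk6 a' b' c' d' e' f') = _
    rw [reflE_apply, polar_comm, polar_mk6, hxy, Q2_apply, q2_mk6, hx, inv_one, one_mul, one_smul,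
      ← ha, ← hb, ← hc, ← hd, ← he, ← hf, ← mk6_add]
    funext k
    have : ∀ a b : ZMod 2, b - a = a + b := by decide
    exact this _ _
  rw [← h1]
  exact H.mul_mem (H.mul_mem hxH hyH) (H.inv_mem hxH)

end mod2

end Cfsg.Agent.Lib.Helper5.E6Cox
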