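import Mathlib
import Cfsg.Agent.Lib.Helper45.EPStmt
import Cfsg.Agent.Lib.Helper4.GenCount

/-!
# S5988 piece FIXCONGE (call by helper45): the fixed point congruence for an isometry of order
`r` of the plus form acting on the elliptic `m`-spaces (port of `Helper4.GenCount.fixcong` to an
arbitrary predicate on subspaces that is stable under the isometry).
-/

set_option autoImplicit false

namespace Cfsg.Agent.Lib.Helper5.EPFIXCONGE

open Cfsg.Agent.Lib.Helper45.EPStmt
open Cfsg.Agent.Lib.Helper4.GenCount (glEquiv glEquiv_coe glEquiv_apply)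
open Cfsg.Agent.Lib.Helper94.OPStmt (P)

universe u

/-- the fixed point congruence for a matrix of order dividing `r` acting on the subspaces
satisfying a predicate `M` which it preserves -/
theorem fixcong_pred {F : Type u} [Field F] [Fintype F] {ι : Type} [Fintype ι] [DecidableEq ι]
    (M : Submodule F (ι → F) → Prop) (r : ℕ) [Fact r.Prime]
    (x : Matrix.GeneralLinearGroup ι F)
    (hM : ∀ W, M W → M (W.map (Matrix.toLin' (x : Matrix ι ι F)))) (hxr : x ^ r = 1) :
    Nat.card {W : Submodule F (ι → F) // M W} ≡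
      Nat.card {W : Submodule F (ι → F) //
        M W ∧ W.map (Matrix.toLin' (x : Matrix ι ι F)) ≤ W} [MOD r] := by
  classical
  have hfin : Finite (Submodule F (ι → F)) := inferInstance
  let f : Function.End {W : Submodule F (ι → F) // M W} := fun s =>
    ⟨s.1.map (Matrix.toLin' (x : Matrix ι ι F)), hM s.1 s.2⟩
  have hf1 : ∀ s, (f s).1 = s.1.map (Matrix.toLin' (x : Matrix ι ι F)) := fun s => rfl
  have hpow : ∀ (k : ℕ) (s : {W : Submodule F (ι → F) // M W}),
      ((f ^ k) s).1 = s.1.map
        (Matrix.toLin' ((x ^ k : Matrix.GeneralLinearGroup ι F) : Matrix ι ι F)) := by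
    intro k
    induction k with
    | zero =>
      intro s
      rw [pow_zero, pow_zero, Units.val_one, Matrix.toLin'_one, Submodule.map_id]
      rfl
    | succ k ih =>
      intro s
      rw [pow_succ', pow_succ', Units.val_mul, Matrix.toLin'_mul, Submodule.map_comp, ← ih s]
      rfl
  have hfr : f ^ r ^ 1 = 1 := by
    rw [pow_one]
    funext s
    apply Subtype.ext
    rw [hpow, hxr, Units.val_one, Matrix.toLin'_one, Submodule.map_id]
    rfl
  have hmod := Equiv.Perm.card_fixedPoints_modEq (f := f) (p := r) (n := 1) hfr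
  have hfix_iff : ∀ s : {W : Submodule F (ι → F) // M W},
      f s = s ↔ s.1.map (Matrix.toLin' (x : Matrix ι ι F)) ≤ s.1 := by
    intro s
    constructor
    · intro h
      have h1 : (f s).1 = s.1 := congrArg Subtype.val h
      rw [hf1] at h1
      exact le_of_eq h1
    · intro h
      apply Subtype.ext
      rw [hf1]
      apply Submodule.eq_of_le_of_finrank_eq h
      rw [← glEquiv_coe]
      exact LinearEquiv.finrank_map_eq (glEquiv x) s.1
  have hequiv : Nat.card (Function.fixedPoints f) =
      Nat.card {W : Submodule F (ι → F) //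
        M W ∧ W.map (Matrix.toLin' (x : Matrix ι ι F)) ≤ W} := by
    apply Nat.card_congr
    exact
      { toFun := fun s => ⟨s.1.1, s.1.2, (hfix_iff s.1).1 s.2⟩
        invFun := fun W => ⟨⟨W.1, W.2.1⟩, (hfix_iff ⟨W.1, W.2.1⟩).2 W.2.2⟩
        left_inv := fun s => rfl
        right_inv := fun W => rfl }
  rw [← hequiv, Nat.card_eq_fintype_card, Nat.card_eq_fintype_card]
  exact hmod

/-- an isometry maps elliptic `m`-spaces to elliptic `m`-spaces -/
theorem memE_map {F : Type u} [Field F] (d m : ℕ)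
    (e : (P d → F) ≃ₗ[F] (P d → F))
    (he : ∀ v, Cfsg.quadFormPlus d F (e v) = Cfsg.quadFormPlus d F v)
    (W : Submodule F (P d → F)) (hW : MemE d F m W) :
    MemE d F m (W.map (e : (P d → F) →ₗ[F] (P d → F))) := by
  have hpolar : ∀ a b, QuadraticMap.polar (Cfsg.quadFormPlus d F) (e a) (e b) =
      QuadraticMap.polar (Cfsg.quadFormPlus d F) a b := by
    intro a b
    simp only [QuadraticMap.polar, ← map_add, he]
  have hfr : Module.finrank F ↥(W.map (e : (P d → F) →ₗ[F] (P d → F))) = Module.finrank F ↥W :=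
    LinearEquiv.finrank_map_eq e W
  refine ⟨hfr.trans hW.1, ?_, ?_⟩
  · rintro x ⟨w, hw, rfl⟩ hx
    have hw0 : w ≠ 0 := by
      rintro rfl
      apply hx
      simp
    obtain ⟨⟨a, ha, ha'⟩, ⟨b, hb, hb'⟩⟩ := hW.2.1 w hw hw0
    refine ⟨⟨e a, ⟨a, ha, rfl⟩, ?_⟩, ⟨e b, ⟨b, hb, rfl⟩, ?_⟩⟩
    · show QuadraticMap.polar (Cfsg.quadFormPlus d F) (e a) (e w) ≠ 0
      rw [hpolar]
      exact ha'
    · show QuadraticMap.polar (Cfsg.quadFormPlus d F) (e w) (e b) ≠ 0
      rw [hpolar]
      exact hb'
  · rintro ⟨U, hUW, hUts, hUdim⟩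
    apply hW.2.2
    refine ⟨U.map (e.symm : (P d → F) →ₗ[F] (P d → F)), ?_, ?_, ?_⟩
    · rintro y ⟨u, hu, rfl⟩
      obtain ⟨w, hw, hwu⟩ := hUW hu
      have : (e.symm : (P d → F) →ₗ[F] (P d → F)) u = w := by
        rw [← hwu]
        show e.symm (e w) = w
        exact e.symm_apply_apply w
      rw [this]
      exact hw
    · rintro y ⟨u, hu, rfl⟩
      have h1 : Cfsg.quadFormPlus d F (e (e.symm u)) = Cfsg.quadFormPlus d F (e.symm u) :=
        he (e.symm u)
      rw [e.apply_symm_apply] at h1
      show Cfsg.quadFormPlus d F (e.symm u) = 0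
      rw [← h1]
      exact hUts u hu
    · have h2 : Module.finrank F ↥(U.map (e.symm : (P d → F) →ₗ[F] (P d → F))) =
          Module.finrank F ↥U := LinearEquiv.finrank_map_eq e.symm U
      rw [h2, hUdim, hfr]

theorem main : Cfsg.Agent.Lib.Helper45.EPStmt.FixCongE.{u} := by
  intro F _ _ d m r _ x hx hxr
  have hiso : ∀ v, Cfsg.quadFormPlus d F (glEquiv x v) = Cfsg.quadFormPlus d F v := by
    intro v
    rw [glEquiv_apply]
    exact hx v v
  exact fixcong_pred (MemE d F m) r x
    (fun W hW => memE_map d m (glEquiv x) hiso W hW) hxr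

end Cfsg.Agent.Lib.Helper5.EPFIXCONGE
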