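import Mathlib
import Cfsg.Agent.Lib.Helper41.EMStmt
import Cfsg.Agent.Lib.Helper5.EPFIXCONGE

/-!
# S5990 piece FIXCONGE (call by helper41): the fixed point congruence for an isometry of order
`r` of the minus form acting on the elliptic `m`-spaces.  `ell_map` is the form-free statement
(any `Q : (ι → F) → F`): an isometry maps nondegenerate non-plus `m`-spaces to such spaces;
the counting is `Helper5.EPFIXCONGE.fixcong_pred`.
-/

set_option autoImplicit false

namespace Cfsg.Agent.Lib.Helper5.EMFIXCONGE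

open Cfsg.Agent.Lib.Helper41.EMStmt
open Cfsg.Agent.Lib.Helper4.GenCount (glEquiv glEquiv_coe glEquiv_apply)
open Cfsg.Agent.Lib.Helper45.OMiStmt (M Aniso StabM)

universe u

/-- form-free: an isometry maps nondegenerate `m`-spaces that are not of plus type to such -/
theorem ell_map {F : Type u} [Field F] {ι : Type} (Q : (ι → F) → F) (m : ℕ)
    (e : (ι → F) ≃ₗ[F] (ι → F)) (he : ∀ v, Q (e v) = Q v)
    (W : Submodule F (ι → F))
    (hW : Module.finrank F ↥W = m ∧ Cfsg.Geo.IsNondegenerateOn (QuadraticMap.polar Q) W ∧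
      ¬ Cfsg.Geo.IsPlusTypeOn Q W) :
    Module.finrank F ↥(W.map (e : (ι → F) →ₗ[F] (ι → F))) = m ∧
      Cfsg.Geo.IsNondegenerateOn (QuadraticMap.polar Q) (W.map (e : (ι → F) →ₗ[F] (ι → F))) ∧
      ¬ Cfsg.Geo.IsPlusTypeOn Q (W.map (e : (ι → F) →ₗ[F] (ι → F))) := by
  have hpolar : ∀ a b, QuadraticMap.polar Q (e a) (e b) = QuadraticMap.polar Q a b := by
    intro a b
    simp only [QuadraticMap.polar, ← map_add, he]
  have hfr : Module.finrank F ↥(W.map (e : (ι → F) →ₗ[F] (ι → F))) = Module.finrank F ↥W :=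
    LinearEquiv.finrank_map_eq e W
  refine ⟨hfr.trans hW.1, ?_, ?_⟩
  · rintro x ⟨w, hw, rfl⟩ hx
    have hw0 : w ≠ 0 := by
      rintro rfl
      apply hx
      simp
    obtain ⟨⟨a, ha, ha'⟩, ⟨b, hb, hb'⟩⟩ := hW.2.1 w hw hw0
    refine ⟨⟨e a, ⟨a, ha, rfl⟩, ?_⟩, ⟨e b, ⟨b, hb, rfl⟩, ?_⟩⟩
    · show QuadraticMap.polar Q (e a) (e w) ≠ 0
      rw [hpolar]
      exact ha'
    · show QuadraticMap.polar Q (e w) (e b) ≠ 0
      rw [hpolar]
      exact hb'
  · rintro ⟨U, hUW, hUts, hUdim⟩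
    apply hW.2.2
    refine ⟨U.map (e.symm : (ι → F) →ₗ[F] (ι → F)), ?_, ?_, ?_⟩
    · rintro y ⟨u, hu, rfl⟩
      obtain ⟨w, hw, hwu⟩ := hUW hu
      have : (e.symm : (ι → F) →ₗ[F] (ι → F)) u = w := by
        rw [← hwu]
        show e.symm (e w) = w
        exact e.symm_apply_apply w
      rw [this]
      exact hw
    · rintro y ⟨u, hu, rfl⟩
      have h1 : Q (e (e.symm u)) = Q (e.symm u) := he (e.symm u)
      rw [e.apply_symm_apply] at h1
      show Q (e.symm u) = 0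
      rw [← h1]
      exact hUts u hu
    · have h2 : Module.finrank F ↥(U.map (e.symm : (ι → F) →ₗ[F] (ι → F))) =
          Module.finrank F ↥U := LinearEquiv.finrank_map_eq e.symm U
      rw [h2, hUdim, hfr]

/-- form-free fixed point congruence on the nondegenerate non-plus `m`-spaces -/
theorem fixcong_ell {F : Type u} [Field F] [Fintype F] {ι : Type} [Fintype ι] [DecidableEq ι]
    (Q : (ι → F) → F) (m : ℕ) (r : ℕ) [Fact r.Prime]
    (x : Matrix.GeneralLinearGroup ι F) (hx : x ∈ Cfsg.isometryGroup F Q) (hxr : x ^ r = 1) :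
    Nat.card {W : Submodule F (ι → F) // Module.finrank F ↥W = m ∧
        Cfsg.Geo.IsNondegenerateOn (QuadraticMap.polar Q) W ∧ ¬ Cfsg.Geo.IsPlusTypeOn Q W} ≡
      Nat.card {W : Submodule F (ι → F) // (Module.finrank F ↥W = m ∧
        Cfsg.Geo.IsNondegenerateOn (QuadraticMap.polar Q) W ∧ ¬ Cfsg.Geo.IsPlusTypeOn Q W) ∧
        W.map (Matrix.toLin' (x : Matrix ι ι F)) ≤ W} [MOD r] := by
  have hiso : ∀ v, Q (glEquiv x v) = Q v := by
    intro v
    rw [glEquiv_apply]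
    exact hx v v
  exact Cfsg.Agent.Lib.Helper5.EPFIXCONGE.fixcong_pred
    (fun W : Submodule F (ι → F) => Module.finrank F ↥W = m ∧
      Cfsg.Geo.IsNondegenerateOn (QuadraticMap.polar Q) W ∧ ¬ Cfsg.Geo.IsPlusTypeOn Q W) r x
    (fun W hW => ell_map Q m (glEquiv x) hiso W hW) hxr

theorem main : Cfsg.Agent.Lib.Helper41.EMStmt.FixCongE.{u} := by
  intro F _ _ a₀ b₀ _ d m r _ x hx hxr
  exact fixcong_ell (Cfsg.quadFormMinus (d - 1) F a₀ b₀) m r x hx hxr

end Cfsg.Agent.Lib.Helper5.EMFIXCONGE
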