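import Mathlib
import Cfsg.Agent.Lib.Helper18.TwD4O

/-!
# The fixed points of the triality graph automorphism of `D₄(K)`

helper18's theory of twisted groups (`Tw0`–`Tw7`, `TwD4*`) is instantiated with the identity as
field endomorphism.  The subgroup `twistedD4 K 1` generated by `x_{±p₂}(t)` and
`x_{±p₁}(t) x_{±p₃}(t) x_{±p₄}(t)` is exactly the set of fixed points, in `D₄(K)`, of the triality
endomorphism `sg`, and its order is that of `G₂(K)`.
-/

set_option autoImplicit false
set_option linter.unusedSimpArgs false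
set_option linter.unusedSectionVars false
set_option linter.unusedVariables false

namespace Cfsg.Agent.Lib.Helper5.G2Fix

open Cfsg Cfsg.Lie Cfsg.Agent.Lib.Helper18 Cfsg.Agent.Lib.Helper18.Fast
  Cfsg.Agent.Lib.Helper18.Facts
  Cfsg.Agent.Lib.Helper18.RootSys Cfsg.Agent.Lib.Helper18.WGroup
  Cfsg.Agent.Lib.Helper18.Graph Cfsg.Agent.Lib.Helper18.Tw0 Cfsg.Agent.Lib.Helper18.Tw1
  Cfsg.Agent.Lib.Helper18.Tw2 Cfsg.Agent.Lib.Helper18.Tw3 Cfsg.Agent.Lib.Helper18.Tw4
  Cfsg.Agent.Lib.Helper18.Tw5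
  Cfsg.Agent.Lib.Helper18.TwF Cfsg.Agent.Lib.Helper18.TwG Cfsg.Agent.Lib.Helper18.Tw6
  Cfsg.Agent.Lib.Helper18.Tw7
  Cfsg.Agent.Lib.Helper18.TwD4 Cfsg.Agent.Lib.Helper18.TwD4H Cfsg.Agent.Lib.Helper18.HOrder
  Cfsg.Agent.Lib.Helper18.Long Cfsg.Agent.Lib.Helper18.TwD4O

section

variable {K : Type*} [Field K]

/-- the triality endomorphism (no field twist). -/
noncomputable def sgD (K : Type*) [Field K] : GL chevD4.Idx K →* GL chevD4.Idx K :=
  sg okP CAll.cfD4.af.agrees (RingHom.id K)

/-- the subgroup generated by the fixed fundamental root elements. -/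
noncomputable def Gam (K : Type*) [Field K] : Subgroup (GL chevD4.Idx K) :=
  GamS CAll.cfD4.af (RingHom.id K) linvD [bS, bT]

theorem gam_eq : twistedD4 K 1 = Gam K :=
  twD4_eq (RingHom.id K) (fun t => by simp) (fun t => by simp)

variable [Fintype K]

theorem card_VF_S : Nat.card (VF K bS (Comp (RingHom.id K) linvD bS)) = Fintype.card K := by
  rw [show bS = [0, 2, 3] from rfl, card_VF_three (RingHom.id K) linvD 0 2 3 (by decide) (by decide)
    (by decide) rfl rfl rfl (fun t => rfl), Nat.card_eq_fintype_card]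

theorem card_VF_T : Nat.card (VF K bT (Comp (RingHom.id K) linvD bT)) = Fintype.card K := by
  rw [show bT = [1] from rfl, card_VF_one (RingHom.id K) linvD 1 rfl, ← Nat.card_eq_fintype_card]
  exact Nat.card_congr (Equiv.subtypeUnivEquiv (fun t => rfl))

theorem card_U : Nat.card ↥(chevD4.posUnipotent K ⊓ Gam K) = Fintype.card K ^ 6 := by
  unfold Gam
  rw [card_U_GamS CAll.cfD4 ChainAll.rD4 UAll.uD4 (by decide) haddD hinjD okP okL (RingHom.id K)
    hposD linvD hlinvD [bS, bT] blkD longD (by decide) redLong lenLong]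
  simp only [longD, List.map_cons, List.map_nil, List.prod_cons, List.prod_nil, card_VF_S,
    card_VF_T]
  ring

theorem card_fix :
    Nat.card ↥((tauD (RingHom.id K)).eqLocus (MonoidHom.id (Fin 4 → Kˣ))) =
      (Fintype.card K - 1) ^ 2 := by
  classical
  have e : ↥((tauD (RingHom.id K)).eqLocus (MonoidHom.id (Fin 4 → Kˣ))) ≃ Kˣ × Kˣ :=
    { toFun := fun c => (c.1 0, c.1 1)
      invFun := fun p => ⟨![p.1, p.2, p.1, p.1], by
        have key : ∀ j : Fin 4, tauD (RingHom.id K) ![p.1, p.2, p.1, p.1] j =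
            ![p.1, p.2, p.1, p.1] j := by
          intro j
          fin_cases j
          · exact Units.ext rfl
          · exact Units.ext rfl
          · exact Units.ext rfl
          · exact Units.ext rfl
        exact funext key⟩
      left_inv := by
        rintro ⟨c, hc⟩
        have hc' : tauD (RingHom.id K) c = c := hc
        have e2 : (c 0 : K) = c 2 := congrArg Units.val (congrFun hc' (2 : Fin 4))
        have e3 : (c 2 : K) = c 3 := congrArg Units.val (congrFun hc' (3 : Fin 4))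
        apply Subtype.ext
        have key : ∀ j : Fin 4, ![c 0, c 1, c 0, c 0] j = c j := by
          intro j
          fin_cases j
          · rfl
          · rfl
          · exact Units.ext e2
          · exact Units.ext (e2.trans e3)
        exact funext key
      right_inv := by
        rintro ⟨s, t⟩
        rfl }
  rw [Nat.card_congr e, Nat.card_prod, Nat.card_eq_fintype_card, Fintype.card_units, sq]

theorem card_H : Nat.card ↥(chevD4.diagonalSubgroup K ⊓ Gam K) = (Fintype.card K - 1) ^ 2 := by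
  have h : Nat.card ↥(chevD4.diagonalSubgroup K ⊓ GamS CAll.cfD4.af (RingHom.id K) linvD [bS, bT]) *
      Nat.card ↥((torD K).ker ⊓ (tauD (RingHom.id K)).eqLocus (MonoidHom.id (Fin 4 → Kˣ)) :
        Subgroup (Fin 4 → Kˣ)) =
      Nat.card ↥((tauD (RingHom.id K)).eqLocus (MonoidHom.id (Fin 4 → Kˣ))) :=
    card_H_GamS CAll.cfD4 okP okL (RingHom.id K) linvD hlinvD hlinv2D hpermD blkD hcovD
      (H1D (RingHom.id K) (fun t => rfl))
  rw [botD (RingHom.id K), Subgroup.card_bot, mul_one, card_fix] at h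
  exact h

/-- the fixed points of the triality endomorphism in `D₄(K)`. -/
noncomputable def Fix (K : Type*) [Field K] : Subgroup (GL chevD4.Idx K) :=
  fixS okP CAll.cfD4.af.agrees (RingHom.id K) ⊓ chevD4.group K

theorem gam_le_fix : Gam K ≤ Fix K :=
  le_inf (GamS_le_fix CAll.cfD4 okP okL (RingHom.id K) linvD hlinvD [bS, bT] blkD)
    (GamS_le_group CAll.cfD4 (RingHom.id K) linvD [bS, bT])

theorem gokG : ∀ S ∈ [bS, bT], GOK CAll.cfD4.af WTabD4.X lD (RingHom.id K) linvD (Gam K) S :=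
  fun S hS => GamS_gok CAll.cfD4 (RingHom.id K) linvD [bS, bT] blkD hS

theorem gokF : ∀ S ∈ [bS, bT], GOK CAll.cfD4.af WTabD4.X lD (RingHom.id K) linvD (Fix K) S :=
  fun S hS => ⟨(gokG (K := K) S hS).ok, fun f hf => gam_le_fix ((gokG (K := K) S hS).xmem f hf),
    gam_le_fix (gokG (K := K) S hS).nmem⟩

theorem U_fix_le_gam :
    chevD4.posUnipotent K ⊓ fixS okP CAll.cfD4.af.agrees (RingHom.id K) ≤ Gam K :=
  U_fix_le CAll.cfD4 ChainAll.rD4 UAll.uD4 (by decide) haddD hinjD okP okL (RingHom.id K) hposD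
    linvD hlinvD longD (fun S hS => gokG (K := K) S (by revert S; decide)) redLong lenLong

theorem U_inf_eq : chevD4.posUnipotent K ⊓ Fix K = chevD4.posUnipotent K ⊓ Gam K := by
  apply le_antisymm
  · rintro g ⟨hu, hg⟩
    exact ⟨hu, U_fix_le_gam ⟨hu, hg.1⟩⟩
  · exact inf_le_inf_left _ gam_le_fix

theorem H_inf_eq : chevD4.diagonalSubgroup K ⊓ Fix K = chevD4.diagonalSubgroup K ⊓ Gam K := by
  apply le_antisymm
  · have hfm := fix_map (torHom chevD4 FTabD4.fd K) (tauP (RingHom.id K) linvD hlinv2D)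
      (sg okP CAll.cfD4.af.agrees (RingHom.id K))
      (sg_torHom okP CAll.cfD4.af okL (RingHom.id K) linvD hlinvD hlinv2D hpermD)
      (H1D (RingHom.id K) (fun t => rfl))
    have hH := H_inf_GamS CAll.cfD4 okP okL (RingHom.id K) linvD hlinvD hlinv2D hpermD blkD hcovD
      (H1D (RingHom.id K) (fun t => rfl))
    rintro g ⟨hh, hg⟩
    have h1 : g ∈ (torHom chevD4 FTabD4.fd K).range ⊓
        (sg okP CAll.cfD4.af.agrees (RingHom.id K)).eqLocus (MonoidHom.id _) := by
      refine ⟨?_, hg.1⟩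
      rw [torHom_range CAll.cfD4.af]
      exact hh
    rw [hfm] at h1
    have h2 : g ∈ chevD4.diagonalSubgroup K ⊓ GamS CAll.cfD4.af (RingHom.id K) linvD [bS, bT] := by
      rw [hH]
      exact h1
    exact h2
  · exact inf_le_inf_left _ gam_le_fix

/-- the order formula, for any subgroup between `Gam` and `Fix`. -/
theorem card_of {Γ : Subgroup (GL chevD4.Idx K)}
    (hΓ : Γ ≤ fixS okP CAll.cfD4.af.agrees (RingHom.id K)) (hΓG : Γ ≤ chevD4.group K)
    (hgok : ∀ S ∈ [bS, bT], GOK CAll.cfD4.af WTabD4.X lD (RingHom.id K) linvD Γ S)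
    (hUle : chevD4.posUnipotent K ⊓ fixS okP CAll.cfD4.af.agrees (RingHom.id K) ≤ Γ) :
    Nat.card Γ = (wssD.map fun Ss => (Ss.map fun S =>
        Nat.card (VF K S (Comp (RingHom.id K) linvD S))).prod).sum *
      (Nat.card ↥(chevD4.posUnipotent K ⊓ Γ) * Nat.card ↥(chevD4.diagonalSubgroup K ⊓ Γ)) := by
  have hB := card_inter_B CAll.cfD4 haddD okP okL (RingHom.id K) hposD hΓ hUle
  have hG := card_Gam CAll.cfD4 ChainAll.rD4 UAll.uD4 (by decide) haddD hinjD okP okL (RingHom.id K)
    hposD linvD hlinvD hΓ hΓG hTrhoD hposrD [bS, bT] wblkD hcovD' wssD (by decide)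
    (fun Ss hSs S hS => hgok S (hsubD Ss hSs S hS)) hredD hclD hdisD
  rw [hG, hB]

theorem card_gam_raw :
    Nat.card (Gam K) = (wssD.map fun Ss => (Ss.map fun S =>
        Nat.card (VF K S (Comp (RingHom.id K) linvD S))).prod).sum *
      (Nat.card ↥(chevD4.posUnipotent K ⊓ Gam K) * Nat.card ↥(chevD4.diagonalSubgroup K ⊓ Gam K)) :=
  card_of (GamS_le_fix CAll.cfD4 okP okL (RingHom.id K) linvD hlinvD [bS, bT] blkD)
    (GamS_le_group CAll.cfD4 (RingHom.id K) linvD [bS, bT]) gokG U_fix_le_gam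

theorem card_fix_raw :
    Nat.card (Fix K) = (wssD.map fun Ss => (Ss.map fun S =>
        Nat.card (VF K S (Comp (RingHom.id K) linvD S))).prod).sum *
      (Nat.card ↥(chevD4.posUnipotent K ⊓ Gam K) * Nat.card ↥(chevD4.diagonalSubgroup K ⊓ Gam K)) := by
  have h := card_of (Γ := Fix K) inf_le_left inf_le_right gokF (U_fix_le_gam.trans gam_le_fix)
  rw [U_inf_eq, H_inf_eq] at h
  exact h

/-- the fixed points of triality in `D₄(K)` are generated by the fixed fundamental root elements. -/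
theorem fix_eq_gam : Fix K = Gam K := by
  have : Finite ↥(Fix K) := inferInstance
  symm
  apply Subgroup.eq_of_le_of_card_ge gam_le_fix
  rw [card_fix_raw, card_gam_raw]

/-- the order of the fixed point group. -/
theorem card_gam (q : ℕ) (hq : Fintype.card K = q) :
    Nat.card (Gam K) = q ^ 6 * (q ^ 2 - 1) * (q ^ 6 - 1) := by
  rw [card_gam_raw, card_U, card_H]
  simp only [wssD, List.map_cons, List.map_nil, List.prod_cons, List.prod_nil, List.sum_cons,
    List.sum_nil, card_VF_S, card_VF_T]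
  rw [hq]
  have h1 : 1 ≤ q := by
    rw [← hq]
    exact Fintype.card_pos
  obtain ⟨k, rfl⟩ : ∃ k, q = k + 1 := ⟨q - 1, by omega⟩
  have e2 : (k + 1) ^ 2 - 1 = k * (k + 2) := by
    apply Nat.sub_eq_of_eq_add
    ring
  have e6 : (k + 1) ^ 6 - 1 = k * (k ^ 5 + 6 * k ^ 4 + 15 * k ^ 3 + 20 * k ^ 2 + 15 * k + 6) := by
    apply Nat.sub_eq_of_eq_add
    ring
  rw [e2, e6, Nat.add_sub_cancel]
  ring

end

end Cfsg.Agent.Lib.Helper5.G2Fix
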