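import Mathlib
import Cfsg.Agent.Lib.Helper5.G2Emb
import Cfsg.Agent.Lib.Helper36.ChevDG2
import Cfsg.Agent.Lib.Helper36.ChevDD4
import Cfsg.Agent.Lib.Helper36.ChevGen
import Cfsg.Prelude.Def_LieTwisted

/-!
# The homomorphism from the `G₂`-type subgroup of `D₄(K)` onto `G₂(K)`

`twistedD4 K 1` is the subgroup of `D₄(K)` generated by `x_{±p₂}(t)` and
`x_{±p₁}(t) x_{±p₃}(t) x_{±p₄}(t)`.  It preserves the image of the embedding `J` of `G2Emb`, and the
induced action on the 14-dimensional module maps it onto the Chevalley group of type `G₂`.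
-/

set_option autoImplicit false

namespace Cfsg.Agent.Lib.Helper5.G2Rho

open Cfsg Cfsg.Lie

section intertw

variable {ι κ : Type} [Fintype ι] [DecidableEq ι] [Fintype κ] [DecidableEq κ]
  {R : Type*} [CommRing R]

/-- the invertible matrices which, with their inverses, preserve the column space of `J`. -/
def stab (J : Matrix ι κ R) : Subgroup (GL ι R) where
  carrier := {g | (∃ M : Matrix κ κ R, (g : Matrix ι ι R) * J = J * M) ∧
    ∃ M : Matrix κ κ R, ((g⁻¹ : GL ι R) : Matrix ι ι R) * J = J * M}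
  mul_mem' := by
    rintro g h ⟨⟨M, hM⟩, ⟨M', hM'⟩⟩ ⟨⟨N, hN⟩, ⟨N', hN'⟩⟩
    refine ⟨⟨M * N, ?_⟩, ⟨N' * M', ?_⟩⟩
    · rw [Units.val_mul, Matrix.mul_assoc, hN, ← Matrix.mul_assoc, hM, Matrix.mul_assoc]
    · rw [mul_inv_rev, Units.val_mul, Matrix.mul_assoc, hM', ← Matrix.mul_assoc, hN',
        Matrix.mul_assoc]
  one_mem' := ⟨⟨1, by simp⟩, ⟨1, by simp⟩⟩
  inv_mem' := by
    rintro g ⟨h1, h2⟩
    exact ⟨h2, by rwa [inv_inv]⟩

theorem stab_mul (J : Matrix ι κ R) (Pr : Matrix κ ι R) (hPJ : Pr * J = 1) {g : GL ι R}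
    (hg : g ∈ stab J) : (g : Matrix ι ι R) * J = J * (Pr * (g : Matrix ι ι R) * J) := by
  obtain ⟨⟨M, hM⟩, _⟩ := hg
  rw [Matrix.mul_assoc Pr, hM, ← Matrix.mul_assoc Pr, hPJ, Matrix.one_mul]

/-- the action induced on the column space of `J`. -/
def rho (J : Matrix ι κ R) (Pr : Matrix κ ι R) (hPJ : Pr * J = 1) : ↥(stab J) →* GL κ R where
  toFun g := ⟨Pr * ((g : GL ι R) : Matrix ι ι R) * J,
    Pr * (((g : GL ι R)⁻¹ : GL ι R) : Matrix ι ι R) * J,
    by
      have h := stab_mul J Pr hPJ ((stab J).inv_mem g.2)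
      rw [Matrix.mul_assoc (Pr * _), ← h, Matrix.mul_assoc Pr, ← Matrix.mul_assoc _ _ J,
        ← Units.val_mul, mul_inv_cancel, Units.val_one, Matrix.one_mul, hPJ],
    by
      have h := stab_mul J Pr hPJ g.2
      rw [Matrix.mul_assoc (Pr * _), ← h, Matrix.mul_assoc Pr, ← Matrix.mul_assoc _ _ J,
        ← Units.val_mul, inv_mul_cancel, Units.val_one, Matrix.one_mul, hPJ]⟩
  map_one' := by
    apply Units.ext
    show Pr * ((1 : GL ι R) : Matrix ι ι R) * J = 1
    rw [Units.val_one, Matrix.mul_one, hPJ]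
  map_mul' := by
    intro g h
    apply Units.ext
    show Pr * (((g : GL ι R) * (h : GL ι R) : GL ι R) : Matrix ι ι R) * J =
      Pr * ((g : GL ι R) : Matrix ι ι R) * J * (Pr * ((h : GL ι R) : Matrix ι ι R) * J)
    have hh := stab_mul J Pr hPJ h.2
    rw [Units.val_mul, Matrix.mul_assoc (Pr * _) J, ← hh]
    simp only [Matrix.mul_assoc]

theorem rho_val (J : Matrix ι κ R) (Pr : Matrix κ ι R) (hPJ : Pr * J = 1) (g : ↥(stab J))
    (M : Matrix κ κ R) (hM : ((g : GL ι R) : Matrix ι ι R) * J = J * M) :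
    ((rho J Pr hPJ g : GL κ R) : Matrix κ κ R) = M := by
  show Pr * ((g : GL ι R) : Matrix ι ι R) * J = M
  rw [Matrix.mul_assoc, hM, ← Matrix.mul_assoc, hPJ, Matrix.one_mul]

end intertw

section g2

variable {K : Type*} [Field K]

theorem hinv4 (r : ℕ) (t : K) : chevD4.x K r t * chevD4.x K r (-t) = 1 :=
  (Cfsg.Agent.Lib.Helper36.ChevDD4.weylData (F := K)).inv r t

theorem hinv2 (r : ℕ) (t : K) : chevG2.x K r t * chevG2.x K r (-t) = 1 :=
  (Cfsg.Agent.Lib.Helper36.ChevDG2.weylData (F := K)).inv r t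

theorem inv3 {ι : Type} [Fintype ι] [DecidableEq ι] (A B C A' B' C' : Matrix ι ι K)
    (hA : A * A' = 1) (hB : B * B' = 1) (hC : C * C' = 1) :
    A * B * C * (C' * B' * A') = 1 := by
  calc A * B * C * (C' * B' * A') = A * (B * (C * C') * B') * A' := by
        simp only [Matrix.mul_assoc]
    _ = 1 := by rw [hC, Matrix.mul_one, hB, Matrix.mul_one, hA]

theorem word1 (r : ℕ) (t : K) : chevD4.wordMat K [(r, t)] = chevD4.x K r t := by
  simp [ChevalleyDatum.wordMat]

theorem word3 (r s u : ℕ) (a b c : K) :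
    chevD4.wordMat K [(r, a), (s, b), (u, c)] = chevD4.x K r a * chevD4.x K s b * chevD4.x K u c := by
  simp [ChevalleyDatum.wordMat, mul_assoc]

/-- the generators of `twistedD4 K 1` and their images. -/
theorem gen_cases {g : GL chevD4.Idx K} (hg : ∃ w ∈ d4Words K 1, (g : Matrix chevD4.Idx chevD4.Idx K) = chevD4.wordMat K w) :
    ∃ (r : ℕ) (t : K), (r = 7 ∨ r = 6 ∨ r = 4 ∨ r = 5) ∧
      (g : Matrix chevD4.Idx chevD4.Idx K) * G2Emb.J K = G2Emb.J K * chevG2.x K r t ∧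
      ((g⁻¹ : GL chevD4.Idx K) : Matrix chevD4.Idx chevD4.Idx K) * G2Emb.J K =
        G2Emb.J K * chevG2.x K r (-t) := by
  obtain ⟨w, hw, hg⟩ := hg
  rcases hw with ⟨t, ht, r, hr, rfl⟩ | ⟨t, rs, hrs, rfl⟩
  · simp only [List.mem_cons, List.not_mem_nil, or_false] at hr
    rw [word1] at hg
    have hgi : ((g⁻¹ : GL chevD4.Idx K) : Matrix chevD4.Idx chevD4.Idx K) = chevD4.x K r (-t) := by
      apply Units.inv_eq_of_mul_eq_one_right
      rw [hg]
      exact hinv4 r t
    rcases hr with rfl | rfl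
    · exact ⟨6, t, by simp, by rw [hg]; exact G2Emb.emb_b t, by rw [hgi]; exact G2Emb.emb_b (-t)⟩
    · exact ⟨5, t, by simp, by rw [hg]; exact G2Emb.emb_nb t, by rw [hgi]; exact G2Emb.emb_nb (-t)⟩
  · simp only [List.mem_cons, List.not_mem_nil, or_false] at hrs
    rw [word3] at hg
    simp only [pow_one, one_pow] at hg
    rcases hrs with rfl | rfl
    · have hgi : ((g⁻¹ : GL chevD4.Idx K) : Matrix chevD4.Idx chevD4.Idx K) =
          chevD4.x K 12 (-t) * chevD4.x K 13 (-t) * chevD4.x K 18 (-t) := by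
        apply Units.inv_eq_of_mul_eq_one_right
        rw [hg]
        exact inv3 _ _ _ _ _ _ (hinv4 _ t) (hinv4 _ t) (hinv4 _ t)
      exact ⟨7, t, by simp, by rw [hg]; exact G2Emb.emb_a t, by rw [hgi]; exact G2Emb.emb_ar (-t)⟩
    · have hgi : ((g⁻¹ : GL chevD4.Idx K) : Matrix chevD4.Idx chevD4.Idx K) =
          chevD4.x K 11 (-t) * chevD4.x K 10 (-t) * chevD4.x K 5 (-t) := by
        apply Units.inv_eq_of_mul_eq_one_right
        rw [hg]
        exact inv3 _ _ _ _ _ _ (hinv4 _ t) (hinv4 _ t) (hinv4 _ t)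
      exact ⟨4, t, by simp, by rw [hg]; exact G2Emb.emb_na t, by rw [hgi]; exact G2Emb.emb_nar (-t)⟩

theorem le_stab : twistedD4 K 1 ≤ stab (G2Emb.J K) := by
  unfold twistedD4 ChevalleyDatum.genSubgroup
  rw [Subgroup.closure_le]
  intro g hg
  obtain ⟨r, t, -, h1, h2⟩ := gen_cases hg
  exact ⟨⟨_, h1⟩, ⟨_, h2⟩⟩

/-- the homomorphism to `GL₁₄`. -/
noncomputable def rhoG : ↥(twistedD4 K 1) →* GL chevG2.Idx K :=
  (rho (G2Emb.J K) (G2Emb.Pr K) G2Emb.Pr_mul_J).comp (Subgroup.inclusion le_stab)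

theorem rhoG_val (g : ↥(twistedD4 K 1)) (M : Matrix chevG2.Idx chevG2.Idx K)
    (hM : ((g : GL chevD4.Idx K) : Matrix chevD4.Idx chevD4.Idx K) * G2Emb.J K = G2Emb.J K * M) :
    ((rhoG g : GL chevG2.Idx K) : Matrix chevG2.Idx chevG2.Idx K) = M :=
  rho_val (G2Emb.J K) (G2Emb.Pr K) G2Emb.Pr_mul_J (Subgroup.inclusion le_stab g) M hM

/-- units of the generating words. -/
noncomputable def xU4 (r : ℕ) (t : K) : GL chevD4.Idx K :=
  Cfsg.Agent.Lib.Helper36.ChevGen.xU chevD4 hinv4 r t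

theorem xU4_val (r : ℕ) (t : K) :
    ((xU4 r t : GL chevD4.Idx K) : Matrix chevD4.Idx chevD4.Idx K) = chevD4.x K r t := rfl

/-- the image of `rhoG` is the Chevalley group of type `G₂`. -/
theorem range_rhoG : (rhoG (K := K)).range = chevG2.group K := by
  rw [Cfsg.Agent.Lib.Helper36.ChevGen.group_eq_fund chevG2
    (Cfsg.Agent.Lib.Helper36.ChevDG2.weylData (F := K))]
  apply le_antisymm
  · rintro y ⟨g, rfl⟩
    have key : ∀ g : GL chevD4.Idx K, ∀ hg : g ∈ twistedD4 K 1,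
        rhoG ⟨g, hg⟩ ∈ Subgroup.closure (Cfsg.Agent.Lib.Helper36.ChevGen.fundSet K chevG2) := by
      intro g hg
      have hg' := hg
      unfold twistedD4 ChevalleyDatum.genSubgroup at hg'
      induction hg' using Subgroup.closure_induction with
      | mem x hx =>
        obtain ⟨r, t, hr, h1, -⟩ := gen_cases hx
        apply Subgroup.subset_closure
        have hv := rhoG_val ⟨x, hg⟩ _ h1
        rcases hr with rfl | rfl | rfl | rfl
        · exact ⟨0, by decide, t, Or.inl hv⟩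
        · exact ⟨1, by decide, t, Or.inl hv⟩
        · exact ⟨0, by decide, t, Or.inr hv⟩
        · exact ⟨1, by decide, t, Or.inr hv⟩
      | one =>
        have : (⟨1, hg⟩ : ↥(twistedD4 K 1)) = 1 := rfl
        rw [this, map_one]
        exact Subgroup.one_mem _
      | mul x y hx hy ihx ihy =>
        have hx' : x ∈ twistedD4 K 1 := hx
        have hy' : y ∈ twistedD4 K 1 := hy
        have : (⟨x * y, hg⟩ : ↥(twistedD4 K 1)) = ⟨x, hx'⟩ * ⟨y, hy'⟩ := rfl
        rw [this, map_mul]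
        exact Subgroup.mul_mem _ (ihx hx') (ihy hy')
      | inv x hx ihx =>
        have hx' : x ∈ twistedD4 K 1 := hx
        have : (⟨x⁻¹, hg⟩ : ↥(twistedD4 K 1)) = (⟨x, hx'⟩ : ↥(twistedD4 K 1))⁻¹ := rfl
        rw [this, map_inv]
        exact Subgroup.inv_mem _ (ihx hx')
    exact key g.1 g.2
  · rw [Subgroup.closure_le]
    rintro y ⟨i, hi, t, hy⟩
    have hmem : ∀ w ∈ d4Words K 1, ∀ g : GL chevD4.Idx K,
        (g : Matrix chevD4.Idx chevD4.Idx K) = chevD4.wordMat K w → g ∈ twistedD4 K 1 :=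
      fun w hw g hg => Subgroup.subset_closure ⟨w, hw, hg⟩
    have h1 : (1 : K) ^ 1 = 1 := one_pow 1
    have i2 : i = 0 ∨ i = 1 := by
      have : i < 2 := hi
      omega
    rcases i2 with rfl | rfl
    · rcases hy with hy | hy
      · -- x_7(t)
        have hw : [(d4p1, t), (d4p3, t ^ 1), (d4p4, t ^ (1 ^ 2))] ∈ d4Words K 1 :=
          Or.inr ⟨t, (d4p1, d4p3, d4p4), by simp, rfl⟩
        let g : GL chevD4.Idx K := xU4 18 t * xU4 13 t * xU4 12 t
        have hgm : (g : Matrix chevD4.Idx chevD4.Idx K) =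
            chevD4.wordMat K [(d4p1, t), (d4p3, t ^ 1), (d4p4, t ^ (1 ^ 2))] := by
          rw [word3]
          simp only [pow_one, one_pow]
          rfl
        have hg : g ∈ twistedD4 K 1 := hmem _ hw g hgm
        refine ⟨⟨g, hg⟩, Units.ext ?_⟩
        rw [hy]
        exact rhoG_val ⟨g, hg⟩ _ (G2Emb.emb_a t)
      · have hw : [(d4m1, t), (d4m3, t ^ 1), (d4m4, t ^ (1 ^ 2))] ∈ d4Words K 1 :=
          Or.inr ⟨t, (d4m1, d4m3, d4m4), by simp, rfl⟩
        let g : GL chevD4.Idx K := xU4 5 t * xU4 10 t * xU4 11 t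
        have hgm : (g : Matrix chevD4.Idx chevD4.Idx K) =
            chevD4.wordMat K [(d4m1, t), (d4m3, t ^ 1), (d4m4, t ^ (1 ^ 2))] := by
          rw [word3]
          simp only [pow_one, one_pow]
          rfl
        have hg : g ∈ twistedD4 K 1 := hmem _ hw g hgm
        refine ⟨⟨g, hg⟩, Units.ext ?_⟩
        rw [hy]
        exact rhoG_val ⟨g, hg⟩ _ (G2Emb.emb_na t)
    · rcases hy with hy | hy
      · have hw : [(d4p2, t)] ∈ d4Words K 1 := Or.inl ⟨t, pow_one t, d4p2, by simp, rfl⟩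
        let g : GL chevD4.Idx K := xU4 14 t
        have hgm : (g : Matrix chevD4.Idx chevD4.Idx K) = chevD4.wordMat K [(d4p2, t)] := by
          rw [word1]
          rfl
        have hg : g ∈ twistedD4 K 1 := hmem _ hw g hgm
        refine ⟨⟨g, hg⟩, Units.ext ?_⟩
        rw [hy]
        exact rhoG_val ⟨g, hg⟩ _ (G2Emb.emb_b t)
      · have hw : [(d4m2, t)] ∈ d4Words K 1 := Or.inl ⟨t, pow_one t, d4m2, by simp, rfl⟩
        let g : GL chevD4.Idx K := xU4 9 t
        have hgm : (g : Matrix chevD4.Idx chevD4.Idx K) = chevD4.wordMat K [(d4m2, t)] := by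
          rw [word1]
          rfl
        have hg : g ∈ twistedD4 K 1 := hmem _ hw g hgm
        refine ⟨⟨g, hg⟩, Units.ext ?_⟩
        rw [hy]
        exact rhoG_val ⟨g, hg⟩ _ (G2Emb.emb_nb t)

end g2

end Cfsg.Agent.Lib.Helper5.G2Rho
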