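import Mathlib
import Cfsg.Agent.Lib.Helper5.G2Rho
import Cfsg.Agent.Lib.Helper5.G2Fix
import Cfsg.Agent.S1059
import Cfsg.Prelude.Def_ChevAutomorphisms

/-!
# The centralizer of a triality graph automorphism of `D₄(F)` is `G₂(F)`

A graph automorphism of order 3 of `D₄(F)` (or its square) agrees with the triality endomorphism
`sgD` of `G2Fix` on the fundamental root elements, so its fixed points are the subgroup
`twistedD4 F 1`, which `G2Rho.rhoG` maps onto `G₂(F)`; the two orders are equal.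
-/

set_option autoImplicit false
set_option linter.unusedSimpArgs false
set_option linter.unusedSectionVars false
set_option linter.unusedVariables false

namespace Cfsg.Agent.Lib.Helper5.G2Main

open Cfsg Cfsg.Lie Cfsg.Agent.Lib.Helper18 Cfsg.Agent.Lib.Helper18.Fast
  Cfsg.Agent.Lib.Helper18.Facts
  Cfsg.Agent.Lib.Helper18.RootSys Cfsg.Agent.Lib.Helper18.WGroup
  Cfsg.Agent.Lib.Helper18.Graph Cfsg.Agent.Lib.Helper18.Tw0 Cfsg.Agent.Lib.Helper18.Tw1
  Cfsg.Agent.Lib.Helper18.TwD4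

set_option synthInstance.maxSize 2000 in
set_option synthInstance.maxHeartbeats 200000 in
theorem vals : ∀ a b c d : Fin 4,
    (chevD4.bonds a b = chevD4.bonds 0 1 ∧ chevD4.bonds c b = chevD4.bonds 2 1 ∧
    chevD4.bonds d b = chevD4.bonds 3 1 ∧ a ≠ c ∧ a ≠ d ∧ c ≠ d) →
    (b = 1 ∧ ((a = 0 ∧ c = 2 ∧ d = 3) ∨ (a = 2 ∧ c = 3 ∧ d = 0) ∨ (a = 3 ∧ c = 0 ∧ d = 2) ∨
      (a = 2 ∧ c = 0 ∧ d = 3) ∨ (a = 3 ∧ c = 2 ∧ d = 0) ∨ (a = 0 ∧ c = 3 ∧ d = 2))) := by
  decide +kernel

theorem notLong : ∀ i : Fin 4, chevD4.isLong (chevD4.simple i) = false := by decide +kernel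

theorem graphExp_one (c : ℕ) (i j : Fin 4) : chevD4.graphExp c i j = 1 := by
  unfold ChevalleyDatum.graphExp
  rw [notLong j]
  rfl

theorem perm_cases (π : Equiv.Perm (Fin 4))
    (hsym : ∀ i j : Fin 4, i ≠ j → chevD4.bonds (π i) (π j) = chevD4.bonds i j) :
    π 1 = 1 ∧ ((π 0 = 0 ∧ π 2 = 2 ∧ π 3 = 3) ∨ (π 0 = 2 ∧ π 2 = 3 ∧ π 3 = 0) ∨
      (π 0 = 3 ∧ π 2 = 0 ∧ π 3 = 2) ∨ (π 0 = 2 ∧ π 2 = 0 ∧ π 3 = 3) ∨
      (π 0 = 3 ∧ π 2 = 2 ∧ π 3 = 0) ∨ (π 0 = 0 ∧ π 2 = 3 ∧ π 3 = 2)) :=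
  vals (π 0) (π 1) (π 2) (π 3) ⟨hsym 0 1 (by decide), hsym 2 1 (by decide), hsym 3 1 (by decide),
    fun h => absurd (π.injective h) (by decide), fun h => absurd (π.injective h) (by decide),
    fun h => absurd (π.injective h) (by decide)⟩

section

variable {F : Type*} [Field F]

/-- `ψ` permutes the fundamental root elements and their negatives according to `p`. -/
def Acts (ψ : ↥(chevD4.group F) →* ↥(chevD4.group F)) (p : ℕ → ℕ) : Prop :=
  ∀ (g : ↥(chevD4.group F)) (i : ℕ) (t : F), i < 4 →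
    ((((g : GL chevD4.Idx F) : Matrix chevD4.Idx chevD4.Idx F) = chevD4.x F (chevD4.simple i) t →
      (((ψ g : ↥(chevD4.group F)) : GL chevD4.Idx F) : Matrix chevD4.Idx chevD4.Idx F) =
        chevD4.x F (chevD4.simple (p i)) t) ∧
    (((g : GL chevD4.Idx F) : Matrix chevD4.Idx chevD4.Idx F) =
        chevD4.x F (chevD4.neg (chevD4.simple i)) t →
      (((ψ g : ↥(chevD4.group F)) : GL chevD4.Idx F) : Matrix chevD4.Idx chevD4.Idx F) =
        chevD4.x F (chevD4.neg (chevD4.simple (p i))) t))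

theorem Acts.comp {ψ ψ' : ↥(chevD4.group F) →* ↥(chevD4.group F)} {p p' : ℕ → ℕ}
    (h : Acts ψ p) (h' : Acts ψ' p') (hp : ∀ i < 4, p i < 4) :
    Acts (ψ'.comp ψ) (fun i => p' (p i)) := by
  intro g i t hi
  refine ⟨fun hg => ?_, fun hg => ?_⟩
  · exact (h' (ψ g) (p i) t (hp i hi)).1 ((h g i t hi).1 hg)
  · exact (h' (ψ g) (p i) t (hp i hi)).2 ((h g i t hi).2 hg)

theorem Acts.congr {ψ : ↥(chevD4.group F) →* ↥(chevD4.group F)} {p p' : ℕ → ℕ}
    (h : Acts ψ p) (hp : ∀ i < 4, p i = p' i) : Acts ψ p' := by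
  intro g i t hi
  rw [← hp i hi]
  exact h g i t hi

/-- An endomorphism acting as `p` is the restriction of any endomorphism of `GL` acting as `p`. -/
theorem Acts.ext_val {ψ : ↥(chevD4.group F) →* ↥(chevD4.group F)} {p : ℕ → ℕ} (h : Acts ψ p)
    (θ : GL chevD4.Idx F →* GL chevD4.Idx F)
    (hθ : ∀ (g : GL chevD4.Idx F) (i : ℕ) (t : F), i < 4 →
      (((g : Matrix chevD4.Idx chevD4.Idx F) = chevD4.x F (chevD4.simple i) t →
        ((θ g : GL chevD4.Idx F) : Matrix chevD4.Idx chevD4.Idx F) =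
          chevD4.x F (chevD4.simple (p i)) t) ∧
      ((g : Matrix chevD4.Idx chevD4.Idx F) = chevD4.x F (chevD4.neg (chevD4.simple i)) t →
        ((θ g : GL chevD4.Idx F) : Matrix chevD4.Idx chevD4.Idx F) =
          chevD4.x F (chevD4.neg (chevD4.simple (p i))) t))) :
    ∀ g : ↥(chevD4.group F), ((ψ g : ↥(chevD4.group F)) : GL chevD4.Idx F) =
      θ (g : GL chevD4.Idx F) := by
  refine Cfsg.Agent.Lib.Helper36.ChevGen.hom_ext_fund chevD4
    (Cfsg.Agent.Lib.Helper36.ChevDD4.weylData (F := F))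
    ((chevD4.group F).subtype.comp ψ) (θ.comp (chevD4.group F).subtype) ?_
  intro y i t hi hy
  have hi4 : i < 4 := hi
  apply Units.ext
  rcases hy with hy | hy
  · show (((ψ y : ↥(chevD4.group F)) : GL chevD4.Idx F) : Matrix chevD4.Idx chevD4.Idx F) =
      ((θ (y : GL chevD4.Idx F) : GL chevD4.Idx F) : Matrix chevD4.Idx chevD4.Idx F)
    rw [(h y i t hi4).1 hy, (hθ _ i t hi4).1 hy]
  · show (((ψ y : ↥(chevD4.group F)) : GL chevD4.Idx F) : Matrix chevD4.Idx chevD4.Idx F) =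
      ((θ (y : GL chevD4.Idx F) : GL chevD4.Idx F) : Matrix chevD4.Idx chevD4.Idx F)
    rw [(h y i t hi4).2 hy, (hθ _ i t hi4).2 hy]

/-- An endomorphism fixing the fundamental root elements is the identity. -/
theorem Acts.eq_id {ψ : ↥(chevD4.group F) →* ↥(chevD4.group F)} {p : ℕ → ℕ} (h : Acts ψ p)
    (hp : ∀ i < 4, p i = i) : ∀ g : ↥(chevD4.group F), ψ g = g := by
  intro g
  apply Subtype.ext
  have := h.ext_val (MonoidHom.id _) (fun g i t hi => by
    rw [hp i hi]
    exact ⟨fun hg => hg, fun hg => hg⟩) g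
  exact this

theorem simple_tab : ∀ j < 4, FTabD4.fd.simple j = chevD4.simple j := by decide

theorem neg_tab : ∀ j < 4, FTabD4.fd.neg (FTabD4.fd.simple j) = chevD4.neg (chevD4.simple j) := by
  decide

theorem lt_tab : ∀ j < 4, chevD4.simple j < chevD4.nroots ∧
    chevD4.neg (chevD4.simple j) < chevD4.nroots := by decide

theorem lD_lt : ∀ j < 4, lD.getD j 0 < 4 := by decide

/-- The triality endomorphism on the fundamental root elements. -/
theorem sgD_acts (g : GL chevD4.Idx F) (i : ℕ) (t : F) (hi : i < 4) :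
    (((g : Matrix chevD4.Idx chevD4.Idx F) = chevD4.x F (chevD4.simple i) t →
      ((G2Fix.sgD F g : GL chevD4.Idx F) : Matrix chevD4.Idx chevD4.Idx F) =
        chevD4.x F (chevD4.simple (lD.getD i 0)) t) ∧
    ((g : Matrix chevD4.Idx chevD4.Idx F) = chevD4.x F (chevD4.neg (chevD4.simple i)) t →
      ((G2Fix.sgD F g : GL chevD4.Idx F) : Matrix chevD4.Idx chevD4.Idx F) =
        chevD4.x F (chevD4.neg (chevD4.simple (lD.getD i 0))) t)) := by
  have hF := CAll.cfD4.af
  have hi' : i < FTabD4.fd.rank := hi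
  constructor
  · intro hg
    have e : g = xg hF F (FTabD4.fd.simple i) t := by
      apply Units.ext
      rw [hg, simple_tab i hi, coe_xg hF (lt_tab i hi).1]
    rw [e]
    unfold G2Fix.sgD
    rw [sg_xs okP hF okL (RingHom.id F) hi' t, simple_tab _ (lD_lt i hi),
      coe_xg hF (lt_tab _ (lD_lt i hi)).1]
    rfl
  · intro hg
    have e : g = xg hF F (FTabD4.fd.neg (FTabD4.fd.simple i)) t := by
      apply Units.ext
      rw [hg, neg_tab i hi, coe_xg hF (lt_tab i hi).2]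
    rw [e]
    unfold G2Fix.sgD
    rw [sg_xns okP hF okL (RingHom.id F) hi' t, neg_tab _ (lD_lt i hi),
      coe_xg hF (lt_tab _ (lD_lt i hi)).2]
    rfl

/-- An endomorphism acting as the triality permutation is the restriction of `sgD`. -/
theorem Acts.eq_sg {ψ : ↥(chevD4.group F) →* ↥(chevD4.group F)} {p : ℕ → ℕ} (h : Acts ψ p)
    (hp : ∀ i < 4, p i = lD.getD i 0) : ∀ g : ↥(chevD4.group F),
      ((ψ g : ↥(chevD4.group F)) : GL chevD4.Idx F) = G2Fix.sgD F (g : GL chevD4.Idx F) :=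
  (h.congr hp).ext_val (G2Fix.sgD F) sgD_acts

variable [Fintype F]

/-- The final assembly: an automorphism whose fixed points are those of the restriction of `sgD`
has fixed point group isomorphic to `G₂(F)`. -/
theorem final (τ : MulAut ↥(chevD4.group F)) (ψ : ↥(chevD4.group F) →* ↥(chevD4.group F))
    (hfix : ∀ g, τ g = g ↔ ψ g = g)
    (hψ : ∀ g : ↥(chevD4.group F),
      ((ψ g : ↥(chevD4.group F)) : GL chevD4.Idx F) = G2Fix.sgD F (g : GL chevD4.Idx F)) :
    Nonempty (↥(MonoidHom.eqLocus τ.toMonoidHom (MonoidHom.id ↥(chevD4.group F))) ≃*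
      ↥(chevG2.group F)) := by
  have hmap : (MonoidHom.eqLocus τ.toMonoidHom (MonoidHom.id ↥(chevD4.group F))).map
      (chevD4.group F).subtype = twistedD4 F 1 := by
    rw [G2Fix.gam_eq, ← G2Fix.fix_eq_gam]
    ext x
    constructor
    · rintro ⟨g, hg, rfl⟩
      have hg' : τ g = g := hg
      have h2 := (hfix g).1 hg'
      refine ⟨?_, g.2⟩
      show G2Fix.sgD F (g : GL chevD4.Idx F) = (g : GL chevD4.Idx F)
      rw [← hψ g, h2]
    · rintro ⟨hx1, hx2⟩
      refine ⟨⟨x, hx2⟩, ?_, rfl⟩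
      show τ ⟨x, hx2⟩ = ⟨x, hx2⟩
      rw [hfix]
      apply Subtype.ext
      rw [hψ]
      exact hx1
  have hcard : Nat.card ↥(twistedD4 F 1) = Nat.card ↥(chevG2.group F) := by
    rw [Cfsg.Agent.S1059.result rfl, G2Fix.gam_eq, G2Fix.card_gam _ rfl]
  let ρ' : ↥(twistedD4 F 1) →* ↥(chevG2.group F) :=
    G2Rho.rhoG.codRestrict (chevG2.group F) (fun g => by
      rw [← G2Rho.range_rhoG]
      exact ⟨g, rfl⟩)
  have hsurj : Function.Surjective ρ' := by
    rintro ⟨y, hy⟩
    have hy' := hy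
    rw [← G2Rho.range_rhoG] at hy'
    obtain ⟨g, rfl⟩ := hy'
    exact ⟨g, rfl⟩
  have : Finite ↥(twistedD4 F 1) := inferInstance
  have : Finite ↥(chevG2.group F) := inferInstance
  have hbij : Function.Bijective ρ' :=
    (Nat.bijective_iff_surjective_and_card ρ').2 ⟨hsurj, hcard⟩
  exact ⟨((Subgroup.equivMapOfInjective _ (chevD4.group F).subtype
    (Subgroup.subtype_injective _)).trans (MulEquiv.subgroupCongr hmap)).trans
    (MulEquiv.ofBijective ρ' hbij)⟩

/-- The list form of a permutation of `Fin 4`. -/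
theorem p_eq (π : Equiv.Perm (Fin 4)) (a b c d : Fin 4) (h0 : π 0 = a) (h1 : π 1 = b)
    (h2 : π 2 = c) (h3 : π 3 = d) :
    ∀ i < 4, (if h : i < 4 then ((π ⟨i, h⟩ : Fin 4) : ℕ) else i) =
      [a.val, b.val, c.val, d.val].getD i 0 := by
  intro i hi
  rw [dif_pos hi]
  interval_cases i
  · show ((π 0 : Fin 4) : ℕ) = _
    rw [h0]
    rfl
  · show ((π 1 : Fin 4) : ℕ) = _
    rw [h1]
    rfl
  · show ((π 2 : Fin 4) : ℕ) = _
    rw [h2]
    rfl
  · show ((π 3 : Fin 4) : ℕ) = _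
    rw [h3]
    rfl

/-- The main theorem, with the permutation of `Fin 4` made explicit. -/
theorem main' (τ : MulAut ↥(chevD4.group F)) (π : Equiv.Perm (Fin 4))
    (hsym : ∀ i j : Fin 4, i ≠ j → chevD4.bonds (π i) (π j) = chevD4.bonds i j)
    (hact : ∀ (g : ↥(chevD4.group F)) (i : Fin 4) (t : F),
      (((g : GL chevD4.Idx F) : Matrix chevD4.Idx chevD4.Idx F) = chevD4.x F (chevD4.simple i) t →
        ((τ g : GL chevD4.Idx F) : Matrix chevD4.Idx chevD4.Idx F) =
          chevD4.x F (chevD4.simple (π i)) (t ^ chevD4.graphExp (ringChar F) i (π i))) ∧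
      (((g : GL chevD4.Idx F) : Matrix chevD4.Idx chevD4.Idx F) =
          chevD4.x F (chevD4.neg (chevD4.simple i)) t →
        ((τ g : GL chevD4.Idx F) : Matrix chevD4.Idx chevD4.Idx F) =
          chevD4.x F (chevD4.neg (chevD4.simple (π i))) (t ^ chevD4.graphExp (ringChar F) i (π i))))
    (hτ3 : orderOf τ = 3) :
    Nonempty (↥(MonoidHom.eqLocus τ.toMonoidHom (MonoidHom.id ↥(chevD4.group F))) ≃*
      ↥(chevG2.group F)) := by
  have hA : Acts τ.toMonoidHom (fun i => if h : i < 4 then ((π ⟨i, h⟩ : Fin 4) : ℕ) else i) := by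
    intro g i t hi
    have h := hact g ⟨i, hi⟩ t
    rw [graphExp_one, pow_one] at h
    simp only [dif_pos hi]
    exact h
  have h3 : τ * (τ * τ) = 1 := by
    rw [← pow_three, ← hτ3]
    exact pow_orderOf_eq_one τ
  have h3g : ∀ g, τ (τ (τ g)) = g := fun g => by
    have := DFunLike.congr_fun h3 g
    simpa only [MulAut.mul_apply, MulAut.one_apply] using this
  have hne1 : ¬ (∀ g, τ g = g) := by
    intro h
    have : τ = 1 := MulEquiv.ext h
    rw [this, orderOf_one] at hτ3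
    omega
  have hne2 : ¬ (∀ g, τ (τ g) = g) := by
    intro h
    have : τ ^ 2 = 1 := by
      rw [sq]
      exact MulEquiv.ext h
    have hd := orderOf_dvd_of_pow_eq_one this
    rw [hτ3] at hd
    omega
  obtain ⟨h1, hc⟩ := perm_cases π hsym
  rcases hc with ⟨h0, h2, h3'⟩ | ⟨h0, h2, h3'⟩ | ⟨h0, h2, h3'⟩ | ⟨h0, h2, h3'⟩ | ⟨h0, h2, h3'⟩ |
    ⟨h0, h2, h3'⟩
  · -- the identity
    exfalso
    have hA' := hA.congr (p_eq π _ _ _ _ h0 h1 h2 h3')
    exact hne1 (hA'.eq_id (by decide))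
  · -- the triality permutation
    have hA' := hA.congr (p_eq π _ _ _ _ h0 h1 h2 h3')
    exact final τ τ.toMonoidHom (fun g => Iff.rfl) (hA'.eq_sg (by decide))
  · -- its inverse
    have hA' := hA.congr (p_eq π _ _ _ _ h0 h1 h2 h3')
    have hA2 := hA'.comp hA' (by decide)
    refine final τ (τ.toMonoidHom.comp τ.toMonoidHom) (fun g => ?_) (hA2.eq_sg (by decide))
    constructor
    · intro hg
      show τ (τ g) = g
      rw [hg, hg]
    · intro hg
      have hg' : τ (τ g) = g := hg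
      calc τ g = τ (τ (τ (τ g))) := by rw [h3g]
        _ = τ g := by rw [h3g]
        _ = g := by
          have := h3g g
          rw [hg'] at this
          exact this
  · exfalso
    have hA' := hA.congr (p_eq π _ _ _ _ h0 h1 h2 h3')
    have hA2 := hA'.comp hA' (by decide)
    exact hne2 (hA2.eq_id (by decide))
  · exfalso
    have hA' := hA.congr (p_eq π _ _ _ _ h0 h1 h2 h3')
    have hA2 := hA'.comp hA' (by decide)
    exact hne2 (hA2.eq_id (by decide))
  · exfalso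
    have hA' := hA.congr (p_eq π _ _ _ _ h0 h1 h2 h3')
    have hA2 := hA'.comp hA' (by decide)
    exact hne2 (hA2.eq_id (by decide))

/-- The fixed points of a triality graph automorphism of `D₄(F)` form a group isomorphic to
`G₂(F)`. -/
theorem main (τ : MulAut ↥(chevD4.group F)) (hτ : chevD4.IsGraphAut τ) (hτ3 : orderOf τ = 3) :
    Nonempty (↥(MonoidHom.eqLocus τ.toMonoidHom (MonoidHom.id ↥(chevD4.group F))) ≃*
      ↥(chevG2.group F)) := by
  obtain ⟨π, hsym, hact⟩ := hτ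
  exact main' τ π hsym hact hτ3

end

end Cfsg.Agent.Lib.Helper5.G2Main
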