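import Mathlib
import Cfsg.Agent.S0263

set_option autoImplicit false

namespace Cfsg.Agent.Lib.Helper5.GL2Sylow

open Matrix

variable {F : Type*} [Field F]

/-- upper triangular element of `GL₂` -/
noncomputable def tri (a d : Fˣ) (b : F) : GL (Fin 2) F :=
  Matrix.GeneralLinearGroup.mkOfDetNeZero !![(a : F), b; 0, (d : F)] (by simp [Matrix.det_fin_two])

theorem tri_coe (a d : Fˣ) (b : F) :
    ((tri a d b : GL (Fin 2) F) : Matrix (Fin 2) (Fin 2) F) = !![(a : F), b; 0, (d : F)] := rfl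

theorem tri_mul (a d a' d' : Fˣ) (b b' : F) :
    tri a d b * tri a' d' b' = tri (a * a') (d * d') (a * b' + b * d') := by
  apply Units.ext
  rw [Units.val_mul, tri_coe, tri_coe, tri_coe]
  ext i j
  fin_cases i <;> fin_cases j <;> simp [Matrix.mul_apply, Fin.sum_univ_two]

theorem tri_one : tri (1 : Fˣ) 1 (0 : F) = 1 := by
  apply Units.ext
  rw [tri_coe]
  ext i j
  fin_cases i <;> fin_cases j <;> simp

theorem tri_inj {a d a' d' : Fˣ} {b b' : F} (h : tri a d b = tri a' d' b') :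
    a = a' ∧ d = d' ∧ b = b' := by
  have h1 := congrArg (fun g : GL (Fin 2) F => (g : Matrix (Fin 2) (Fin 2) F)) h
  simp only [tri_coe] at h1
  have e00 := congrFun (congrFun h1 0) 0
  have e01 := congrFun (congrFun h1 0) 1
  have e11 := congrFun (congrFun h1 1) 1
  simp at e00 e01 e11
  exact ⟨Units.ext e00, Units.ext e11, e01⟩

theorem tri_inv (a d : Fˣ) (b : F) :
    (tri a d b)⁻¹ = tri a⁻¹ d⁻¹ (-(b * (a⁻¹ : Fˣ) * (d⁻¹ : Fˣ))) := by
  apply inv_eq_of_mul_eq_one_right
  rw [tri_mul, ← tri_one]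
  congr 1
  · simp
  · simp
  · have ha : (a : F) ≠ 0 := a.ne_zero
    have hd : (d : F) ≠ 0 := d.ne_zero
    simp only [Units.val_inv_eq_inv_val]
    field_simp
    ring

theorem eq_tri (g : GL (Fin 2) F) (h : (g : Matrix (Fin 2) (Fin 2) F) 1 0 = 0) :
    ∃ a d b, g = tri a d b := by
  have hdet : (g : Matrix (Fin 2) (Fin 2) F).det ≠ 0 := (Matrix.isUnits_det_units g).ne_zero
  rw [Matrix.det_fin_two, h, mul_zero, sub_zero] at hdet
  have h0 : (g : Matrix (Fin 2) (Fin 2) F) 0 0 ≠ 0 := left_ne_zero_of_mul hdet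
  have h1 : (g : Matrix (Fin 2) (Fin 2) F) 1 1 ≠ 0 := right_ne_zero_of_mul hdet
  refine ⟨Units.mk0 _ h0, Units.mk0 _ h1, (g : Matrix (Fin 2) (Fin 2) F) 0 1, ?_⟩
  apply Units.ext
  rw [tri_coe]
  ext i j
  fin_cases i <;> fin_cases j <;> simp [h]

variable (F) in
/-- the Borel subgroup of upper triangular matrices -/
def B : Subgroup (GL (Fin 2) F) where
  carrier := {g | (g : Matrix (Fin 2) (Fin 2) F) 1 0 = 0}
  mul_mem' := by
    intro g h hg hh
    obtain ⟨a, d, b, rfl⟩ := eq_tri g hg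
    obtain ⟨a', d', b', rfl⟩ := eq_tri h hh
    show ((tri a d b * tri a' d' b' : GL (Fin 2) F) : Matrix (Fin 2) (Fin 2) F) 1 0 = 0
    rw [tri_mul, tri_coe]
    simp
  one_mem' := by
    show ((1 : GL (Fin 2) F) : Matrix (Fin 2) (Fin 2) F) 1 0 = 0
    simp
  inv_mem' := by
    intro g hg
    obtain ⟨a, d, b, rfl⟩ := eq_tri g hg
    show (((tri a d b)⁻¹ : GL (Fin 2) F) : Matrix (Fin 2) (Fin 2) F) 1 0 = 0
    rw [tri_inv, tri_coe]
    simp

theorem mem_B_iff (g : GL (Fin 2) F) : g ∈ B F ↔ (g : Matrix (Fin 2) (Fin 2) F) 1 0 = 0 := Iff.rfl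

theorem tri_mem_B (a d : Fˣ) (b : F) : tri a d b ∈ B F := by
  rw [mem_B_iff, tri_coe]; simp

theorem mem_B_iff_tri (g : GL (Fin 2) F) : g ∈ B F ↔ ∃ a d b, g = tri a d b :=
  ⟨fun h => eq_tri g h, fun ⟨a, d, b, h⟩ => h ▸ tri_mem_B a d b⟩

variable (F) in
/-- the unipotent hom -/
noncomputable def upperHom : Multiplicative F →* GL (Fin 2) F where
  toFun b := tri 1 1 (Multiplicative.toAdd b)
  map_one' := tri_one
  map_mul' x y := by
    rw [tri_mul]
    congr 1
    · simp
    · simp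
    · simp only [Units.val_one, one_mul, mul_one, toAdd_mul]
      exact add_comm _ _

variable (F) in
/-- upper unitriangular subgroup -/
noncomputable def U : Subgroup (GL (Fin 2) F) := (upperHom F).range

theorem mem_U_iff (g : GL (Fin 2) F) : g ∈ U F ↔ ∃ b : F, g = tri 1 1 b := by
  constructor
  · rintro ⟨x, rfl⟩
    exact ⟨Multiplicative.toAdd x, rfl⟩
  · rintro ⟨b, rfl⟩
    exact ⟨Multiplicative.ofAdd b, rfl⟩

theorem upperHom_injective : Function.Injective (upperHom F) := by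
  intro x y h
  exact (tri_inj h).2.2

/-- conjugation of a unipotent by an upper triangular element -/
theorem tri_conj (a d : Fˣ) (b c : F) :
    tri a d b * tri 1 1 c * (tri a d b)⁻¹ = tri 1 1 (a * c * (d⁻¹ : Fˣ)) := by
  rw [mul_inv_eq_iff_eq_mul, tri_mul, tri_mul]
  congr 1
  · simp
  · simp
  · have hd : (d : F) ≠ 0 := d.ne_zero
    simp only [Units.val_inv_eq_inv_val, Units.val_one]
    field_simp
    ring

/-- the key fusion lemma: conjugating a nontrivial unipotent into `U` forces upper triangular -/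
theorem fusion (c : F) (hc : c ≠ 0) (k : GL (Fin 2) F) (hk : k⁻¹ * tri 1 1 c * k ∈ U F) :
    k ∈ B F := by
  rw [mem_U_iff] at hk
  obtain ⟨c', hc'⟩ := hk
  have h1 : tri 1 1 c * k = k * tri 1 1 c' := by
    rw [← hc']; group
  have h2 := congrArg (fun g : GL (Fin 2) F => (g : Matrix (Fin 2) (Fin 2) F) 0 0) h1
  simp only [Units.val_mul, tri_coe, Matrix.mul_apply, Fin.sum_univ_two] at h2
  simp at h2
  rw [mem_B_iff]
  rcases h2 with h2 | h2
  · exact absurd h2 hc
  · exact h2

theorem normalizer_U : Subgroup.normalizer ((U F : Subgroup (GL (Fin 2) F)) : Set (GL (Fin 2) F)) = B F := by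
  ext g
  constructor
  · intro hg
    rw [Subgroup.mem_normalizer_iff''] at hg
    have h1 : tri 1 1 (1 : F) ∈ U F := (mem_U_iff _).mpr ⟨1, rfl⟩
    exact fusion 1 one_ne_zero g ((hg _).mp h1)
  · intro hg
    have key : ∀ g ∈ B F, ∀ h ∈ U F, g * h * g⁻¹ ∈ U F := by
      intro g hg h hh
      obtain ⟨a, d, b, rfl⟩ := (mem_B_iff_tri g).mp hg
      obtain ⟨c, rfl⟩ := (mem_U_iff h).mp hh
      rw [tri_conj]
      exact (mem_U_iff _).mpr ⟨_, rfl⟩
    rw [Subgroup.mem_normalizer_iff]
    intro h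
    constructor
    · exact key g hg h
    · intro hh
      have := key g⁻¹ ((B F).inv_mem hg) _ hh
      simpa [mul_assoc] using this

section Finite

variable [Fintype F] {q : ℕ} (hF : Fintype.card F = q)

include hF in
theorem card_U : Nat.card (U F) = q := by
  rw [U, ← Nat.card_congr (MonoidHom.ofInjective upperHom_injective).toEquiv]
  rw [Nat.card_eq_fintype_card, Fintype.card_multiplicative]
  exact hF

include hF in
theorem card_B : Nat.card (B F) = q * (q - 1) ^ 2 := by
  classical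
  have h1 : ((B F : Subgroup (GL (Fin 2) F)) : Set (GL (Fin 2) F))
      = Set.range (fun x : Fˣ × Fˣ × F => tri x.1 x.2.1 x.2.2) := by
    ext g
    simp only [SetLike.mem_coe, mem_B_iff_tri, Set.mem_range, Prod.exists]
    constructor
    · rintro ⟨a, d, b, rfl⟩; exact ⟨a, d, b, rfl⟩
    · rintro ⟨a, d, b, rfl⟩; exact ⟨a, d, b, rfl⟩
  have hinj : Function.Injective (fun x : Fˣ × Fˣ × F => tri x.1 x.2.1 x.2.2) := by
    rintro ⟨a, d, b⟩ ⟨a', d', b'⟩ h
    obtain ⟨h1, h2, h3⟩ := tri_inj h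
    simp only at h1 h2 h3
    rw [h1, h2, h3]
  show Nat.card ((B F : Subgroup (GL (Fin 2) F)) : Set (GL (Fin 2) F)) = _
  rw [h1, Nat.card_range_of_injective hinj, Nat.card_prod, Nat.card_prod,
    Nat.card_eq_fintype_card, Fintype.card_units, Nat.card_eq_fintype_card, hF]
  ring

include hF in
/-- the centraliser of a nontrivial unipotent element -/
theorem card_centralizer_tri (c : F) (hc : c ≠ 0) :
    Nat.card (Subgroup.centralizer ({tri 1 1 c} : Set (GL (Fin 2) F))) = q * (q - 1) := by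
  classical
  have h1 : ((Subgroup.centralizer ({tri 1 1 c} : Set (GL (Fin 2) F)) : Subgroup (GL (Fin 2) F))
      : Set (GL (Fin 2) F)) = Set.range (fun x : Fˣ × F => tri x.1 x.1 x.2) := by
    ext g
    simp only [SetLike.mem_coe, Subgroup.mem_centralizer_iff, Set.mem_singleton_iff, forall_eq,
      Set.mem_range, Prod.exists]
    constructor
    · intro h
      have hB : g ∈ B F := by
        apply fusion c hc
        rw [mul_assoc, h, inv_mul_cancel_left]
        exact (mem_U_iff _).mpr ⟨c, rfl⟩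
      obtain ⟨a, d, b, rfl⟩ := (mem_B_iff_tri g).mp hB
      rw [tri_mul, tri_mul] at h
      have h3 := (tri_inj h).2.2
      simp only [Units.val_one, one_mul, mul_one] at h3
      have had : a = d := by
        apply Units.ext
        have : (c : F) * ((d : F) - a) = 0 := by linear_combination h3
        rcases mul_eq_zero.mp this with h4 | h4
        · exact absurd h4 hc
        · exact (sub_eq_zero.mp h4).symm
      exact ⟨a, b, by rw [had]⟩
    · rintro ⟨a, b, rfl⟩
      rw [tri_mul, tri_mul]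
      congr 1
      · simp
      · simp
      · simp only [Units.val_one, one_mul, mul_one]
        ring
  have hinj : Function.Injective (fun x : Fˣ × F => tri x.1 x.1 x.2) := by
    rintro ⟨a, b⟩ ⟨a', b'⟩ h
    obtain ⟨h1, h2, h3⟩ := tri_inj h
    simp only at h1 h3
    rw [h1, h3]
  show Nat.card ((Subgroup.centralizer ({tri 1 1 c} : Set (GL (Fin 2) F)) : Subgroup (GL (Fin 2) F))
      : Set (GL (Fin 2) F)) = _
  rw [h1, Nat.card_range_of_injective hinj, Nat.card_prod,
    Nat.card_eq_fintype_card, Fintype.card_units, Nat.card_eq_fintype_card, hF]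
  ring

variable (p : ℕ) [Fact p.Prime] [CharP F p]

include hF in
theorem card_U_eq : Nat.card (U F) = p ^ (Nat.card (GL (Fin 2) F)).factorization p := by
  have P : Sylow p (GL (Fin 2) F) := default
  rw [← Sylow.card_eq_multiplicity P, Cfsg.Agent.S0263.result hF p 2 P, card_U hF]
  norm_num

/-- `U` as a Sylow `p`-subgroup -/
noncomputable def U₀ : Sylow p (GL (Fin 2) F) := Sylow.ofCard (U F) (card_U_eq rfl p)

theorem coe_U₀ : ((U₀ (F := F) p : Sylow p (GL (Fin 2) F)) : Subgroup (GL (Fin 2) F)) = U F := rfl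

/-- every Sylow `p`-subgroup is a conjugate of `U` -/
theorem exists_conj (P : Sylow p (GL (Fin 2) F)) :
    ∃ g : GL (Fin 2) F, ∀ x, x ∈ P ↔ g⁻¹ * x * g ∈ U F := by
  obtain ⟨g, hg⟩ := MulAction.exists_smul_eq (GL (Fin 2) F) (U₀ (F := F) p) P
  refine ⟨g, fun x => ?_⟩
  rw [← hg]
  show x ∈ ((g • U₀ (F := F) p : Sylow p (GL (Fin 2) F)) : Subgroup (GL (Fin 2) F)) ↔ _
  rw [Sylow.coe_subgroup_smul, Subgroup.mem_pointwise_smul_iff_inv_smul_mem, coe_U₀]
  simp [MulAut.smul_def]

end Finite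

end Cfsg.Agent.Lib.Helper5.GL2Sylow
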