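import Mathlib
import Cfsg.Agent.Lib.Helper27.JzStmt

/-!
# S5403 / GLOC3 (helper5)

The two witnesses in the centraliser of `a`, from the field `fus` of `JData`: with
`u = g t g⁻¹` in the kernel of `φ`, either `u` or `n u` lies in `K`; that element `w` is an
involution of `K` commuting with `a`, with `(w * h w h⁻¹) ^ 2 = t ≠ 1`.
-/

set_option autoImplicit false

namespace Cfsg.Agent.Lib.Helper5.JzGLOC3

open Cfsg Cfsg.Agent.Lib.Helper27.OzStmt Cfsg.Agent.Lib.Helper27.JzStmt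

/-- the core computation: an involution `w` with `(w * w^h)^2 = t ≠ 1`: the commutator of `h`
and `w` does not commute with `w` -/
theorem core {G : Type} [Group G] (t w h : G) (hww : w * w = 1) (ht : t ≠ 1)
    (hsq : (w * (h * w * h⁻¹)) * (w * (h * w * h⁻¹)) = t) :
    (h * w * h⁻¹ * w⁻¹) * w ≠ w * (h * w * h⁻¹ * w⁻¹) := by
  intro heq
  apply ht
  have hwinv : w⁻¹ = w := inv_eq_of_mul_eq_one_right hww
  have hvv : (h * w * h⁻¹) * (h * w * h⁻¹) = 1 := by
    calc (h * w * h⁻¹) * (h * w * h⁻¹) = h * (w * w) * h⁻¹ := by group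
      _ = 1 := by rw [hww]; group
  have hcomm : (h * w * h⁻¹) * w = w * (h * w * h⁻¹) := by
    have h1 : (h * w * h⁻¹ * w⁻¹) * w = h * w * h⁻¹ := by group
    rw [h1, hwinv] at heq
    calc (h * w * h⁻¹) * w = (w * (h * w * h⁻¹ * w)) * w := by rw [← heq]
      _ = w * (h * w * h⁻¹) * (w * w) := by group
      _ = w * (h * w * h⁻¹) := by rw [hww, mul_one]
  rw [← hsq]
  calc (w * (h * w * h⁻¹)) * (w * (h * w * h⁻¹))
      = w * ((h * w * h⁻¹) * w) * (h * w * h⁻¹) := by group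
    _ = w * (w * (h * w * h⁻¹)) * (h * w * h⁻¹) := by rw [hcomm]
    _ = (w * w) * ((h * w * h⁻¹) * (h * w * h⁻¹)) := by group
    _ = 1 := by rw [hww, hvv, mul_one]

/-- the two witnesses, from an involution `w` of `K` with `g t g⁻¹ = w z0`, `z0` central -/
theorem glue {G : Type} [Group G] (a t g h w z0 : G) (K : Subgroup G) (ha : t * a = a * t)
    (hga : g * a = a * g) (hha : h * a = a * h) (hht : h * t = t * h) (ht : t ≠ 1)
    (htt : t * t = 1) (hwK : w ∈ K) (hz0 : z0 ∈ Subgroup.center G)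
    (hu : g * t * g⁻¹ = w * z0) (hww : w * w = 1)
    (hsq : (w * (h * w * h⁻¹)) * (w * (h * w * h⁻¹)) = t) :
    (∃ h' : ↥(MA a), h' * toMA a t ha = toMA a t ha * h' ∧ ∃ k ∈ QA a K, ∃ k' ∈ QA a K,
      (h' * k * h'⁻¹ * k⁻¹) * k' ≠ k' * (h' * k * h'⁻¹ * k⁻¹)) ∧
    (∃ g' : ↥(MA a), ∃ q ∈ QA a K, ∃ z ∈ ZA a,
      g' * toMA a t ha * g'⁻¹ = q * z ∧ q ≠ toMA a t ha) := by
  have hz0a : z0 * a = a * z0 := (Subgroup.mem_center_iff.mp hz0 a).symm
  have hw : w = g * t * g⁻¹ * z0⁻¹ := eq_mul_inv_of_mul_eq hu.symm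
  have hwa : w * a = a * w := by
    have c1 : Commute g a := hga
    have c2 : Commute t a := ha
    have c3 : Commute z0 a := hz0a
    have c4 : Commute (g * t * g⁻¹ * z0⁻¹) a :=
      ((c1.mul_left c2).mul_left c1.inv_left).mul_left c3.inv_left
    rw [hw]
    exact c4
  have hwQ : (⟨w, mem_MA hwa⟩ : ↥(MA a)) ∈ QA a K := by
    rw [Subgroup.mem_subgroupOf]
    refine Subgroup.mem_inf.mpr ⟨hwK, ?_⟩
    rw [Subgroup.mem_centralizer_iff]
    intro y hy
    rw [Set.mem_singleton_iff] at hy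
    rw [hy]
    exact hwa.symm
  have hzZ : (⟨z0, mem_MA hz0a⟩ : ↥(MA a)) ∈ ZA a := by
    rw [Subgroup.mem_subgroupOf]
    exact Subgroup.mem_sup_right hz0
  constructor
  · refine ⟨⟨h, mem_MA hha⟩, ?_, ⟨w, mem_MA hwa⟩, hwQ, ⟨w, mem_MA hwa⟩, hwQ, ?_⟩
    · exact Subtype.ext hht
    · intro heq
      exact core t w h hww ht hsq (congrArg Subtype.val heq)
  · refine ⟨⟨g, mem_MA hga⟩, ⟨w, mem_MA hwa⟩, hwQ, ⟨z0, mem_MA hz0a⟩, hzZ, ?_, ?_⟩
    · exact Subtype.ext hu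
    · intro hq
      have hwt : w = t := congrArg Subtype.val hq
      apply ht
      have h1 : h * t * h⁻¹ = t := by rw [hht]; group
      rw [hwt, h1, htt, mul_one] at hsq
      exact hsq.symm

theorem main : GLoc3 := by
  intro G _ _ t n a K φ ha jd
  obtain ⟨g, h, hga, hha, hht, ⟨x, hx, hφx⟩, hsq⟩ := jd.fus
  have c := jd.ctx
  have hn_c : n ∈ Subgroup.center G := (c.center n).mpr (Or.inr rfl)
  have hnc : ∀ y : G, y * n = n * y := fun y => Subgroup.mem_center_iff.mp hn_c y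
  have hnn : n * n = 1 := by
    have h1 : n * n ∈ Subgroup.center G := Subgroup.mul_mem _ hn_c hn_c
    rcases (c.center (n * n)).mp h1 with h2 | h2
    · exact h2
    · exfalso
      exact c.n_ne (by simpa using h2)
  have huu : (g * t * g⁻¹) * (g * t * g⁻¹) = 1 := by
    calc (g * t * g⁻¹) * (g * t * g⁻¹) = g * (t * t) * g⁻¹ := by group
      _ = 1 := by rw [c.t_sq]; group
  have hker := (c.ker x).mp hφx
  rw [hx] at hker
  rcases hker with hk | hk
  · exact glue a t g h (g * t * g⁻¹) 1 K ha hga hha hht c.t_ne c.t_sq hk (Subgroup.one_mem _)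
      (mul_one _).symm huu hsq
  · have hnu : n * (g * t * g⁻¹) * (n * (g * t * g⁻¹)) = 1 := by
      calc n * (g * t * g⁻¹) * (n * (g * t * g⁻¹))
          = n * ((g * t * g⁻¹) * n) * (g * t * g⁻¹) := by group
        _ = n * (n * (g * t * g⁻¹)) * (g * t * g⁻¹) := by rw [hnc]
        _ = (n * n) * ((g * t * g⁻¹) * (g * t * g⁻¹)) := by group
        _ = 1 := by rw [hnn, huu, mul_one]
    have hconj : h * (n * (g * t * g⁻¹)) * h⁻¹ = n * (h * (g * t * g⁻¹) * h⁻¹) := by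
      calc h * (n * (g * t * g⁻¹)) * h⁻¹ = (h * n) * (g * t * g⁻¹) * h⁻¹ := by group
        _ = (n * h) * (g * t * g⁻¹) * h⁻¹ := by rw [hnc h]
        _ = n * (h * (g * t * g⁻¹) * h⁻¹) := by group
    have hprod : n * (g * t * g⁻¹) * (h * (n * (g * t * g⁻¹)) * h⁻¹)
        = g * t * g⁻¹ * (h * (g * t * g⁻¹) * h⁻¹) := by
      rw [hconj]
      calc n * (g * t * g⁻¹) * (n * (h * (g * t * g⁻¹) * h⁻¹))
          = n * ((g * t * g⁻¹) * n) * (h * (g * t * g⁻¹) * h⁻¹) := by group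
        _ = n * (n * (g * t * g⁻¹)) * (h * (g * t * g⁻¹) * h⁻¹) := by rw [hnc]
        _ = (n * n) * ((g * t * g⁻¹) * (h * (g * t * g⁻¹) * h⁻¹)) := by group
        _ = g * t * g⁻¹ * (h * (g * t * g⁻¹) * h⁻¹) := by rw [hnn, one_mul]
    refine glue a t g h (n * (g * t * g⁻¹)) n K ha hga hha hht c.t_ne c.t_sq hk hn_c ?_ hnu ?_
    · calc g * t * g⁻¹ = (n * n) * (g * t * g⁻¹) := by rw [hnn, one_mul]
        _ = n * (n * (g * t * g⁻¹)) := by group
        _ = n * ((g * t * g⁻¹) * n) := by rw [hnc]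
        _ = n * (g * t * g⁻¹) * n := by group
    · rw [hprod]
      exact hsq

end Cfsg.Agent.Lib.Helper5.JzGLOC3
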