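import Mathlib
import Cfsg.Agent.Lib.Helper45.OMiStmt
import Cfsg.Agent.Lib.Helper44.OTyp3

/-!
# S5991 / NOFREEM (helper5)

An isometry of odd prime order `r ≠ p` of the standard minus form of dimension `2 d` without
fixed vectors exists only if `i = ord_r(q)` is even and `2 d / i` is odd.  Direct proof, without
the embedding into the odd form: `Helper44.OTyp3.obs_matrix` computes the number of singular
vectors from the parity condition, `OTyp3.sing_minus` gives the number for the minus form, and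
the two values are different (`OTyp1.NP_ne_NM`).
-/

set_option autoImplicit false

universe u

open scoped Matrix

namespace Cfsg.Agent.Lib.Helper5.OMiNOFREEM

open Cfsg.Agent.Lib.Helper45.OMiStmt
open Cfsg.Agent.Lib.Helper44

theorem main : NoFreeM.{u} := by
  intro F _ _ p _ _ hq d hd a b hab r _ hr2 hrp x hx hxr hfix
  classical
  have hrP : r.Prime := Fact.out
  have hp : p.Prime := Fact.out
  have h2 : (2 : F) ≠ 0 := by
    apply Ring.two_ne_zero
    intro hc
    have h := FiniteField.even_card_iff_char_two.mp hc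
    rcases hq with ⟨c, hc'⟩
    omega
  have hq0 : ((Fintype.card F : ℕ) : ZMod r) ≠ 0 := by
    intro h0
    rw [ZMod.natCast_eq_zero_iff] at h0
    obtain ⟨n, -, hcard⟩ := FiniteField.card F p
    rw [hcard] at h0
    exact hrp ((Nat.prime_dvd_prime_iff_eq hrP hp).mp (hrP.dvd_of_dvd_pow h0))
  obtain ⟨t, ht⟩ : ∃ t, t * orderOf ((Fintype.card F : ℕ) : ZMod r) = r - 1 := by
    obtain ⟨t, ht⟩ := ZMod.orderOf_dvd_card_sub_one hq0
    exact ⟨t, by rw [ht, mul_comm]⟩
  have hS : QSpace.Sep (NegPairs.minusQ (d - 1) F a b) :=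
    NegPairs.sep_minusQ h2 (d - 1) a b hab
  have hcard : Fintype.card (M d) = 2 * (d - 1 + 1) := by
    simp only [Fintype.card_sum, Fintype.card_fin]
    omega
  have hsr : (x : Matrix (M d) (M d) F) ^ r = 1 := by
    rw [← Units.val_pow_eq_pow_val, hxr]
    rfl
  have hsQ : ∀ u, NegPairs.minusQ (d - 1) F a b ((x : Matrix (M d) (M d) F) *ᵥ u)
      = NegPairs.minusQ (d - 1) F a b u := fun u => hx u u
  have hsL : ¬ (Polynomial.X - Polynomial.C (1 : F)) ∣ (x : Matrix (M d) (M d) F).charpoly := by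
    intro hdvd
    rw [Polynomial.dvd_iff_isRoot, Polynomial.IsRoot, Matrix.eval_charpoly] at hdvd
    obtain ⟨v, hv, hv0⟩ := Matrix.exists_mulVec_eq_zero_iff.mpr hdvd
    apply hv
    have hmem : v ∈ FxM (x : Matrix (M d) (M d) F) := by
      rw [mem_FxM]
      rw [Matrix.sub_mulVec, map_one, Matrix.one_mulVec, sub_eq_zero] at hv0
      exact hv0.symm
    rw [hfix] at hmem
    exact (Submodule.mem_bot F).mp hmem
  obtain ⟨h1, -⟩ := OTyp3.obs_matrix (NegPairs.minusQ (d - 1) F a b) hS hcard r _ t hrP hr2 hrp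
    rfl ht (x : Matrix (M d) (M d) F) hsr hsQ hsL
  have hm := OTyp3.sing_minus (F := F) (d - 1) a b hab
  have hne := OTyp1.NP_ne_NM (Fintype.card F) (d - 1) Fintype.one_lt_card
  have hnot : ¬ (Odd (orderOf ((Fintype.card F : ℕ) : ZMod r)) ∨
      Even (2 * (d - 1 + 1) / orderOf ((Fintype.card F : ℕ) : ZMod r))) := by
    intro h
    exact hne ((h1 h).symm.trans hm)
  rw [Nat.sub_add_cancel hd, not_or, Nat.not_odd_iff_even, Nat.not_even_iff_odd] at hnot
  exact hnot

end Cfsg.Agent.Lib.Helper5.OMiNOFREEM
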