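import Mathlib
import Cfsg.Agent.Lib.Helper5.OmegaSimple

set_option autoImplicit false

namespace Cfsg.Agent.Lib.Helper5.OmegaSimple5

open Module QuadraticMap
open Cfsg.Agent.Lib.Helper44.Split Cfsg.Agent.Lib.Helper44.QSpace Cfsg.Agent.Lib.Helper44.OGroup
open Cfsg.Agent.Lib.Helper44.Eichler Cfsg.Agent.Lib.Helper44.Siegel
open Cfsg.Agent.Lib.Helper44.ReflClass (q_sub)
open Cfsg.Agent.Lib.Helper5.OmegaSimple

universe u

variable {F : Type*} [Field F] {V : Type u} [AddCommGroup V] [Module F V]
variable {Q : QuadraticForm F V}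

/-- two singular vectors have a common singular non-orthogonal vector (dimension at least 3) -/
theorem exists_sing_both3 [FiniteDimensional F V] (hS : Sep Q) (hn : 3 ≤ finrank F V) {a b : V}
    (ha0 : a ≠ 0) (ha : Q a = 0) (hb0 : b ≠ 0) (hb : Q b = 0) :
    ∃ d, Q d = 0 ∧ polar Q d a ≠ 0 ∧ polar Q d b ≠ 0 := by
  obtain ⟨a', ha', haa'⟩ := exists_hyp_pair hS ha0 ha
  have ha'a : polar Q a' a = 1 := by rw [polar_comm]; exact haa'
  by_cases h1 : polar Q a' b = 0
  swap
  · exact ⟨a', ha', by rw [ha'a]; exact one_ne_zero, h1⟩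
  have hSX := sep_perp2 hS ha ha' haa'
  have hfr := finrank_perp2' ha ha' haa'
  -- it suffices to find `z` in the complement with `f(z,b) - Q(z) f(a,b) ≠ 0`
  suffices hz : ∃ z : V, polar Q a z = 0 ∧ polar Q a' z = 0 ∧
      polar Q z b - Q z * polar Q a b ≠ 0 by
    obtain ⟨z, hza, hza', hzb⟩ := hz
    refine ⟨a' + z - Q z • a, q_hyp_shift ha ha' haa' hza hza', ?_, ?_⟩
    · rw [polar_sub_left, polar_add_left, polar_smul_l, ha'a, polar_comm Q z a, hza, polar_self',
        ha]
      simp
    · rw [polar_sub_left, polar_add_left, polar_smul_l, h1, zero_add]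
      exact hzb
  by_cases h2 : polar Q a b = 0
  · -- `b` lies in the complement
    have hbX : b ∈ perp2 (polarBilin Q) a a' := by
      rw [mem_perp2, pB_apply, pB_apply]
      exact ⟨h2, h1⟩
    obtain ⟨z, hz⟩ : ∃ z : perp2 (polarBilin Q) a a', polar Q b (z : V) ≠ 0 := by
      by_contra hcon
      push Not at hcon
      have := hSX ⟨b, hbX⟩ (fun y => hcon y)
      exact hb0 (congrArg Subtype.val this)
    obtain ⟨hz1, hz2⟩ := (mem_perp2 _ _ _ _).mp z.2
    refine ⟨(z : V), hz1, hz2, ?_⟩
    rw [h2, mul_zero, sub_zero, polar_comm]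
    exact hz
  · -- the component of `b` in the complement is singular
    have hbX : b - polar Q a' b • a - polar Q a b • a' ∈ perp2 (polarBilin Q) a a' :=
      proj_mem_perp2 (polarBilin Q) (pB_symm Q)
        (by rw [pB_apply, polar_self', ha, mul_zero])
        (by rw [pB_apply, polar_self', ha', mul_zero]) haa' b
    have hbXq : Q (b - polar Q a' b • a - polar Q a b • a') = 0 := by
      rw [h1, zero_smul, sub_zero, q_sub, q_smul, hb, ha', polar_smul_r, polar_comm Q b a', h1]
      ring
    by_cases hb0X : b - polar Q a' b • a - polar Q a b • a' = 0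
    · -- `b` is a multiple of `a'`
      have hnt : Nontrivial (perp2 (polarBilin Q) a a') :=
        Module.nontrivial_of_finrank_pos (R := F) (by omega)
      obtain ⟨z, hz⟩ := exists_ne_zero hSX
      have hzq : Q (z : V) ≠ 0 := hz
      obtain ⟨hz1, hz2⟩ := (mem_perp2 _ _ _ _).mp z.2
      rw [pB_apply] at hz1 hz2
      refine ⟨(z : V), hz1, hz2, ?_⟩
      have hb' : b = polar Q a b • a' := by
        rw [h1, zero_smul, sub_zero] at hb0X
        exact sub_eq_zero.mp hb0X
      have hzb : polar Q (z : V) b = 0 := by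
        rw [hb', polar_smul_r, polar_comm Q (z : V) a', hz2, mul_zero]
      rw [hzb, zero_sub]
      exact neg_ne_zero.mpr (mul_ne_zero hzq h2)
    · obtain ⟨h, hh, hbh⟩ := exists_hyp_pair (Q := res Q (perp2 (polarBilin Q) a a')) hSX
        (e := ⟨_, hbX⟩) (fun h0 => hb0X (congrArg Subtype.val h0)) hbXq
      have hhq : Q (h : V) = 0 := hh
      have hbh' : polar Q (b - polar Q a' b • a - polar Q a b • a') (h : V) = 1 := hbh
      obtain ⟨hz1, hz2⟩ := (mem_perp2 _ _ _ _).mp h.2
      rw [pB_apply] at hz1 hz2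
      refine ⟨(h : V), hz1, hz2, ?_⟩
      rw [polar_sub_left, polar_sub_left, polar_smul_l, polar_smul_l, hz1, hz2] at hbh'
      have hzb : polar Q (h : V) b = 1 := by
        rw [polar_comm]
        linear_combination hbh'
      rw [hzb, hhq, zero_mul, sub_zero]
      exact one_ne_zero

/-- moving within the stabiliser of a singular point -/
theorem exists_move5 [FiniteDimensional F V] (hS : Sep Q) (hn : 5 ≤ finrank F V) {u w x : V}
    (hu0 : u ≠ 0) (hu : Q u = 0) (hw : Q w = 0) (hx : Q x = 0)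
    (hwu : w ∉ Submodule.span F {u}) (hxu : x ∉ Submodule.span F {u})
    (h : (polar Q u w ≠ 0 ∧ polar Q u x ≠ 0) ∨ (polar Q u w = 0 ∧ polar Q u x = 0)) :
    ∃ g ∈ EG Q, ((g : ↥(O Q)) : V ≃ₗ[F] V) u = u ∧
      ∃ c : F, c ≠ 0 ∧ ((g : ↥(O Q)) : V ≃ₗ[F] V) w = c • x := by
  rcases h with ⟨h1, h2⟩ | ⟨h1, h2⟩
  · apply move_aux hu hw hx (by rw [polar_self', hu, mul_zero]) h1 h2
    rw [polar_sub_left, polar_smul_l, polar_comm Q x u, polar_comm Q w u]
    field_simp
    ring
  · obtain ⟨u', hu', huu'⟩ := exists_hyp_pair hS hu0 hu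
    have hSX := sep_perp2 hS hu hu' huu'
    have hfr := finrank_perp2' hu hu' huu'
    have hee : polarBilin Q u u = 0 := by rw [pB_apply, polar_self', hu, mul_zero]
    have hff : polarBilin Q u' u' = 0 := by rw [pB_apply, polar_self', hu', mul_zero]
    have hwX : w - polar Q u' w • u - polar Q u w • u' ∈ perp2 (polarBilin Q) u u' :=
      proj_mem_perp2 (polarBilin Q) (pB_symm Q) hee hff huu' w
    have hxX : x - polar Q u' x • u - polar Q u x • u' ∈ perp2 (polarBilin Q) u u' :=
      proj_mem_perp2 (polarBilin Q) (pB_symm Q) hee hff huu' x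
    rw [h1, zero_smul, sub_zero] at hwX
    rw [h2, zero_smul, sub_zero] at hxX
    have hwq : Q (w - polar Q u' w • u) = 0 := by
      rw [q_sub, q_smul, hw, hu, polar_smul_r, polar_comm Q w u, h1]
      ring
    have hxq : Q (x - polar Q u' x • u) = 0 := by
      rw [q_sub, q_smul, hx, hu, polar_smul_r, polar_comm Q x u, h2]
      ring
    have hw0 : (⟨_, hwX⟩ : perp2 (polarBilin Q) u u') ≠ 0 := by
      intro h0
      apply hwu
      have h3 : w - polar Q u' w • u = 0 := congrArg Subtype.val h0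
      rw [sub_eq_zero.mp h3]
      exact Submodule.smul_mem _ _ (Submodule.mem_span_singleton_self u)
    have hx0 : (⟨_, hxX⟩ : perp2 (polarBilin Q) u u') ≠ 0 := by
      intro h0
      apply hxu
      have h3 : x - polar Q u' x • u = 0 := congrArg Subtype.val h0
      rw [sub_eq_zero.mp h3]
      exact Submodule.smul_mem _ _ (Submodule.mem_span_singleton_self u)
    obtain ⟨d, hd, hdw, hdx⟩ := exists_sing_both3 (Q := res Q (perp2 (polarBilin Q) u u')) hSX
      (by omega) hw0 hwq hx0 hxq
    have hdq : Q (d : V) = 0 := hd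
    obtain ⟨hd1, hd2⟩ := (mem_perp2 _ _ _ _).mp d.2
    rw [pB_apply] at hd1 hd2
    have hdu : polar Q (d : V) u = 0 := by rw [polar_comm]; exact hd1
    have hdw' : polar Q (d : V) w ≠ 0 := by
      have h3 : polar Q (d : V) (w - polar Q u' w • u) ≠ 0 := hdw
      rw [polar_sub_right, polar_smul_r, hdu, mul_zero, sub_zero] at h3
      exact h3
    have hdx' : polar Q (d : V) x ≠ 0 := by
      have h3 : polar Q (d : V) (x - polar Q u' x • u) ≠ 0 := hdx
      rw [polar_sub_right, polar_smul_r, hdu, mul_zero, sub_zero] at h3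
      exact h3
    apply move_aux hdq hw hx hdu hdw' hdx'
    rw [polar_sub_left, polar_smul_l, polar_comm Q x u, polar_comm Q w u, h1, h2]
    ring


section prim

open scoped LinearAlgebra.Projectivization

variable [Finite F] [FiniteDimensional F V]

open scoped Pointwise in
theorem block_move5 (hS : Sep Q) (hn : 5 ≤ finrank F V) {B : Set ↥(singSub Q)}
    (hB : MulAction.IsBlock ↥(EG Q) B) {u w x : V} (hu0 : u ≠ 0) (hu : Q u = 0)
    (hw0 : w ≠ 0) (hw : Q w = 0) (hx0 : x ≠ 0) (hx : Q x = 0)
    (hpu : pt u hu0 hu ∈ B) (hpw : pt w hw0 hw ∈ B)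
    (hwu : w ∉ Submodule.span F {u}) (hxu : x ∉ Submodule.span F {u})
    (h : (polar Q u w ≠ 0 ∧ polar Q u x ≠ 0) ∨ (polar Q u w = 0 ∧ polar Q u x = 0)) :
    pt x hx0 hx ∈ B := by
  obtain ⟨g, hg, hg1, c, hc, hg2⟩ := exists_move5 hS hn hu0 hu hw hx hwu hxu h
  have h1 : (⟨g, hg⟩ : ↥(EG Q)) • pt u hu0 hu = pt u hu0 hu := by
    rw [smul_pt, pt_eq_pt_iff]
    exact ⟨1, by rw [one_smul]; exact hg1.symm⟩
  have h2 : (⟨g, hg⟩ : ↥(EG Q)) • B = B := hB.smul_eq_of_mem hpu (by rw [h1]; exact hpu)
  have h3 : (⟨g, hg⟩ : ↥(EG Q)) • pt w hw0 hw ∈ (⟨g, hg⟩ : ↥(EG Q)) • B :=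
    Set.smul_mem_smul_set hpw
  rw [h2, smul_pt] at h3
  have h4 := (pt_eq_pt_iff ((LinearEquiv.map_ne_zero_iff _).mpr hw0)
    (by rw [(g : ↥(O Q)).2 w]; exact hw) hx0 hx).mpr ⟨c, hg2.symm⟩
  rw [← h4]
  exact h3

/-- the Eichler group acts primitively on the singular points -/
theorem isPreprimitive5 (hS : Sep Q) (hn : 5 ≤ finrank F V) :
    MulAction.IsPreprimitive ↥(EG Q) ↥(singSub Q) := by
  have htrans := isPretransitive hS (by omega : 5 ≤ finrank F V)
  refine { toIsPretransitive := htrans, isTrivialBlock_of_isBlock := ?_ }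
  intro B hB
  by_cases hsub : B.Subsingleton
  · exact Or.inl hsub
  right
  rw [Set.not_subsingleton_iff] at hsub
  obtain ⟨p, hp, r, hr, hpr⟩ := hsub
  obtain ⟨u, hu0, hu, rfl⟩ := exists_pt p
  obtain ⟨w, hw0, hw, rfl⟩ := exists_pt r
  have hwu : w ∉ Submodule.span F {u} := by
    intro hmem
    obtain ⟨a, ha⟩ := Submodule.mem_span_singleton.1 hmem
    apply hpr
    rw [pt_eq_pt_iff]
    have ha0 : a ≠ 0 := by
      rintro rfl
      rw [zero_smul] at ha
      exact hw0 ha.symm
    refine ⟨a⁻¹, ?_⟩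
    rw [← ha, smul_smul, inv_mul_cancel₀ ha0, one_smul]
  rw [Set.eq_univ_iff_forall]
  intro t
  obtain ⟨y, hy0, hy, rfl⟩ := exists_pt t
  by_cases hyu : y ∈ Submodule.span F {u}
  · obtain ⟨a, ha⟩ := Submodule.mem_span_singleton.1 hyu
    have : pt y hy0 hy = pt u hu0 hu := by
      rw [pt_eq_pt_iff]
      exact ⟨a, ha⟩
    rw [this]
    exact hp
  by_cases h1 : polar Q u w = 0
  · by_cases h2 : polar Q u y = 0
    · exact block_move5 hS hn hB hu0 hu hw0 hw hy0 hy hp hr hwu hyu (Or.inr ⟨h1, h2⟩)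
    · have hy' : Q ((polar Q u y)⁻¹ • y) = 0 := by rw [q_smul, hy, mul_zero]
      have huy' : polar Q u ((polar Q u y)⁻¹ • y) = 1 := by
        rw [polar_smul_r]
        exact inv_mul_cancel₀ h2
      have hSX := sep_perp2 hS hu hy' huy'
      have hfr := finrank_perp2' hu hy' huy'
      obtain ⟨x, hx0, hx⟩ := exists_singular hSX (by omega)
      obtain ⟨hx1, hx2⟩ := (mem_perp2 _ _ _ _).mp x.2
      rw [pB_apply] at hx1 hx2
      have hxq : Q (x : V) = 0 := hx
      have hxV0 : (x : V) ≠ 0 := fun h => hx0 (Subtype.ext h)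
      have hyx : polar Q y (x : V) = 0 := by
        rw [polar_smul_l] at hx2
        rcases mul_eq_zero.mp hx2 with h | h
        · exact absurd h (inv_ne_zero h2)
        · exact h
      have hxu : (x : V) ∉ Submodule.span F {u} := by
        intro hmem
        obtain ⟨c, hc⟩ := Submodule.mem_span_singleton.1 hmem
        rw [← hc, polar_smul_r, polar_comm Q y u] at hyx
        rcases mul_eq_zero.mp hyx with h | h
        · rw [h, zero_smul] at hc
          exact hxV0 hc.symm
        · exact h2 h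
      have hpx := block_move5 hS hn hB hu0 hu hw0 hw hxV0 hxq hp hr hwu hxu (Or.inr ⟨h1, hx1⟩)
      have hux' : u ∉ Submodule.span F {(x : V)} := by
        intro hmem
        obtain ⟨c, hc⟩ := Submodule.mem_span_singleton.1 hmem
        apply h2
        rw [← hc, polar_smul_l, polar_comm Q (x : V) y, hyx, mul_zero]
      have hyx' : y ∉ Submodule.span F {(x : V)} := by
        intro hmem
        obtain ⟨c, hc⟩ := Submodule.mem_span_singleton.1 hmem
        apply h2
        rw [← hc, polar_smul_r, hx1, mul_zero]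
      exact block_move5 hS hn hB hxV0 hxq hu0 hu hy0 hy hpx hp hux' hyx'
        (Or.inr ⟨by rw [polar_comm]; exact hx1, by rw [polar_comm]; exact hyx⟩)
  · by_cases h2 : polar Q u y = 0
    · obtain ⟨x, hxq, hxu', hxy'⟩ := exists_sing_both hS (by omega) hu0 hu hy0 hy
      have hx0 : x ≠ 0 := by
        rintro rfl
        simp at hxu'
      have hxu : x ∉ Submodule.span F {u} := by
        intro hmem
        obtain ⟨c, hc⟩ := Submodule.mem_span_singleton.1 hmem
        apply hxu'
        rw [← hc, polar_smul_l, polar_self', hu]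
        ring
      have hpx := block_move5 hS hn hB hu0 hu hw0 hw hx0 hxq hp hr hwu hxu
        (Or.inl ⟨h1, by rw [polar_comm]; exact hxu'⟩)
      have hux' : u ∉ Submodule.span F {x} := by
        intro hmem
        obtain ⟨c, hc⟩ := Submodule.mem_span_singleton.1 hmem
        apply hxu'
        rw [← hc, polar_smul_r, polar_self', hxq]
        ring
      have hyx' : y ∉ Submodule.span F {x} := by
        intro hmem
        obtain ⟨c, hc⟩ := Submodule.mem_span_singleton.1 hmem
        apply hxy'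
        rw [← hc, polar_smul_r, polar_self', hxq]
        ring
      exact block_move5 hS hn hB hx0 hxq hu0 hu hy0 hy hpx hp hux' hyx' (Or.inl ⟨hxu', hxy'⟩)
    · exact block_move5 hS hn hB hu0 hu hw0 hw hy0 hy hp hr hwu hyu (Or.inl ⟨h1, h2⟩)

end prim

section kernel

open scoped Pointwise LinearAlgebra.Projectivization

variable [Finite F] [FiniteDimensional F V]

/-- **Simplicity**: the group generated by the Eichler transformations, modulo its centre, is
simple (finite field, nondegenerate polar form, dimension at least five). -/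
theorem simple_EG5 (hS : Sep Q) (hn : 5 ≤ finrank F V) :
    IsSimpleGroup (↥(EG Q) ⧸ Subgroup.center ↥(EG Q)) := by
  have hprim := isPreprimitive5 hS hn
  have hperf := commutator_EG hS (by omega : 5 ≤ finrank F V)
  have hnt : Nontrivial (↥(EG Q) ⧸ Subgroup.center ↥(EG Q)) := by
    rw [QuotientGroup.nontrivial_iff]
    intro htop
    have h1 : commutator ↥(EG Q) = ⊥ := by
      rw [commutator_def, Subgroup.commutator_top_left_eq_bot_iff_le_center, htop]
    rw [hperf] at h1
    obtain ⟨e, he0, he⟩ := exists_singular hS (by omega)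
    obtain ⟨e', he', hee'⟩ := exists_hyp_pair hS he0 he
    have he'0 : e' ≠ 0 := by
      rintro rfl
      simp at hee'
    obtain ⟨g, hg, c, hc, hgc⟩ := exists_eich_map hS (by omega : 5 ≤ finrank F V) he0 he he'0 he'
    have h2 : (⟨g, hg⟩ : ↥(EG Q)) ∈ (⊤ : Subgroup ↥(EG Q)) := Subgroup.mem_top _
    rw [h1, Subgroup.mem_bot] at h2
    have h3 : g = 1 := congrArg Subtype.val h2
    rw [h3] at hgc
    have h4 : e = c • e' := hgc
    have h5 : polar Q e e' = 0 := by
      rw [h4, polar_smul_l, polar_self', he']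
      ring
    rw [hee'] at h5
    exact one_ne_zero h5
  refine { toNontrivial := hnt, eq_bot_or_eq_top_of_normal := ?_ }
  intro Nbar hNbar
  set N := Nbar.comap (QuotientGroup.mk' (Subgroup.center ↥(EG Q))) with hN
  have hNn : N.Normal := hNbar.comap _
  by_cases hfix : MulAction.fixedPoints N ↥(singSub Q) = Set.univ
  · left
    rw [Subgroup.eq_bot_iff_forall]
    intro x hx
    obtain ⟨g, rfl⟩ := QuotientGroup.mk_surjective x
    have hg : g ∈ N := hx
    rw [QuotientGroup.eq_one_iff]
    apply mem_center_of_fix hS (by omega : 5 ≤ finrank F V)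
    intro p
    have hp : p ∈ MulAction.fixedPoints N ↥(singSub Q) := by
      rw [hfix]
      exact Set.mem_univ _
    exact hp ⟨g, hg⟩
  · right
    have hle := (iwasawa Q).commutator_le N hfix
    rw [hperf, top_le_iff] at hle
    rw [eq_top_iff]
    intro x _
    obtain ⟨g, rfl⟩ := QuotientGroup.mk_surjective x
    have hg : g ∈ N := by
      rw [hle]
      exact Subgroup.mem_top _
    exact hg

end kernel

end Cfsg.Agent.Lib.Helper5.OmegaSimple5
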