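import Mathlib
import Cfsg.Agent.Lib.Helper37.OrtStmt
import Cfsg.Agent.Lib.Helper42.SpWr

/-!
# S5981 / WRORD (helper5, second seat)

The wreath product `⟨c⟩ ≀ S_m` (a semidirect product `(Fin m → ⟨c⟩) ⋊ S_m`) embeds in the
isometry group of `m` orthogonal copies of `N` plus an arbitrary summand `S₀`.
-/

set_option autoImplicit false

namespace Cfsg.Agent.Lib.Helper5.OrtWRORD

open scoped Kronecker MatrixGroups Matrix
open Cfsg.Agent.Lib.Helper37.OrtStmt Cfsg.Agent.Lib.Helper42.SpWr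

universe u

section

variable {F : Type u} [Field F] {i m n₀ : ℕ}

/-- the wreath product `D ≀ S_m` as a semidirect product -/
abbrev Wr (D : Type u) [Group D] (m : ℕ) : Type u :=
  (Fin m → D) ⋊[mulAutArrow (G := Equiv.Perm (Fin m)) (M := D) (A := Fin m)] Equiv.Perm (Fin m)

/-- the block-monomial matrix of an element of the wreath product -/
def wrMat (c : GL (Fin i) F) (a : Wr (Subgroup.zpowers c) m) :
    Matrix (Fin m × Fin i) (Fin m × Fin i) F :=
  BM (fun q => a.right⁻¹ q)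
    (fun q => (((a.left q : Subgroup.zpowers c) : GL (Fin i) F) : Matrix (Fin i) (Fin i) F))

theorem wrMat_one (c : GL (Fin i) F) : wrMat (m := m) c 1 = 1 := by
  unfold wrMat
  rw [← BM_one]
  apply BM_congr
  · intro q; simp
  · intro q; simp

theorem wrMat_mul (c : GL (Fin i) F) (a b : Wr (Subgroup.zpowers c) m) :
    wrMat c (a * b) = wrMat c a * wrMat c b := by
  unfold wrMat
  rw [BM_mul]
  apply BM_congr
  · intro q; simp
  · intro q
    have h1 : (a * b).left q = a.left q * b.left (a.right⁻¹ q) := by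
      rw [SemidirectProduct.mul_left]
      rfl
    rw [h1]
    simp

theorem kron_eq (N : Matrix (Fin i) (Fin i) F) :
    (1 : Matrix (Fin m) (Fin m) F) ⊗ₖ N = BM id (fun _ => N) := by
  ext ⟨a, b⟩ ⟨a', b'⟩
  simp only [Matrix.kroneckerMap_apply, BM, id, Matrix.one_apply]
  by_cases h : a = a'
  · subst h; simp
  · have h' : ¬ a' = a := fun h2 => h h2.symm
    simp [h, h']

theorem wrMat_form (c : GL (Fin i) F) (N : Matrix (Fin i) (Fin i) F)
    (hN : (c : Matrix (Fin i) (Fin i) F)ᵀ * N * (c : Matrix (Fin i) (Fin i) F) = N)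
    (a : Wr (Subgroup.zpowers c) m) :
    (wrMat c a)ᵀ * BM id (fun _ => N) * wrMat c a = BM id (fun _ => N) := by
  have hc : c ∈ OGrp N := hN
  have hle : Subgroup.zpowers c ≤ OGrp N := (Subgroup.zpowers_le).mpr hc
  have h1 : wrMat c a = BM (a.right⁻¹ : Equiv.Perm (Fin m))
      (fun q => (((a.left q : Subgroup.zpowers c) : GL (Fin i) F) :
        Matrix (Fin i) (Fin i) F)) := rfl
  rw [h1, BM_transpose, BM_mul, BM_mul]
  apply BM_congr
  · intro q
    show a.right⁻¹ ((a.right⁻¹ : Equiv.Perm (Fin m))⁻¹ q) = q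
    simp
  · intro q
    have h2 : ((a.left ((a.right⁻¹ : Equiv.Perm (Fin m)).symm q) : Subgroup.zpowers c) :
        GL (Fin i) F) ∈ OGrp N := hle (a.left _).2
    exact h2

/-- the matrix on the whole space -/
def fullMat (n₀ : ℕ) (c : GL (Fin i) F) (a : Wr (Subgroup.zpowers c) m) :
    Matrix ((Fin m × Fin i) ⊕ Fin n₀) ((Fin m × Fin i) ⊕ Fin n₀) F :=
  Matrix.fromBlocks (wrMat c a) 0 0 1

/-- as a monoid homomorphism -/
def fullHom (n₀ : ℕ) (c : GL (Fin i) F) :
    Wr (Subgroup.zpowers c) m →* Matrix ((Fin m × Fin i) ⊕ Fin n₀) ((Fin m × Fin i) ⊕ Fin n₀) F where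
  toFun := fullMat n₀ c
  map_one' := by
    unfold fullMat
    rw [wrMat_one, Matrix.fromBlocks_one]
  map_mul' a b := by
    unfold fullMat
    rw [wrMat_mul, Matrix.fromBlocks_multiply]
    simp

theorem fullMat_form (c : GL (Fin i) F) (N : Matrix (Fin i) (Fin i) F)
    (S₀ : Matrix (Fin n₀) (Fin n₀) F)
    (hN : (c : Matrix (Fin i) (Fin i) F)ᵀ * N * (c : Matrix (Fin i) (Fin i) F) = N)
    (a : Wr (Subgroup.zpowers c) m) :
    (fullMat n₀ c a)ᵀ * Matrix.fromBlocks ((1 : Matrix (Fin m) (Fin m) F) ⊗ₖ N) 0 0 S₀ *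
      fullMat n₀ c a = Matrix.fromBlocks ((1 : Matrix (Fin m) (Fin m) F) ⊗ₖ N) 0 0 S₀ := by
  unfold fullMat
  rw [Matrix.fromBlocks_transpose, Matrix.fromBlocks_multiply, Matrix.fromBlocks_multiply,
    kron_eq]
  simp only [Matrix.transpose_zero, Matrix.transpose_one, Matrix.zero_mul, Matrix.mul_zero,
    add_zero, zero_add, Matrix.one_mul, Matrix.mul_one]
  rw [wrMat_form c N hN a]

theorem fullMat_injective (hi : 1 ≤ i) (c : GL (Fin i) F) :
    Function.Injective (fullMat (m := m) n₀ c) := by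
  intro a b hab
  unfold fullMat at hab
  rw [Matrix.fromBlocks_inj] at hab
  have h1 := hab.1
  unfold wrMat at h1
  have : Nonempty (Fin i) := ⟨⟨0, hi⟩⟩
  obtain ⟨h2, h3⟩ := BM_inj _ _ _ _ (fun q => Units.ne_zero _) h1
  apply SemidirectProduct.ext
  · funext q
    apply Subtype.ext
    exact Units.ext (h3 q)
  · have h4 : a.right⁻¹ = b.right⁻¹ := Equiv.ext h2
    exact inv_injective h4

end

theorem main : WrOrd.{u} := by
  intro F _ _ i m n₀ hi c N S₀ hN
  classical
  let Φ : Wr (Subgroup.zpowers c) m →*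
      OGrp (Matrix.fromBlocks ((1 : Matrix (Fin m) (Fin m) F) ⊗ₖ N) 0 0 S₀) :=
    MonoidHom.codRestrict (fullHom n₀ c).toHomUnits _ (by
      intro a
      exact fullMat_form c N S₀ hN a)
  have hΦ : Function.Injective Φ := by
    intro a b hab
    apply fullMat_injective (n₀ := n₀) hi c
    have h1 : ((Φ a : GL ((Fin m × Fin i) ⊕ Fin n₀) F) :
        Matrix ((Fin m × Fin i) ⊕ Fin n₀) ((Fin m × Fin i) ⊕ Fin n₀) F) =
        ((Φ b : GL ((Fin m × Fin i) ⊕ Fin n₀) F) :
        Matrix ((Fin m × Fin i) ⊕ Fin n₀) ((Fin m × Fin i) ⊕ Fin n₀) F) := by rw [hab]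
    exact h1
  have h1 := Subgroup.card_dvd_of_injective Φ hΦ
  have h2 : Nat.card (Wr (Subgroup.zpowers c) m) = orderOf c ^ m * Nat.factorial m := by
    rw [SemidirectProduct.card, Nat.card_fun, Nat.card_zpowers, Nat.card_perm, Nat.card_fin]
  rw [h2] at h1
  exact h1

end Cfsg.Agent.Lib.Helper5.OrtWRORD
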