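import Mathlib
import Cfsg.Agent.Lib.Helper98.PSpStmt
import Cfsg.Agent.Lib.Helper5.SL2Card

set_option autoImplicit false

/-! S3421 piece [ODDFIN]: in the odd case, if `G ≃* PSL(2, K)` with `char K ≠ 2` then
`|K| = q`. -/

namespace Cfsg.Agent.Lib.Helper5.PSpODDFIN

open Cfsg.Agent.Lib.Helper98.PSpStmt

universe u

theorem cube_lt (a b : ℕ) (ha : 1 ≤ a) (hab : a < b) : a * (a ^ 2 - 1) < b * (b ^ 2 - 1) := by
  have h1 : a ^ 2 < b ^ 2 := Nat.pow_lt_pow_left hab (by norm_num)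
  have h2 : 1 ≤ a ^ 2 := Nat.one_le_pow _ _ ha
  have h3 : a ^ 2 - 1 < b ^ 2 - 1 := by omega
  calc a * (a ^ 2 - 1) ≤ a * (b ^ 2 - 1) := Nat.mul_le_mul_left a h3.le
    _ < b * (b ^ 2 - 1) := Nat.mul_lt_mul_of_pos_right hab (by omega)

theorem cube_inj (a b : ℕ) (ha : 1 ≤ a) (hb : 1 ≤ b) (h : a * (a ^ 2 - 1) = b * (b ^ 2 - 1)) :
    a = b := by
  rcases Nat.lt_trichotomy a b with h1 | h1 | h1
  · exact absurd h (cube_lt a b ha h1).ne
  · exact h1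
  · exact absurd h (cube_lt b a hb h1).ne'

theorem main : Cfsg.Agent.Lib.Helper98.PSpStmt.OddFin.{u} := by
  intro G _ p q m₁ m₂ hyp K _ _ hchar ⟨e⟩
  obtain ⟨p', hp'⟩ : ∃ p', p' = ringChar K := ⟨_, rfl⟩
  have hcp : CharP K p' := hp' ▸ ringChar.charP K
  obtain ⟨n, hpp, hk⟩ := FiniteField.card K p'
  have hp2 : p' ≠ 2 := hp' ▸ hchar
  have hpodd : p' % 2 = 1 := (hpp.eq_two_or_odd).resolve_left hp2
  have hkodd : Fintype.card K % 2 = 1 := by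
    rw [hk, Nat.pow_mod, hpodd, one_pow]
    rfl
  have hk1 : 1 ≤ Fintype.card K := by omega
  have hgcd : Nat.gcd 2 (Fintype.card K - 1) = 2 :=
    Nat.gcd_eq_left (by omega)
  have hc := Cfsg.Agent.Lib.Helper5.SL2Card.card_PSL_two (F := K) (q := Fintype.card K) rfl
  rw [hgcd, ← Nat.card_congr e.toEquiv, hyp.card] at hc
  have h4 := hyp.four_mul
  have hq5 := hyp.q_ge
  have h5 : q ^ 2 - 1 = 4 * m₁ * m₂ := by omega
  have h6 : Fintype.card K * (Fintype.card K ^ 2 - 1) = q * (q ^ 2 - 1) := by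
    rw [← hc, h5]
    ring
  exact cube_inj _ _ hk1 (by omega) h6

end Cfsg.Agent.Lib.Helper5.PSpODDFIN
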