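import Mathlib

set_option autoImplicit false

namespace Cfsg.Agent.Lib.Helper5.ProjLine

variable {F : Type*} [Field F]

/-- two points of the projective line agree iff the determinant of representatives vanishes -/
theorem mk_eq_mk_iff_det (u v : Fin 2 → F) (hu : u ≠ 0) (hv : v ≠ 0) :
    Projectivization.mk F u hu = Projectivization.mk F v hv ↔ u 0 * v 1 - u 1 * v 0 = 0 := by
  rw [Projectivization.mk_eq_mk_iff]
  constructor
  · rintro ⟨a, rfl⟩
    simp only [Units.smul_def, Pi.smul_apply, smul_eq_mul]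
    ring
  · intro h
    by_cases hv0 : v 0 = 0
    · have hv1 : v 1 ≠ 0 := by
        intro hv1
        apply hv
        ext i
        fin_cases i
        · exact hv0
        · exact hv1
      have hu0 : u 0 = 0 := by
        rw [hv0, mul_zero, sub_zero] at h
        exact (mul_eq_zero.mp h).resolve_right hv1
      have hu1 : u 1 ≠ 0 := by
        intro hu1
        apply hu
        ext i
        fin_cases i
        · exact hu0
        · exact hu1
      refine ⟨Units.mk0 (u 1 / v 1) (div_ne_zero hu1 hv1), ?_⟩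
      ext i
      fin_cases i
      · simp [hv0, hu0]
      · simp only [Units.smul_def, Units.val_mk0, Pi.smul_apply, smul_eq_mul]
        show u 1 / v 1 * v 1 = u 1
        field_simp
    · have hu0 : u 0 ≠ 0 := by
        intro hu0
        rw [hu0, zero_mul, zero_sub, neg_eq_zero] at h
        have hu1 : u 1 = 0 := (mul_eq_zero.mp h).resolve_right hv0
        apply hu
        ext i
        fin_cases i
        · exact hu0
        · exact hu1
      refine ⟨Units.mk0 (u 0 / v 0) (div_ne_zero hu0 hv0), ?_⟩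
      ext i
      fin_cases i
      · simp only [Units.smul_def, Units.val_mk0, Pi.smul_apply, smul_eq_mul]
        show u 0 / v 0 * v 0 = u 0
        field_simp
      · simp only [Units.smul_def, Units.val_mk0, Pi.smul_apply, smul_eq_mul]
        show u 0 / v 0 * v 1 = u 1
        field_simp
        linear_combination h

/-- any three distinct points are `[u], [v], [u+v]` for a basis `u, v` -/
theorem exists_frame (a b c : Projectivization F (Fin 2 → F)) (hab : a ≠ b) (hac : a ≠ c)
    (hbc : b ≠ c) :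
    ∃ (u v : Fin 2 → F) (hu : u ≠ 0) (hv : v ≠ 0) (huv : u + v ≠ 0),
      u 0 * v 1 - u 1 * v 0 ≠ 0 ∧ Projectivization.mk F u hu = a ∧
        Projectivization.mk F v hv = b ∧ Projectivization.mk F (u + v) huv = c := by
  induction a using Projectivization.ind with | h u hu =>
  induction b using Projectivization.ind with | h v hv =>
  induction c using Projectivization.ind with | h w hw =>
  have hD : u 0 * v 1 - u 1 * v 0 ≠ 0 := fun h => hab ((mk_eq_mk_iff_det u v hu hv).mpr h)
  have hl : w 0 * v 1 - w 1 * v 0 ≠ 0 := fun h =>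
    hbc ((mk_eq_mk_iff_det v w hv hw).mpr (by linear_combination -h))
  have hm : u 0 * w 1 - u 1 * w 0 ≠ 0 := fun h => hac ((mk_eq_mk_iff_det u w hu hw).mpr h)
  set D := u 0 * v 1 - u 1 * v 0 with hDdef
  set l := (w 0 * v 1 - w 1 * v 0) / D with hldef
  set m := (u 0 * w 1 - u 1 * w 0) / D with hmdef
  have hl0 : l ≠ 0 := div_ne_zero hl hD
  have hm0 : m ≠ 0 := div_ne_zero hm hD
  have hw' : l • u + m • v = w := by
    ext i
    fin_cases i
    · simp only [Pi.add_apply, Pi.smul_apply, smul_eq_mul, hldef, hmdef]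
      show (w 0 * v 1 - w 1 * v 0) / D * u 0 + (u 0 * w 1 - u 1 * w 0) / D * v 0 = w 0
      field_simp
      rw [hDdef]
      ring
    · simp only [Pi.add_apply, Pi.smul_apply, smul_eq_mul, hldef, hmdef]
      show (w 0 * v 1 - w 1 * v 0) / D * u 1 + (u 0 * w 1 - u 1 * w 0) / D * v 1 = w 1
      field_simp
      rw [hDdef]
      ring
  refine ⟨l • u, m • v, smul_ne_zero hl0 hu, smul_ne_zero hm0 hv, by rw [hw']; exact hw,
    ?_, ?_, ?_, ?_⟩
  · simp only [Pi.smul_apply, smul_eq_mul]
    have : l * u 0 * (m * v 1) - l * u 1 * (m * v 0) = l * m * D := by rw [hDdef]; ring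
    rw [this]
    exact mul_ne_zero (mul_ne_zero hl0 hm0) hD
  · rw [Projectivization.mk_eq_mk_iff]
    exact ⟨Units.mk0 l hl0, rfl⟩
  · rw [Projectivization.mk_eq_mk_iff]
    exact ⟨Units.mk0 m hm0, rfl⟩
  · congr 1

theorem e0_ne : (![1, 0] : Fin 2 → F) ≠ 0 := by
  intro h
  have := congrFun h 0
  simp at this

theorem e1_ne : (![0, 1] : Fin 2 → F) ≠ 0 := by
  intro h
  have := congrFun h 1
  simp at this

theorem e2_ne : (![1, 1] : Fin 2 → F) ≠ 0 := by
  intro h
  have := congrFun h 0
  simp at this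

variable (F) in
/-- standard point `[1:0]` -/
noncomputable def P0 : Projectivization F (Fin 2 → F) := Projectivization.mk F ![1, 0] e0_ne
variable (F) in
/-- standard point `[0:1]` -/
noncomputable def P1 : Projectivization F (Fin 2 → F) := Projectivization.mk F ![0, 1] e1_ne
variable (F) in
/-- standard point `[1:1]` -/
noncomputable def P2 : Projectivization F (Fin 2 → F) := Projectivization.mk F ![1, 1] e2_ne

/-- the matrix with columns `u`, `v` -/
def colMat (u v : Fin 2 → F) : Matrix (Fin 2) (Fin 2) F := !![u 0, v 0; u 1, v 1]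

theorem colMat_det (u v : Fin 2 → F) : (colMat u v).det = u 0 * v 1 - u 1 * v 0 := by
  simp [colMat, Matrix.det_fin_two]
  ring

theorem colMat_e0 (u v : Fin 2 → F) : Matrix.mulVec (colMat u v) ![1, 0] = u := by
  ext i
  fin_cases i <;> simp [colMat, Matrix.mulVec, dotProduct, Fin.sum_univ_two]

theorem colMat_e1 (u v : Fin 2 → F) : Matrix.mulVec (colMat u v) ![0, 1] = v := by
  ext i
  fin_cases i <;> simp [colMat, Matrix.mulVec, dotProduct, Fin.sum_univ_two]

theorem colMat_e2 (u v : Fin 2 → F) : Matrix.mulVec (colMat u v) ![1, 1] = u + v := by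
  ext i
  fin_cases i <;> simp [colMat, Matrix.mulVec, dotProduct, Fin.sum_univ_two]

/-- a matrix fixing the three standard points is scalar -/
theorem scalar_of_fix (M : Matrix (Fin 2) (Fin 2) F)
    (h0 : ∀ h, Projectivization.mk F (Matrix.mulVec M ![1, 0]) h = P0 F)
    (h1 : ∀ h, Projectivization.mk F (Matrix.mulVec M ![0, 1]) h = P1 F)
    (h2 : ∀ h, Projectivization.mk F (Matrix.mulVec M ![1, 1]) h = P2 F)
    (hne0 : Matrix.mulVec M ![1, 0] ≠ 0) (hne1 : Matrix.mulVec M ![0, 1] ≠ 0)
    (hne2 : Matrix.mulVec M ![1, 1] ≠ 0) :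
    M 1 0 = 0 ∧ M 0 1 = 0 ∧ M 0 0 = M 1 1 := by
  have e0 := (mk_eq_mk_iff_det _ _ hne0 e0_ne).mp (h0 hne0)
  have e1 := (mk_eq_mk_iff_det _ _ hne1 e1_ne).mp (h1 hne1)
  have e2 := (mk_eq_mk_iff_det _ _ hne2 e2_ne).mp (h2 hne2)
  simp [Matrix.mulVec, dotProduct, Fin.sum_univ_two] at e0 e1 e2
  refine ⟨e0, e1, ?_⟩
  rw [e0, e1] at e2
  linear_combination e2

end Cfsg.Agent.Lib.Helper5.ProjLine
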