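import Mathlib
import Cfsg.Prelude.Def_Local
import Cfsg.Prelude.Def_CaseTheorems
import Cfsg.Agent.Lib.Helper21.Layer

set_option autoImplicit false

namespace Cfsg.Agent.Lib.Helper5.QuasiComm

open Subgroup
open scoped commutatorElement
open Cfsg.Agent.Lib.Helper21

universe u

variable {G : Type u} [Group G] [Finite G]

/-- if the commutator subgroup is quasisimple, it is the layer -/
theorem layer_eq (hL : Cfsg.IsQuasisimple ↥(commutator G)) : Cfsg.layer G = commutator G := by
  have hcomp : Cfsg.IsComponent (commutator G) :=
    ⟨(inferInstance : (commutator G).Normal).isSubnormal, hL⟩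
  apply le_antisymm
  · apply sSup_le
    intro K hK
    by_cases h : K = commutator G
    · rw [h]
    · have h1 := Comp.components_commute K (commutator G) hK hcomp h
      have h2 : ⁅K, K⁆ = K := Comp.commutator_self hK.2
      have h3 : K ≤ commutator G := by
        rw [← h2, commutator_def]
        exact commutator_mono le_top le_top
      have h4 : ⁅K, K⁆ = ⊥ := by
        rw [eq_bot_iff, ← h1]
        exact commutator_mono le_rfl h3
      rw [h2] at h4
      exact absurd h4 (Comp.ne_bot_of_quasisimple hK.2)
  · exact Layer.le_layer hcomp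

/-- if moreover the centraliser of the commutator subgroup is the centre, the Fitting subgroup
is the centre -/
theorem fitting_eq (hL : Cfsg.IsQuasisimple ↥(commutator G))
    (hC : ∀ g : G, (∀ x ∈ commutator G, g * x = x * g) → g ∈ center G) :
    Cfsg.fittingSubgroup G = center G := by
  apply le_antisymm
  · intro g hg
    apply hC
    intro x hx
    have h := Layer.layer_commutator_fitting (G := G)
    rw [layer_eq hL, commutator_eq_bot_iff_le_centralizer] at h
    have h1 := h hx
    rw [mem_centralizer_iff] at h1
    exact h1 g hg
  · apply le_sSup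
    have hnil : Group.IsNilpotent ↥(center G) := by
      open scoped IsMulCommutative in exact CommGroup.isNilpotent
    exact ⟨inferInstance, hnil⟩

theorem pCore_le (p : ℕ) [Fact p.Prime] (hL : Cfsg.IsQuasisimple ↥(commutator G))
    (hC : ∀ g : G, (∀ x ∈ commutator G, g * x = x * g) → g ∈ center G) :
    Cfsg.pCore p G ≤ center G := by
  rw [← fitting_eq hL hC]
  apply sSup_le
  rintro N ⟨hN, hp⟩
  apply le_sSup
  exact ⟨hN, hp.isNilpotent⟩

theorem gfs_eq (hL : Cfsg.IsQuasisimple ↥(commutator G))
    (hC : ∀ g : G, (∀ x ∈ commutator G, g * x = x * g) → g ∈ center G) :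
    Cfsg.generalizedFittingSubgroup G = center G ⊔ commutator G := by
  unfold Cfsg.generalizedFittingSubgroup
  rw [layer_eq hL, fitting_eq hL hC, sup_comm]

end Cfsg.Agent.Lib.Helper5.QuasiComm
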