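import Mathlib
import Cfsg.Agent.Lib.Helper83.S51Stmt

/-!
# S1351 / ABAUT (helper5)

A coprime automorphism of prime order `q` of an abelian group that fixes every element of
prime order is trivial (stated for an element `z` with `z ^ q = 1` normalizing an abelian
subgroup `A` with `q ∤ |A|`).
-/

set_option autoImplicit false

namespace Cfsg.Agent.Lib.Helper5.S51ABAUT

universe u

open Cfsg Cfsg.Agent.Lib.Helper83.S51Stmt

theorem main : AbAut.{u} := by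
  intro G _ _ A z q hq hab hz hzq hqA hprime a ha
  by_contra hne
  have hconj : ∀ x ∈ A, z * x * z⁻¹ ∈ A := fun x hx =>
    (Subgroup.mem_normalizer_iff.mp hz x).mp hx
  have hbA : z * a * z⁻¹ * a⁻¹ ∈ A := A.mul_mem (hconj a ha) (A.inv_mem ha)
  have hb1 : z * a * z⁻¹ * a⁻¹ ≠ 1 := by
    intro h1
    apply hne
    have h2 : z * a * z⁻¹ = a := mul_inv_eq_one.mp h1
    calc z * a = (z * a * z⁻¹) * z := by group
      _ = a * z := by rw [h2]
  have hob : orderOf (z * a * z⁻¹ * a⁻¹) ≠ 1 := by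
    rwa [Ne, orderOf_eq_one_iff]
  obtain ⟨t, ht, m, hm⟩ := Nat.exists_prime_and_dvd hob
  have hbpos : 0 < orderOf (z * a * z⁻¹ * a⁻¹) := orderOf_pos _
  have hm0 : m ≠ 0 := by
    rintro rfl
    rw [mul_zero] at hm
    omega
  -- the power of prime order
  have hb'ord : orderOf ((z * a * z⁻¹ * a⁻¹) ^ m) = t := by
    rw [orderOf_pow_of_dvd hm0 (Dvd.intro_left t hm.symm), hm,
      Nat.mul_div_cancel _ (Nat.pos_of_ne_zero hm0)]
  have hb'A : (z * a * z⁻¹ * a⁻¹) ^ m ∈ A := A.pow_mem hbA m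
  have hcA : a ^ m ∈ A := A.pow_mem ha m
  have hb'eq : (z * a * z⁻¹ * a⁻¹) ^ m = z * a ^ m * z⁻¹ * (a ^ m)⁻¹ := by
    have hc : Commute (z * a * z⁻¹) a⁻¹ := hab _ (hconj a ha) _ (A.inv_mem ha)
    rw [hc.mul_pow, conj_pow, inv_pow]
  have hzb : z * (z * a * z⁻¹ * a⁻¹) ^ m = (z * a * z⁻¹ * a⁻¹) ^ m * z :=
    hprime _ hb'A (by rw [hb'ord]; exact ht)
  have hzc : z * a ^ m * z⁻¹ = (z * a * z⁻¹ * a⁻¹) ^ m * a ^ m := by
    rw [hb'eq]
    group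
  have hind : ∀ i : ℕ, z ^ i * a ^ m * (z ^ i)⁻¹ = ((z * a * z⁻¹ * a⁻¹) ^ m) ^ i * a ^ m := by
    intro i
    induction i with
    | zero => simp
    | succ i ih =>
      have hzbi : z * ((z * a * z⁻¹ * a⁻¹) ^ m) ^ i = ((z * a * z⁻¹ * a⁻¹) ^ m) ^ i * z :=
        (Commute.pow_right (show Commute z ((z * a * z⁻¹ * a⁻¹) ^ m) from hzb) i).eq
      calc z ^ (i + 1) * a ^ m * (z ^ (i + 1))⁻¹
          = z * (z ^ i * a ^ m * (z ^ i)⁻¹) * z⁻¹ := by rw [pow_succ']; group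
        _ = z * (((z * a * z⁻¹ * a⁻¹) ^ m) ^ i * a ^ m) * z⁻¹ := by rw [ih]
        _ = (z * ((z * a * z⁻¹ * a⁻¹) ^ m) ^ i) * a ^ m * z⁻¹ := by group
        _ = (((z * a * z⁻¹ * a⁻¹) ^ m) ^ i * z) * a ^ m * z⁻¹ := by rw [hzbi]
        _ = ((z * a * z⁻¹ * a⁻¹) ^ m) ^ i * (z * a ^ m * z⁻¹) := by group
        _ = ((z * a * z⁻¹ * a⁻¹) ^ m) ^ i * ((z * a * z⁻¹ * a⁻¹) ^ m * a ^ m) := by rw [hzc]
        _ = ((z * a * z⁻¹ * a⁻¹) ^ m) ^ (i + 1) * a ^ m := by rw [pow_succ]; group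
  have hq1 := hind q
  rw [hzq] at hq1
  have hpow : ((z * a * z⁻¹ * a⁻¹) ^ m) ^ q = 1 := by
    have h3 : a ^ m = ((z * a * z⁻¹ * a⁻¹) ^ m) ^ q * a ^ m := by
      simpa using hq1
    exact (mul_eq_right.mp h3.symm)
  have htq : t ∣ q := by
    rw [← hb'ord]
    exact orderOf_dvd_of_pow_eq_one hpow
  have htq' : t = q := (Nat.prime_dvd_prime_iff_eq ht hq).mp htq
  apply hqA
  rw [← htq', ← hb'ord]
  exact Subgroup.orderOf_dvd_natCard A hb'A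

end Cfsg.Agent.Lib.Helper5.S51ABAUT
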