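import Mathlib
import Cfsg.Agent.Lib.Helper37.SpTStmt
import Cfsg.Agent.S5963

set_option autoImplicit false

/-! Common lemmas for the S5980 pieces SPARITH, SPELTE, SPELTO: `spGL` against Mathlib's
symplectic group, and elements of prime order with prescribed fixed space. -/

namespace Cfsg.Agent.Lib.Helper5.SpTCommon

open Matrix Cfsg.Agent.Lib.Helper13

universe u

variable {F : Type u} [Field F]

theorem mem_spGL_iff (d : ℕ) (g : GL (Fin d ⊕ Fin d) F) :
    g ∈ Cfsg.spGL d F ↔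
      (g : Matrix (Fin d ⊕ Fin d) (Fin d ⊕ Fin d) F) ∈ Matrix.symplecticGroup (Fin d) F := by
  rw [SympMat.mem_symp_iff]
  constructor
  · intro h u v
    rw [SympMat.form_apply, SympMat.form_apply]
    exact h u v
  · intro h u v
    have := h u v
    rw [SympMat.form_apply, SympMat.form_apply] at this
    exact this

theorem exists_spGL (d : ℕ) (X : Matrix (Fin d ⊕ Fin d) (Fin d ⊕ Fin d) F)
    (hX : X ∈ Matrix.symplecticGroup (Fin d) F) :
    ∃ x : GL (Fin d ⊕ Fin d) F, x ∈ Cfsg.spGL d F ∧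
      (x : Matrix (Fin d ⊕ Fin d) (Fin d ⊕ Fin d) F) = X := by
  have hdet : IsUnit X.det := SymplecticGroup.symplectic_det hX
  obtain ⟨x, hx⟩ : ∃ x : GL (Fin d ⊕ Fin d) F,
      (x : Matrix (Fin d ⊕ Fin d) (Fin d ⊕ Fin d) F) = X := ⟨Matrix.nonsingInvUnit X hdet, rfl⟩
  refine ⟨x, ?_, hx⟩
  rw [mem_spGL_iff, hx]
  exact hX

theorem card_spGL (d : ℕ) :
    Nat.card (Cfsg.spGL d F) = Nat.card (Matrix.symplecticGroup (Fin d) F) := by
  apply Nat.card_eq_of_bijective (fun g : Cfsg.spGL d F =>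
    (⟨(g.1 : Matrix (Fin d ⊕ Fin d) (Fin d ⊕ Fin d) F), (mem_spGL_iff d g.1).1 g.2⟩ :
      Matrix.symplecticGroup (Fin d) F))
  constructor
  · intro g h hgh
    apply Subtype.ext
    apply Units.ext
    exact congrArg Subtype.val hgh
  · intro A
    obtain ⟨x, hx, hxA⟩ := exists_spGL d A.1 A.2
    exact ⟨⟨x, hx⟩, Subtype.ext hxA⟩

theorem rank_emb (d k : ℕ) (h : k ≤ d) (Y : Matrix (Fin k ⊕ Fin k) (Fin k ⊕ Fin k) F)
    (hfix : ∀ a, Y *ᵥ a = a → a = 0) :
    (Cfsg.Agent.S5963.emb d k h Y - 1).rank = 2 * k := by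
  have hker : LinearMap.ker (Matrix.mulVecLin (Cfsg.Agent.S5963.emb d k h Y - 1)) =
      LinearMap.ker (Matrix.mulVecLin (Cfsg.Agent.S5963.Rm F d k h)) := by
    ext v
    rw [LinearMap.mem_ker, LinearMap.mem_ker, Matrix.mulVecLin_apply, Matrix.mulVecLin_apply,
      Matrix.sub_mulVec, Matrix.one_mulVec, sub_eq_zero]
    exact Cfsg.Agent.S5963.emb_fix d k h Y hfix v
  have h1 := LinearMap.finrank_range_add_finrank_ker
    (Matrix.mulVecLin (Cfsg.Agent.S5963.emb d k h Y - 1))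
  have h2 := Cfsg.Agent.S5963.ker_dim (F := F) d k h
  rw [hker, Module.finrank_fintype_fun_eq_card, Fintype.card_sum, Fintype.card_fin] at h1
  unfold Matrix.rank
  omega

theorem exists_elt (d k r : ℕ) (hkd : k ≤ d) (Y : Matrix (Fin k ⊕ Fin k) (Fin k ⊕ Fin k) F)
    (hY : Y ∈ Matrix.symplecticGroup (Fin k) F) (hYr : Y ^ r = 1)
    (hfix : ∀ a, Y *ᵥ a = a → a = 0) :
    ∃ x : GL (Fin d ⊕ Fin d) F, x ∈ Cfsg.spGL d F ∧ x ^ r = 1 ∧
      ((x : Matrix (Fin d ⊕ Fin d) (Fin d ⊕ Fin d) F) - 1).rank = 2 * k := by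
  obtain ⟨X, hXdef⟩ : ∃ X, X = Cfsg.Agent.S5963.emb d k hkd Y := ⟨_, rfl⟩
  have hXmem : X ∈ Matrix.symplecticGroup (Fin d) F :=
    hXdef ▸ Cfsg.Agent.S5963.emb_symp d k hkd Y hY
  have hXr : X ^ r = 1 := by
    apply Matrix.toLin'.injective
    apply LinearMap.ext
    intro v
    rw [Matrix.toLin'_apply, Matrix.toLin'_one, LinearMap.id_apply, hXdef,
      Cfsg.Agent.S5963.emb_pow, hYr, Matrix.one_mulVec, sub_self, Matrix.mulVec_zero, add_zero]
  obtain ⟨x, hx, hxX⟩ := exists_spGL d X hXmem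
  refine ⟨x, hx, ?_, ?_⟩
  · apply Units.ext
    rw [Units.val_pow_eq_pow_val, hxX, hXr]
    rfl
  · rw [hxX, hXdef]
    exact rank_emb d k hkd Y hfix

theorem fix_zero' [Fintype F] {ι : Type} [Fintype ι] [DecidableEq ι] (r : ℕ) [Fact r.Prime]
    (hrq : ¬ r ∣ Fintype.card F)
    (he : orderOf ((Fintype.card F : ℕ) : ZMod r) = Fintype.card ι)
    (Y : Matrix ι ι F) (hYr : Y ^ r = 1) (hY1 : Y ≠ 1) : ∀ a, Y *ᵥ a = a → a = 0 := by
  classical
  obtain ⟨K, hK⟩ : ∃ K : Submodule F (ι → F), ∀ v, v ∈ K ↔ Y *ᵥ v = v := by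
    refine ⟨LinearMap.ker (Matrix.mulVecLin (Y - 1)), fun v => ?_⟩
    rw [LinearMap.mem_ker, Matrix.mulVecLin_apply, Matrix.sub_mulVec, Matrix.one_mulVec,
      sub_eq_zero]
  have h1 := Cfsg.Agent.S5963.cnt r hrq Y hYr K ⊤ hK (fun v _ => Submodule.mem_top)
  rw [top_inf_eq, finrank_top, Module.finrank_fintype_fun_eq_card, he] at h1
  have hle : Module.finrank F K ≤ Fintype.card ι := by
    have := Submodule.finrank_le K
    rwa [Module.finrank_fintype_fun_eq_card] at this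
  have hk0 : Module.finrank F K = 0 ∨ Module.finrank F K = Fintype.card ι := by
    obtain ⟨c, hc⟩ := h1
    rcases Nat.eq_zero_or_pos c with h0 | h0
    · right
      rw [h0] at hc
      omega
    · left
      have : Fintype.card ι ≤ Fintype.card ι * c := Nat.le_mul_of_pos_right _ h0
      omega
  rcases hk0 with h0 | h0
  · intro a ha
    have hbot : K = ⊥ := Submodule.finrank_eq_zero.1 h0
    have ha' : a ∈ K := (hK a).2 ha
    rw [hbot] at ha'
    exact (Submodule.mem_bot F).1 ha'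
  · exfalso
    apply hY1
    have htop : K = ⊤ := Submodule.eq_top_of_finrank_eq (by
      rw [h0, Module.finrank_fintype_fun_eq_card])
    apply Matrix.toLin'.injective
    apply LinearMap.ext
    intro a
    rw [Matrix.toLin'_apply, Matrix.toLin'_one, LinearMap.id_apply]
    exact (hK a).1 (by rw [htop]; trivial)

theorem dvd_pow_sub_one (q r n : ℕ) (hq : 1 ≤ q) (h : orderOf ((q : ℕ) : ZMod r) ∣ n) :
    r ∣ q ^ n - 1 := by
  have h1 : ((q ^ n : ℕ) : ZMod r) = ((1 : ℕ) : ZMod r) := by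
    push_cast
    exact orderOf_dvd_iff_pow_eq_one.mp h
  have h2 := (ZMod.natCast_eq_natCast_iff _ _ _).1 h1
  exact (Nat.modEq_iff_dvd' (Nat.one_le_pow _ _ hq)).1 h2.symm

theorem not_dvd_card [Fintype F] (p : ℕ) [Fact p.Prime] [CharP F p] (r : ℕ) [Fact r.Prime]
    (hrp : r ≠ p) : ¬ r ∣ Fintype.card F := by
  have hp : p.Prime := Fact.out
  have hr : r.Prime := Fact.out
  obtain ⟨n, -, hcard⟩ := FiniteField.card F p
  intro h
  rw [hcard] at h
  exact hrp ((Nat.prime_dvd_prime_iff_eq hr hp).1 (hr.dvd_of_dvd_pow h))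

end Cfsg.Agent.Lib.Helper5.SpTCommon
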