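import Mathlib
import Cfsg.Agent.Lib.Helper37.SpTStmt

set_option autoImplicit false

/-! S5980 piece [DIAGG]: an invertible symmetric matrix in odd characteristic is congruent to a
diagonal matrix. -/

namespace Cfsg.Agent.Lib.Helper5.SpTDIAGG

open Matrix Module

universe u

theorem main : Cfsg.Agent.Lib.Helper37.SpTStmt.DiagG.{u} := by
  intro F _ h2 n G hG hdet
  have : Invertible (2 : F) := invertibleOfNonzero h2
  obtain ⟨B, hB⟩ : ∃ B : LinearMap.BilinForm F (Fin n → F), B = Matrix.toBilin' G := ⟨_, rfl⟩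
  have hsymm : LinearMap.IsSymm B := by
    refine ⟨fun x y => ?_⟩
    show B x y = B y x
    rw [hB, Matrix.toBilin'_apply', Matrix.toBilin'_apply', ← hG, Matrix.mulVec_transpose,
      hG, Matrix.dotProduct_mulVec, dotProduct_comm]
  obtain ⟨v₀, hv₀⟩ := LinearMap.BilinForm.exists_orthogonal_basis hsymm
  have hfr : finrank F (Fin n → F) = n := by
    rw [Module.finrank_fintype_fun_eq_card, Fintype.card_fin]
  obtain ⟨v, hv⟩ : ∃ v : Basis (Fin n) F (Fin n → F), ∀ i j, i ≠ j → B (v i) (v j) = 0 := by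
    refine ⟨v₀.reindex (finCongr hfr), ?_⟩
    intro i j hij
    rw [Basis.reindex_apply, Basis.reindex_apply]
    apply hv₀
    intro h
    exact hij ((finCongr hfr).symm.injective h)
  have hM : LinearMap.BilinForm.toMatrix v B = Matrix.diagonal (fun i => B (v i) (v i)) := by
    ext i j
    rw [LinearMap.BilinForm.toMatrix_apply, Matrix.diagonal_apply]
    by_cases hij : i = j
    · subst hij
      rw [if_pos rfl]
    · rw [if_neg hij]
      exact hv i j hij
  have hstd : LinearMap.BilinForm.toMatrix (Pi.basisFun F (Fin n)) B = G := by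
    rw [LinearMap.BilinForm.toMatrix_basisFun, hB, LinearMap.BilinForm.toMatrix'_toBilin']
  have h3 := LinearMap.BilinForm.toMatrix_mul_basis_toMatrix (Pi.basisFun F (Fin n)) v B
  rw [hM, hstd] at h3
  have hC : ((Pi.basisFun F (Fin n)).toMatrix v).det ≠ 0 := by
    have h4 : (Pi.basisFun F (Fin n)).toMatrix v * v.toMatrix (Pi.basisFun F (Fin n)) = 1 :=
      Basis.toMatrix_mul_toMatrix_flip _ _
    have h5 := congrArg Matrix.det h4
    rw [Matrix.det_mul, Matrix.det_one] at h5
    intro h0
    rw [h0, zero_mul] at h5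
    exact zero_ne_one h5
  refine ⟨(Pi.basisFun F (Fin n)).toMatrix v, fun i => B (v i) (v i), hC, ?_, h3⟩
  intro j h0
  have h6 := congrArg Matrix.det h3
  rw [Matrix.det_mul, Matrix.det_mul, Matrix.det_transpose, Matrix.det_diagonal,
    Finset.prod_eq_zero (Finset.mem_univ j) h0] at h6
  exact mul_ne_zero (mul_ne_zero hC hdet) hC h6

end Cfsg.Agent.Lib.Helper5.SpTDIAGG
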