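import Mathlib
import Cfsg.Agent.Lib.Helper37.SpTStmt
import Cfsg.Agent.Lib.Helper5.SpTCommon
import Cfsg.Agent.Lib.Helper5.SpCard

set_option autoImplicit false

/-! S5980 piece [SPARITH]. -/

namespace Cfsg.Agent.Lib.Helper5.SpTSPARITH

open Matrix Cfsg.Agent.Lib.Helper5.SpTCommon

universe u

theorem main : Cfsg.Agent.Lib.Helper37.SpTStmt.SpArith.{u} := by
  intro F _ _ p _ _ r _ hrp d hdvd
  have hr : r.Prime := Fact.out
  have hrq : ¬ r ∣ Fintype.card F := not_dvd_card p r hrp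
  rw [card_spGL, Cfsg.Agent.Lib.Helper5.SpCard.card_symplectic] at hdvd
  rcases (Nat.Prime.dvd_mul hr).1 hdvd with h | h
  · exact absurd (hr.dvd_of_dvd_pow h) hrq
  · obtain ⟨i, hi, hri⟩ := (Prime.dvd_finsetProd_iff hr.prime _).1 h
    have hi' := Finset.mem_range.1 hi
    refine ⟨i + 1, by omega, by omega, ?_⟩
    apply orderOf_dvd_of_pow_eq_one
    have h1 : ((Fintype.card F ^ (2 * (i + 1)) - 1 : ℕ) : ZMod r) = 0 :=
      (ZMod.natCast_eq_zero_iff _ _).2 hri
    rw [Nat.cast_sub (Nat.one_le_pow _ _ Fintype.card_pos)] at h1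
    push_cast at h1
    exact sub_eq_zero.mp h1

end Cfsg.Agent.Lib.Helper5.SpTSPARITH
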