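import Mathlib
import Cfsg.Agent.Lib.Helper37.SpTStmt
import Cfsg.Agent.Lib.Helper5.SpTCommon
import Cfsg.Agent.Lib.Helper5.SpCard

set_option autoImplicit false

/-! S5980 piece [SPELTE]. -/

namespace Cfsg.Agent.Lib.Helper5.SpTSPELTE

open Matrix Cfsg.Agent.Lib.Helper5.SpTCommon

universe u

theorem main : Cfsg.Agent.Lib.Helper37.SpTStmt.SpEltE.{u} := by
  intro F _ _ p _ _ r _ hr2 hrp hev d hle
  classical
  have hr : r.Prime := Fact.out
  have hrq : ¬ r ∣ Fintype.card F := not_dvd_card p r hrp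
  obtain ⟨k, hk⟩ := hev
  rcases Nat.eq_zero_or_pos k with h0 | hkpos
  · refine ⟨1, Subgroup.one_mem _, one_pow r, ?_⟩
    rw [hk, h0]
    simp
  · have hord : orderOf ((Fintype.card F : ℕ) : ZMod r) = 2 * k := by omega
    have hkd : k ≤ d := by omega
    have hdvd : r ∣ Nat.card (Matrix.symplecticGroup (Fin k) F) := by
      rw [Cfsg.Agent.Lib.Helper5.SpCard.card_symplectic]
      apply Dvd.dvd.mul_left
      apply Dvd.dvd.trans _ (Finset.dvd_prod_of_mem _ (Finset.mem_range.2 (by omega : k - 1 < k)))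
      have h0 : 2 * (k - 1 + 1) = 2 * k := by omega
      rw [h0]
      exact dvd_pow_sub_one _ r _ Fintype.card_pos (by rw [hord])
    obtain ⟨y, hy⟩ := exists_prime_orderOf_dvd_card' r hdvd
    have hYr : (y : Matrix (Fin k ⊕ Fin k) (Fin k ⊕ Fin k) F) ^ r = 1 := by
      have h1 : y ^ r = 1 := hy ▸ pow_orderOf_eq_one y
      have h2 := congrArg Subtype.val h1
      exact h2
    have hY1 : (y : Matrix (Fin k ⊕ Fin k) (Fin k ⊕ Fin k) F) ≠ 1 := by
      intro h
      have h1 : y = 1 := Subtype.ext h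
      rw [h1, orderOf_one] at hy
      exact hr.one_lt.ne hy
    have hfix := Cfsg.Agent.S5963.fix_zero k r hrq hord y.1 hYr hY1
    obtain ⟨x, hx, hxr, hrank⟩ := exists_elt d k r hkd y.1 y.2 hYr hfix
    exact ⟨x, hx, hxr, by rw [hrank, hord]⟩

end Cfsg.Agent.Lib.Helper5.SpTSPELTE
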