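import Mathlib
import Cfsg.Agent.Lib.Helper37.SpTStmt
import Cfsg.Agent.Lib.Helper5.SpTCommon

set_option autoImplicit false

/-! S5980 piece [SPELTO]. -/

namespace Cfsg.Agent.Lib.Helper5.SpTSPELTO

open Matrix Cfsg.Agent.Lib.Helper5.SpTCommon

universe u

theorem blk_pow {F : Type u} [Field F] {n : ℕ} (M N : Matrix (Fin n) (Fin n) F) (k : ℕ) :
    (Matrix.fromBlocks M 0 0 N) ^ k = Matrix.fromBlocks (M ^ k) 0 0 (N ^ k) := by
  induction k with
  | zero => rw [pow_zero, pow_zero, pow_zero, Matrix.fromBlocks_one]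
  | succ k ih =>
    rw [pow_succ, ih, Matrix.fromBlocks_multiply, pow_succ, pow_succ]
    simp

theorem blk_symp {F : Type u} [Field F] {n : ℕ} (M Mi : Matrix (Fin n) (Fin n) F)
    (h1 : M * Mi = 1) :
    Matrix.fromBlocks M 0 0 Miᵀ ∈ Matrix.symplecticGroup (Fin n) F := by
  rw [SymplecticGroup.mem_iff, Matrix.J, Matrix.fromBlocks_transpose, Matrix.fromBlocks_multiply,
    Matrix.fromBlocks_multiply]
  have h2 : Miᵀ * Mᵀ = 1 := by rw [← Matrix.transpose_mul, h1, Matrix.transpose_one]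
  simp [h1, h2]

theorem main : Cfsg.Agent.Lib.Helper37.SpTStmt.SpEltO.{u} := by
  intro F _ _ p _ _ r _ hr2 hrp hodd d hle
  classical
  have hr : r.Prime := Fact.out
  have hrq : ¬ r ∣ Fintype.card F := not_dvd_card p r hrp
  obtain ⟨i, hi⟩ : ∃ i, i = orderOf ((Fintype.card F : ℕ) : ZMod r) := ⟨_, rfl⟩
  rw [← hi] at hodd hle ⊢
  have hipos : 0 < i := hodd.pos
  have hdvd : r ∣ Nat.card (GL (Fin i) F) := by
    rw [Matrix.card_GL_field]
    apply Dvd.dvd.trans _ (Finset.dvd_prod_of_mem _ (Finset.mem_univ (⟨0, hipos⟩ : Fin i)))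
    rw [pow_zero]
    exact dvd_pow_sub_one _ r i Fintype.card_pos (by rw [hi])
  obtain ⟨y, hy⟩ := exists_prime_orderOf_dvd_card' r hdvd
  obtain ⟨M, hM⟩ : ∃ M : Matrix (Fin i) (Fin i) F, M = (y : Matrix (Fin i) (Fin i) F) :=
    ⟨_, rfl⟩
  obtain ⟨Mi, hMi⟩ : ∃ Mi : Matrix (Fin i) (Fin i) F,
      Mi = ((y⁻¹ : GL (Fin i) F) : Matrix (Fin i) (Fin i) F) := ⟨_, rfl⟩
  have hMMi : M * Mi = 1 := by
    rw [hM, hMi, ← Units.val_mul, mul_inv_cancel]
    rfl
  have hyr : y ^ r = 1 := hy ▸ pow_orderOf_eq_one y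
  have hy1 : y ≠ 1 := by
    intro h1
    rw [h1, orderOf_one] at hy
    exact hr.one_lt.ne hy
  have hMr : M ^ r = 1 := by
    rw [hM, ← Units.val_pow_eq_pow_val, hyr]
    rfl
  have hMir : Mi ^ r = 1 := by
    rw [hMi, ← Units.val_pow_eq_pow_val, inv_pow, hyr, inv_one]
    rfl
  have hM1 : M ≠ 1 := by
    intro h
    apply hy1
    apply Units.ext
    rw [← hM, h]
    rfl
  have hMi1 : Miᵀ ≠ 1 := by
    intro h
    apply hy1
    have h2 : Mi = 1 := by
      have := congrArg Matrix.transpose h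
      rwa [Matrix.transpose_transpose, Matrix.transpose_one] at this
    have h3 : y⁻¹ = 1 := by
      apply Units.ext
      rw [← hMi, h2]
      rfl
    exact inv_eq_one.mp h3
  have hcard : orderOf ((Fintype.card F : ℕ) : ZMod r) = Fintype.card (Fin i) := by
    rw [Fintype.card_fin, hi]
  have hfixM := fix_zero' r hrq hcard M hMr hM1
  have hfixMi := fix_zero' r hrq hcard Miᵀ
    (by rw [← Matrix.transpose_pow, hMir, Matrix.transpose_one]) hMi1
  have hY : Matrix.fromBlocks M 0 0 Miᵀ ∈ Matrix.symplecticGroup (Fin i) F := blk_symp M Mi hMMi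
  have hYr : (Matrix.fromBlocks M 0 0 Miᵀ) ^ r = 1 := by
    rw [blk_pow, hMr, ← Matrix.transpose_pow, hMir, Matrix.transpose_one, Matrix.fromBlocks_one]
  have hfix : ∀ a, (Matrix.fromBlocks M 0 0 Miᵀ) *ᵥ a = a → a = 0 := by
    intro a ha
    rw [Matrix.fromBlocks_mulVec] at ha
    have h1 : M *ᵥ (a ∘ Sum.inl) = a ∘ Sum.inl := by
      funext j
      have := congrFun ha (Sum.inl j)
      simpa using this
    have h2 : Miᵀ *ᵥ (a ∘ Sum.inr) = a ∘ Sum.inr := by
      funext j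
      have := congrFun ha (Sum.inr j)
      simpa using this
    have h3 := hfixM _ h1
    have h4 := hfixMi _ h2
    funext j
    rcases j with j | j
    · exact congrFun h3 j
    · exact congrFun h4 j
  obtain ⟨x, hx, hxr, hrank⟩ := exists_elt d i r hle _ hY hYr hfix
  exact ⟨x, hx, hxr, hrank⟩

end Cfsg.Agent.Lib.Helper5.SpTSPELTO
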