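import Mathlib
import Cfsg.Agent.Lib.Helper44.TPStmt
import Cfsg.Agent.Lib.Helper44.Levi

/-!
# S5973 / INVBAD2 (second seat, helper5)

`q ≡ 3 (mod 4)`, `d` even, `m` odd: the Levi image `x = diag(A, A⁻ᵀ)` of a block-diagonal
rotation `A ∈ SL_d` with `A * A = -1` lies in `Ω⁺`, has `x * x = -1`, is not scalar and leaves
no subspace of odd dimension invariant (its determinant there would be a square root of `-1`).
-/

set_option autoImplicit false

universe u

open scoped Matrix

namespace Cfsg.Agent.Lib.Helper5.TPINVBAD2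

open Cfsg.Agent.Lib.Helper44.TPStmt
open Cfsg.Agent.Lib.Helper44

/-- the `2 × 2` rotation block -/
def J2 (F : Type u) [Field F] : Matrix (Fin 2) (Fin 2) F := !![0, -1; 1, 0]

theorem J2_mul (F : Type u) [Field F] : J2 F * J2 F = -1 := by
  ext i j
  fin_cases i <;> fin_cases j <;> simp [J2, Matrix.mul_apply, Fin.sum_univ_two]

theorem J2_det (F : Type u) [Field F] : (J2 F).det = 1 := by
  simp [J2, Matrix.det_fin_two]

/-- the block diagonal matrix with `k` rotation blocks -/
noncomputable def BD (F : Type u) [Field F] (k : ℕ) : Matrix (Fin 2 × Fin k) (Fin 2 × Fin k) F :=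
  Matrix.blockDiagonal (fun _ : Fin k => J2 F)

theorem BD_mul (F : Type u) [Field F] (k : ℕ) : BD F k * BD F k = -1 := by
  unfold BD
  rw [← Matrix.blockDiagonal_mul]
  have h : (fun _ : Fin k => J2 F * J2 F) = -(1 : Fin k → Matrix (Fin 2) (Fin 2) F) := by
    funext _
    exact J2_mul F
  rw [h, Matrix.blockDiagonal_neg, Matrix.blockDiagonal_one]

theorem BD_det (F : Type u) [Field F] (k : ℕ) : (BD F k).det = 1 := by
  unfold BD
  rw [Matrix.det_blockDiagonal]
  simp [J2_det]

/-- an element of `SL_d`, `d` even, with square `-1` -/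
theorem exists_sl (F : Type u) [Field F] (d : ℕ) (hd : Even d) :
    ∃ S : Matrix.SpecialLinearGroup (Fin d) F,
      (S : Matrix (Fin d) (Fin d) F) * (S : Matrix (Fin d) (Fin d) F) = -1 := by
  obtain ⟨k, hk⟩ := hd
  have hc : Fintype.card (Fin 2 × Fin k) = d := by
    simp only [Fintype.card_prod, Fintype.card_fin]
    omega
  let e : Fin 2 × Fin k ≃ Fin d := Fintype.equivFinOfCardEq hc
  refine ⟨⟨Matrix.reindexAlgEquiv F F e (BD F k), ?_⟩, ?_⟩
  · rw [Matrix.det_reindexAlgEquiv, BD_det]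
  · show Matrix.reindexAlgEquiv F F e (BD F k) * Matrix.reindexAlgEquiv F F e (BD F k) = -1
    rw [← map_mul, BD_mul, map_neg, map_one]

theorem not_sq (F : Type u) [Field F] [Fintype F] (hq : Fintype.card F % 4 = 3) :
    ¬ IsSquare (-1 : F) := by
  rw [FiniteField.isSquare_neg_one_iff]
  omega

theorem no_odd_inv {F : Type u} [Field F] {ι : Type} [Fintype ι] [DecidableEq ι]
    (hns : ¬ IsSquare (-1 : F)) (x : Matrix ι ι F) (hx : x * x = -1)
    (W : Submodule F (ι → F)) (hW : W.map (Matrix.toLin' x) ≤ W)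
    (hm : Odd (Module.finrank F ↥W)) : False := by
  have hWs' : ∀ w ∈ W, Matrix.toLin' x w ∈ W := by
    intro w hw
    exact hW (Submodule.mem_map_of_mem hw)
  set f : ↥W →ₗ[F] ↥W := (Matrix.toLin' x).restrict hWs' with hf
  have hff : f * f = (-1 : F) • (1 : ↥W →ₗ[F] ↥W) := by
    ext w : 2
    have h1 : (((f * f) w : ↥W) : ι → F) = x *ᵥ (x *ᵥ (w : ι → F)) := rfl
    rw [h1, Matrix.mulVec_mulVec, hx, Matrix.neg_mulVec, Matrix.one_mulVec]
    simp
  have hdet : LinearMap.det f * LinearMap.det f = -1 := by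
    rw [← map_mul, hff, LinearMap.det_smul, map_one, mul_one, Odd.neg_one_pow hm]
  exact hns ⟨LinearMap.det f, hdet.symm⟩

theorem main : InvBad2.{u} := by
  intro F _ _ hq d m hd hde hm
  classical
  obtain ⟨S, hS⟩ := exists_sl F d hde
  have hns : ¬ IsSquare (-1 : F) := not_sq F hq
  set A : GL (Fin d) F := Matrix.SpecialLinearGroup.toGL S with hA
  have hAc : (A : Matrix (Fin d) (Fin d) F) = (S : Matrix (Fin d) (Fin d) F) := rfl
  have hA2 : A * A = -1 := by
    apply Units.ext
    rw [Units.val_mul, hAc, hS, Units.val_neg, Units.val_one]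
  set x : GL (J d) F := Levi.leviGL A with hx
  have hx2 : x * x = -1 := by
    rw [hx, ← map_mul, hA2]
    apply Units.ext
    rw [Levi.coe_leviGL, Units.val_neg, Units.val_one]
    unfold Levi.leviM
    rw [inv_neg_one, Units.val_neg, Units.val_one, Matrix.transpose_neg, Matrix.transpose_one,
      ← Matrix.fromBlocks_one, Matrix.fromBlocks_neg]
    simp
  have hx2m : (x : Matrix (J d) (J d) F) * (x : Matrix (J d) (J d) F) = -1 := by
    rw [← Units.val_mul, hx2, Units.val_neg, Units.val_one]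
  refine ⟨x, ?_, ?_, ?_, ?_⟩
  · have hψ := GLAb.map_toGL_eq_one (ι := Fin d) (F := F)
      (Or.inl (by omega : Fintype.card F ≠ 2))
      ((Abelianization.of).comp (Levi.levi d F)) S
    have hmem : Levi.levi d F A ∈ commutator ↥(Cfsg.isometryGroup F ⇑(NegPairs.plusQ d F)) := by
      rw [← Abelianization.ker_of, MonoidHom.mem_ker]
      exact hψ
    show x ∈ Cfsg.Geo.omegaGL ⇑(NegPairs.plusQ d F)
    unfold Cfsg.Geo.omegaGL
    rw [Subgroup.mem_map]
    exact ⟨Levi.levi d F A, hmem, rfl⟩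
  · rw [sq, Units.val_mul, hx2m, neg_smul, one_smul]
  · intro z hz
    have h1 := hx2m
    rw [hz, smul_mul_smul_comm, mul_one] at h1
    have h2 := congrFun (congrFun h1 (Sum.inl ⟨0, by omega⟩)) (Sum.inl ⟨0, by omega⟩)
    simp at h2
    exact hns ⟨z, h2.symm⟩
  · rintro ⟨W, hWm, -, hWs⟩
    exact no_odd_inv hns (x : Matrix (J d) (J d) F) hx2m W hWs (hWm ▸ hm)

end Cfsg.Agent.Lib.Helper5.TPINVBAD2
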